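/-
Doubly transitive linear groups containing a Singer cycle: vocabulary.
-/
import Mathlib
import Cfsg.Agent.Cl.D5Defs

set_option autoImplicit false

namespace Cfsg.Agent.SG

open Matrix Cfsg.Geo
open scoped MatrixGroups

variable {nn : ℕ} {F : Type*} [Field F]

local notation "Mn" => Matrix (Fin nn) (Fin nn) F
local notation "SLn" => specialLinear (Fin nn) F
local notation "Zn" => scalars (Fin nn) F

/-- Two independent vectors. -/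
def Ind2 (a b : Fin nn → F) : Prop := ∀ s t : F, s • a + t • b = 0 → s = 0 ∧ t = 0

/-- The span of two vectors. -/
abbrev sp (a b : Fin nn → F) : Submodule F (Fin nn → F) := Submodule.span F {a, b}

/-- `G` is doubly transitive on the points. -/
def TwoT (G : Subgroup (GL (Fin nn) F)) : Prop :=
  ∀ a b a' b' : Fin nn → F, Ind2 a b → Ind2 a' b' →
    ∃ g ∈ G, ∃ s t : F, (g : Mn) *ᵥ a = s • a' ∧ (g : Mn) *ᵥ b = t • b'

/-- Transitivity on functionals, on flags and on antiflags. -/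
structure Flag (G : Subgroup (GL (Fin nn) F)) : Prop where
  dual : ∀ η ζ : Fin nn → F, η ≠ 0 → ζ ≠ 0 → ∃ g ∈ G, η ᵥ* (g : Mn) = ζ
  on : ∀ η x y : Fin nn → F, η ≠ 0 → x ≠ 0 → y ≠ 0 → η ⬝ᵥ x = 0 → η ⬝ᵥ y = 0 →
    ∃ g ∈ G, η ᵥ* (g : Mn) = η ∧ ∃ s : F, (g : Mn) *ᵥ x = s • y
  off : ∀ η x y : Fin nn → F, η ⬝ᵥ x = 1 → η ⬝ᵥ y = 1 →
    ∃ g ∈ G, η ᵥ* (g : Mn) = η ∧ (g : Mn) *ᵥ x = y

/-- The stabiliser of the point `x` and the vector `y` is transitive on the hyperplanes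
through `x` and not through `y`. -/
def Tri (G : Subgroup (GL (Fin nn) F)) : Prop :=
  ∀ x y η ζ : Fin nn → F, x ≠ 0 → η ⬝ᵥ x = 0 → ζ ⬝ᵥ x = 0 → η ⬝ᵥ y = 1 → ζ ⬝ᵥ y = 1 →
    ∃ g ∈ G, (∃ s : F, (g : Mn) *ᵥ x = s • x) ∧ (g : Mn) *ᵥ y = y ∧ η ᵥ* (g : Mn) = ζ

/-- `G` induces all elations on every plane. -/
def Tr (G : Subgroup (GL (Fin nn) F)) : Prop :=
  ∀ a b x : Fin nn → F, Ind2 a b → x ∉ sp a b → ∀ u ∈ sp a b,
    ∃ g ∈ G, (g : Mn) *ᵥ a = a ∧ (g : Mn) *ᵥ b = b ∧ (g : Mn) *ᵥ x = x + u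

/-- The standing hypotheses on a doubly transitive group. -/
structure CK (G : Subgroup (GL (Fin nn) F)) : Prop where
  dim : 3 ≤ nn
  sc : Zn ≤ G
  two : TwoT G
  flag : Flag G
  tr : Tr G

/-- The stabiliser of two vectors. -/
def fix2 (G : Subgroup (GL (Fin nn) F)) (a b : Fin nn → F) : Subgroup (GL (Fin nn) F) where
  carrier := {g | g ∈ G ∧ (g : Mn) *ᵥ a = a ∧ (g : Mn) *ᵥ b = b}
  one_mem' := ⟨G.one_mem, by simp, by simp⟩
  mul_mem' := fun {g h} ⟨g0, g1, g2⟩ ⟨h0, h1, h2⟩ => ⟨G.mul_mem g0 h0,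
    by rw [Units.val_mul, ← mulVec_mulVec, h1, g1], by rw [Units.val_mul, ← mulVec_mulVec, h2, g2]⟩
  inv_mem' := fun {g} ⟨g0, g1, g2⟩ => ⟨G.inv_mem g0,
    by conv_lhs => rw [← g1, mulVec_mulVec, Units.inv_mul, one_mulVec],
    by conv_lhs => rw [← g2, mulVec_mulVec, Units.inv_mul, one_mulVec]⟩

/-- The vectors fixed by `X`. -/
def Fx (X : Subgroup (GL (Fin nn) F)) : Submodule F (Fin nn → F) where
  carrier := {v | ∀ g ∈ X, (g : Mn) *ᵥ v = v}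
  add_mem' h1 h2 g hg := by rw [mulVec_add, h1 g hg, h2 g hg]
  zero_mem' g _ := mulVec_zero _
  smul_mem' c v h g hg := by rw [mulVec_smul, h g hg]

/-- Special functionals. -/
def Sp (G : Subgroup (GL (Fin nn) F)) (a b η : Fin nn → F) : Prop :=
  η ≠ 0 ∧ η ⬝ᵥ a = 0 ∧ η ⬝ᵥ b = 0 ∧
    ∀ x y, η ⬝ᵥ x = 1 → η ⬝ᵥ y = 1 → ∃ g ∈ fix2 G a b, (g : Mn) *ᵥ x = y

/-- The common kernel of the special functionals. -/
def W (G : Subgroup (GL (Fin nn) F)) (a b : Fin nn → F) : Submodule F (Fin nn → F) where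
  carrier := {x | ∀ η, Sp G a b η → η ⬝ᵥ x = 0}
  add_mem' h1 h2 η h := by rw [dotProduct_add, h1 η h, h2 η h, add_zero]
  zero_mem' η _ := dotProduct_zero η
  smul_mem' c v h η hη := by rw [dotProduct_smul, h η hη, smul_zero]

/-- `X` is a Sylow `l`-subgroup of `H`. -/
structure Syl (l : ℕ) (X H : Subgroup (GL (Fin nn) F)) : Prop where
  le : X ≤ H
  pg : IsPGroup l X
  nd : ¬ l ∣ X.relIndex H

/-- Some member of `G` is a transvection. -/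
def HasT (G : Subgroup (GL (Fin nn) F)) : Prop :=
  ∃ g ∈ G, ∃ v η : Fin nn → F, v ≠ 0 ∧ η ≠ 0 ∧ η ⬝ᵥ v = 0 ∧ ∀ x, (g : Mn) *ᵥ x = x + (η ⬝ᵥ x) • v

/-- `Γ` induces all elations on the planes of `A`. -/
def TrO (Γ : Subgroup (GL (Fin nn) F)) (A : Submodule F (Fin nn → F)) : Prop :=
  ∀ a ∈ A, ∀ b ∈ A, ∀ x ∈ A, Ind2 a b → x ∉ sp a b → ∀ u ∈ sp a b,
    ∃ g ∈ Γ, (g : Mn) *ᵥ a = a ∧ (g : Mn) *ᵥ b = b ∧ (g : Mn) *ᵥ x = x + u

/-- The members of `G` that fix `R` pointwise. -/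
def fixS (G : Subgroup (GL (Fin nn) F)) (R : Submodule F (Fin nn → F)) : Subgroup (GL (Fin nn) F) where
  carrier := {g | g ∈ G ∧ ∀ v ∈ R, (g : Mn) *ᵥ v = v}
  one_mem' := ⟨G.one_mem, by simp⟩
  mul_mem' := fun {g h} ⟨g0, g1⟩ ⟨h0, h1⟩ => ⟨G.mul_mem g0 h0, fun v hv =>
    by rw [Units.val_mul, ← mulVec_mulVec, h1 v hv, g1 v hv]⟩
  inv_mem' := fun {g} ⟨g0, g1⟩ => ⟨G.inv_mem g0, fun v hv =>
    by conv_lhs => rw [← g1 v hv, mulVec_mulVec, Units.inv_mul, one_mulVec]⟩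

end Cfsg.Agent.SG
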