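/-
Overgroups of the Singer normaliser in `SL_n(q)`, `n` prime: vocabulary.
-/
import Mathlib
import Cfsg.Agent.SG.KDefs
import Cfsg.Agent.Ch.Orthogonality

set_option autoImplicit false

namespace Cfsg.Agent.SG

open Matrix Cfsg.Geo
open scoped MatrixGroups ComplexConjugate

/-- `S` is abelian of order `m`, `Z` is central of order prime to `m`, `S ⊔ Z` is the centraliser of
each non-trivial element of `S` and has prime index `n` in the normaliser of `S`. -/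
structure TZ {G : Type*} [Group G] (n m : ℕ) (S Z : Subgroup G) : Prop where
  pr : n.Prime
  comm : ∀ a ∈ S, ∀ b ∈ S, a * b = b * a
  card : Nat.card S = m
  zc : ∀ z ∈ Z, ∀ g : G, z * g = g * z
  cop : Nat.Coprime m (Nat.card Z)
  copn : Nat.Coprime m n
  cent : ∀ s ∈ S, s ≠ 1 → ∀ g : G, g * s = s * g → g ∈ S ⊔ Z
  idx : Nat.card (Subgroup.normalizer (S : Set G)) = n * (Nat.card Z * m)

/-- The irreducible characters with the same central character on `Z` as `ω`. -/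
noncomputable def cls {G : Type*} [Group G] [Fintype G] (Z : Subgroup G) (ω : IrrCharacter G) :
    Finset (IrrCharacter G) :=
  open Classical in Finset.univ.filter fun χ => ∀ z ∈ Z, χ.1 z * ω.1 1 = ω.1 z * χ.1 1

theorem mem_cls {G : Type*} [Group G] [Fintype G] {Z : Subgroup G} {ω χ : IrrCharacter G} :
    χ ∈ cls Z ω ↔ ∀ z ∈ Z, χ.1 z * ω.1 1 = ω.1 z * χ.1 1 := by
  simp [cls]

theorem self_mem_cls {G : Type*} [Group G] [Fintype G] (Z : Subgroup G) (ω : IrrCharacter G) :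
    ω ∈ cls Z ω := mem_cls.2 fun _ _ => rfl

/-- Multiplicities of the linear characters of `S` in the restrictions of the irreducible
characters of `G`: `b χ` for the trivial one, `a χ i` for those in the `i`-th orbit. -/
structure CD {G : Type*} [Group G] [Fintype G] (n : ℕ) (S Z : Subgroup G) [Fintype S] (t : ℕ)
    (a : IrrCharacter G → Fin t → ℕ) (b : IrrCharacter G → ℕ) : Prop where
  card : Nat.card S = n * t + 1
  two : ∀ ω i j, i ≠ j → ∑ χ ∈ cls Z ω, ((a χ i : ℤ) - a χ j) ^ 2 = 2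
  eight : ∀ ω i, ∑ χ ∈ cls Z ω, ((b χ : ℤ) - a χ i) ^ 2 = n + 1
  deg : ∀ χ : IrrCharacter G, χ.1 1 = ((b χ + n * ∑ i, a χ i : ℕ) : ℂ)
  orth : ∀ ω i j, ∑ χ ∈ cls Z ω, ((b χ + n * ∑ k, a χ k : ℕ) : ℤ) * ((a χ i : ℤ) - a χ j) = 0
  bdef : ∀ χ : IrrCharacter G, ∑ s : S, χ.1 s = (Nat.card S : ℂ) * b χ
  sq : ∀ χ : IrrCharacter G,
    ∑ s : S, χ.1 s * conj (χ.1 s) = (Nat.card S : ℂ) * ((b χ ^ 2 + n * ∑ i, a χ i ^ 2 : ℕ) : ℂ)
  val : ∀ (χ : IrrCharacter G) (α : ℕ), (∀ i, a χ i = α) → ∀ s ∈ S, s ≠ 1 → χ.1 s = (b χ : ℂ) - α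
  reg : ∀ (c : IrrCharacter G → ℕ), (∀ s ∈ S, s ≠ 1 → ∑ χ, (c χ : ℂ) * χ.1 s = 0) →
    ∀ i, ∑ χ, c χ * a χ i = ∑ χ, c χ * b χ

/-- The normal closure of `S` in `H`. -/
def ncl {G : Type*} [Group G] (H S : Subgroup G) : Subgroup G :=
  Subgroup.closure {x | ∃ h ∈ H, ∃ s ∈ S, x = h * s * h⁻¹}

variable {nn : ℕ} {F : Type*} [Field F]

local notation "Mn" => Matrix (Fin nn) (Fin nn) F
local notation "SLn" => specialLinear (Fin nn) F
local notation "Zn" => scalars (Fin nn) F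

/-- `S` is the subgroup of order `m = (q^n - 1) / ((q - 1) gcd(n, q - 1))` of the field `K`. -/
structure Sing [Fintype F] (K : Subalgebra F Mn) (S : Subgroup (GL (Fin nn) F)) (m : ℕ) : Prop where
  pr : nn.Prime
  fld : IsFieldSubalgebra nn K
  mem : ∀ g, g ∈ S ↔ (g : Mn) ∈ K ∧ g ^ m = 1
  sl : S ≤ SLn
  card : Nat.card S = m
  th : Nat.gcd nn (Fintype.card F - 1) * m * (Fintype.card F - 1) = Fintype.card F ^ nn - 1
  cop : Nat.Coprime m nn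
  cardZ : Nat.card ↥(Zn ⊓ SLn) = Nat.gcd nn (Fintype.card F - 1)
  tt : ∀ g ∈ SLn, (g : Mn) ∈ K → g ∈ S ⊔ (Zn ⊓ SLn)
  cardN : Nat.card ↥(subalgebraNormalizer K ⊓ SLn) = nn * (Nat.gcd nn (Fintype.card F - 1) * m)
  free : ∀ s ∈ K, ∀ (v : Fin nn → F) (c : F), v ≠ 0 → s *ᵥ v = c • v → s = c • (1 : Mn)
  nz : ∀ s ∈ S, s ∈ Zn → s = 1
  cent : ∀ s ∈ S, s ≠ 1 → ∀ g : GL (Fin nn) F, g * s = s * g → (g : Mn) ∈ K
  norm : ∀ s ∈ S, s ≠ 1 → ∀ g : GL (Fin nn) F, g * s * g⁻¹ ∈ S → g ∈ subalgebraNormalizer K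
  norm' : ∀ g ∈ subalgebraNormalizer K, ∀ s ∈ S, g * s * g⁻¹ ∈ S
  irr : ∀ s ∈ S, s ≠ 1 → ∀ U : Submodule F (Fin nn → F), (∀ v ∈ U, (s : Mn) *ᵥ v ∈ U) → U = ⊥ ∨ U = ⊤

/-- A minimal proper overgroup of the Singer normaliser. -/
structure Sit [Fintype F] (K : Subalgebra F Mn) (S H : Subgroup (GL (Fin nn) F)) (m : ℕ) : Prop where
  big : 13 ≤ nn
  sing : Sing K S m
  le : H ≤ SLn
  nle : subalgebraNormalizer K ⊓ SLn ≤ H
  gen : H ≤ ncl H S ⊔ (Zn ⊓ SLn)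

/-- The orbit of the vector `y` under the stabiliser of the vector `x`. -/
def vo (H : Subgroup (GL (Fin nn) F)) (x y : Fin nn → F) : Set (Fin nn → F) :=
  {w | ∃ g ∈ H, (g : Mn) *ᵥ x = x ∧ (g : Mn) *ᵥ y = w}

/-- That orbit is large. -/
def Big [Fintype F] (H : Subgroup (GL (Fin nn) F)) (x y : Fin nn → F) : Prop :=
  Fintype.card F ^ (nn - 1) ≤ (vo H x y).ncard

/-- The stabiliser of `x` is transitive on the other points of the line through `x` and `y`. -/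
def Full (H : Subgroup (GL (Fin nn) F)) (x y : Fin nn → F) : Prop :=
  ∀ a : F, ∃ g ∈ H, ∃ c : F, (g : Mn) *ᵥ x = x ∧ (g : Mn) *ᵥ y = c • (y + a • x)

/-- The normal closure of `S` is transitive on the orbit of the vector `x`. -/
def LTr (H S : Subgroup (GL (Fin nn) F)) (x : Fin nn → F) : Prop :=
  ∀ g ∈ H, ∃ l ∈ ncl H S, (l : Mn) *ᵥ x = (g : Mn) *ᵥ x

/-- `H` is transitive on the points. -/
def PT (H : Subgroup (GL (Fin nn) F)) : Prop :=
  ∀ x y : Fin nn → F, x ≠ 0 → y ≠ 0 → ∃ g ∈ H, ∃ c : F, (g : Mn) *ᵥ x = c • y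

end Cfsg.Agent.SG
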