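import Mathlib
import Cfsg.Agent.SG.Defs
import Cfsg.Agent.S11.Frob

set_option autoImplicit false
set_option linter.unusedVariables false

namespace Cfsg.Agent.SG

open Matrix Cfsg.Geo Module
open scoped MatrixGroups ComplexConjugate commutatorElement

theorem frob_count0 {G Ω : Type*} [Group G] [Finite G] [Finite Ω] [Nonempty Ω] [MulAction G Ω]
    {S : Subgroup G} {n m B : ℕ} (comm : ∀ a ∈ S, ∀ b ∈ S, a * b = b * a) (hc : Nat.card S = m)
    (cent : ∀ s ∈ S, s ≠ 1 → ∀ g : G, g * s = s * g → g ∈ S)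
    (hN : Subgroup.normalizer (S : Set G) = S) (hs : ∀ s ∈ S, s ≠ 1 → ∀ x : Ω, s • x ≠ x)
    (hd : Nat.card Ω ≤ n * m) (hB : ∀ g : G, g ≠ 1 → Nat.card (MulAction.fixedBy Ω g) ≤ B)
    (hm : B + n + 1 ≤ m) : S = ⊤ := by
  classical
  by_contra h1
  have := Fintype.ofFinite G
  have hm0 : 0 < m := by omega
  have hG := S.card_mul_index
  have hb := S11.frob_burnside (G := G) (Ω := Ω)
  by_cases h0 : S = ⊥
  · subst h0
    rw [Subgroup.card_bot] at hc
    have hn : n = 0 := by omega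
    have : 0 < Nat.card Ω := Nat.card_pos
    subst hn
    omega
  have hF := S11.frob_isCompl comm cent hN h0 h1
  have hlt := hF.card_lt_index
  have hk := hF.card_kernel
  set K : Finset G := Finset.univ.filter (· ∈ frobeniusKernel S) with hK
  have hKc : K.card = S.index := by
    rw [← hk, Nat.card_eq_fintype_card, Fintype.card_subtype]
  have h1K : (1 : G) ∈ K := by simp [hK, GT.Frob.one_mem_frobeniusKernel]
  have hz : ∀ g, g ∉ K → Nat.card (MulAction.fixedBy Ω g) = 0 := by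
    intro g hg
    have hg' : g ∉ frobeniusKernel S := by simpa [hK] using hg
    obtain ⟨g1, a, ha⟩ := GT.Frob.notMem_frobeniusKernel_iff.1 hg'
    have ha1 : a * g * a⁻¹ ≠ 1 := fun e => g1 (by
      calc g = a⁻¹ * (a * g * a⁻¹) * a := by group
        _ = 1 := by rw [e]; group)
    have : IsEmpty (MulAction.fixedBy Ω g) := ⟨fun ⟨x, hx⟩ => hs _ ha ha1 (a • x) (by
      have hx' : g • x = x := hx
      rw [mul_smul, mul_smul, inv_smul_smul, hx'])⟩
    exact Nat.card_of_isEmpty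
  have e1 : ∑ g : G, Nat.card (MulAction.fixedBy Ω g) = ∑ g ∈ K, Nat.card (MulAction.fixedBy Ω g) :=
    (Finset.sum_subset (Finset.subset_univ K) fun g _ hg => hz g hg).symm
  have e2 := Finset.add_sum_erase K (fun g => Nat.card (MulAction.fixedBy Ω g)) h1K
  have e3 : ∑ g ∈ K.erase 1, Nat.card (MulAction.fixedBy Ω g) ≤ (K.erase 1).card • B :=
    Finset.sum_le_card_nsmul _ _ _ fun g hg => hB g (Finset.ne_of_mem_erase hg)
  have e4 : Nat.card (MulAction.fixedBy Ω (1 : G)) ≤ n * m :=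
    (Finite.card_subtype_le _).trans hd
  rw [Finset.card_erase_of_mem h1K, hKc, smul_eq_mul] at e3
  rw [hc] at hlt hG
  obtain ⟨k, hk'⟩ : ∃ k, S.index = k + 1 := ⟨S.index - 1, by omega⟩
  rw [hk'] at hlt hG e3
  simp only [Nat.add_sub_cancel] at e3
  have e5 : m * (k + 1) ≤ n * m + k * B := by omega
  have e6 : k * (B + n + 1) ≤ k * m := Nat.mul_le_mul_left k hm
  have e7 : n * m ≤ n * k := Nat.mul_le_mul_left n (by omega)
  nlinarith

theorem frob_count {G Ω : Type*} [Group G] [Finite G] [Finite Ω] [Nonempty Ω] [MulAction G Ω]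
    {S Z : Subgroup G} {n m B : ℕ} (comm : ∀ a ∈ S, ∀ b ∈ S, a * b = b * a) (hc : Nat.card S = m)
    (zc : ∀ z ∈ Z, ∀ g : G, z * g = g * z) (cop : Nat.Coprime m (Nat.card Z))
    (cent : ∀ s ∈ S, s ≠ 1 → ∀ g : G, g * s = s * g → g ∈ S ⊔ Z)
    (hN : Subgroup.normalizer (S : Set G) = S ⊔ Z) (hZ : ∀ z ∈ Z, ∀ x : Ω, z • x = x)
    (hs : ∀ s ∈ S, s ≠ 1 → ∀ x : Ω, s • x ≠ x) (hd : Nat.card Ω ≤ n * m)
    (hB : ∀ g : G, g ∉ Z → Nat.card (MulAction.fixedBy Ω g) ≤ B) (hm : B + n + 1 ≤ m) : S ⊔ Z = ⊤ := by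
  have hZn : Z.Normal := ⟨fun z hz g => by rwa [← zc z hz g, mul_inv_cancel_right]⟩
  have sm : ∀ s ∈ S, s ^ m = 1 := fun s h => by
    rw [← hc]
    exact orderOf_dvd_iff_pow_eq_one.1 (S.orderOf_dvd_natCard h)
  have z1 : ∀ z ∈ Z, z ^ m = 1 → z = 1 := fun z hz e =>
    orderOf_eq_one_iff.1 (Nat.eq_one_of_dvd_coprimes cop (orderOf_dvd_of_pow_eq_one e)
      (Z.orderOf_dvd_natCard hz))
  set π := QuotientGroup.mk' Z with hπ
  have ker : ∀ g, π g = 1 ↔ g ∈ Z := fun g => QuotientGroup.eq_one_iff g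
  have key : ∀ s ∈ S, ∀ x : G, x ^ m = 1 → π s = π x → s = x := by
    intro s hs' x hx e
    have hz : s⁻¹ * x ∈ Z := (ker _).1 (by rw [map_mul, map_inv, e, inv_mul_cancel])
    have c : Commute s (s⁻¹ * x) := (zc _ hz s).symm
    have e2 := c.mul_pow m
    rw [mul_inv_cancel_left, hx, sm s hs', one_mul] at e2
    exact inv_mul_eq_one.1 (z1 _ hz e2.symm)
  have cj : ∀ s ∈ S, ∀ g : G, (g * s * g⁻¹) ^ m = 1 := fun s h g => by
    rw [conj_pow, sm s h, mul_one, mul_inv_cancel]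
  have cm : (S.map π).comap π = S ⊔ Z := by
    rw [Subgroup.comap_map_eq, hπ, QuotientGroup.ker_mk']
  have up : ∀ g ∈ S ⊔ Z, π g ∈ S.map π := fun g hg => by
    rw [← cm] at hg
    exact hg
  let ρ : G ⧸ Z →* Equiv.Perm Ω := QuotientGroup.lift Z (MulAction.toPermHom G Ω) fun z hz =>
    Equiv.ext fun x => hZ z hz x
  letI : MulAction (G ⧸ Z) Ω := MulAction.compHom Ω ρ
  have act : ∀ (g : G) (x : Ω), π g • x = g • x := fun g x => rfl
  have top : S.map π = ⊤ := by
    refine frob_count0 (Ω := Ω) (n := n) (m := m) (B := B) ?_ ?_ ?_ ?_ ?_ hd ?_ hm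
    · rintro _ ⟨a, ha, rfl⟩ _ ⟨b, hb, rfl⟩
      rw [← map_mul, comm a ha b hb, map_mul]
    · rw [← hc]
      exact Nat.card_image_of_injOn fun a ha b hb e => key a ha b (sm b hb) e
    · rintro _ ⟨s, hs', rfl⟩ h1 g e
      obtain ⟨g, rfl⟩ := QuotientGroup.mk'_surjective Z g
      refine up g (cent s hs' (fun e1 => h1 (by rw [e1, map_one])) g ?_)
      have := key s hs' _ (cj s hs' g) (by
        rw [map_mul, map_mul, map_inv, e, mul_inv_cancel_right])
      exact mul_inv_eq_iff_eq_mul.1 this.symm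
    · refine le_antisymm (fun g hg => ?_) Subgroup.le_normalizer
      obtain ⟨g, rfl⟩ := QuotientGroup.mk'_surjective Z g
      refine up g ?_
      rw [← hN]
      refine Subgroup.mem_normalizer_fintype fun s hs' => ?_
      obtain ⟨s', h', e⟩ := (Subgroup.mem_normalizer_iff.1 hg (π s)).1 ⟨s, hs', rfl⟩
      have := key s' h' _ (cj s hs' g) (by rw [e, map_mul, map_mul, map_inv])
      exact this ▸ h'
    · rintro _ ⟨s, hs', rfl⟩ h1 x
      exact hs s hs' (fun e1 => h1 (by rw [e1, map_one])) x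
    · intro g h1
      obtain ⟨g, rfl⟩ := QuotientGroup.mk'_surjective Z g
      exact hB g fun hg => h1 ((ker g).2 hg)
  rw [← cm, top, Subgroup.comap_top]

end Cfsg.Agent.SG
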