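import Mathlib
import Cfsg.Agent.SG.Defs
import Cfsg.Agent.SG.Frob

set_option autoImplicit false
set_option linter.unusedVariables false

namespace Cfsg.Agent.SG

open Matrix Cfsg.Geo Module
open scoped MatrixGroups ComplexConjugate commutatorElement

theorem TZ.abs_key {G : Type*} [Group G] [Finite G] {S Z : Subgroup G} {n m : ℕ} (h : TZ n m S Z)
    {x : G} (hx : x ∈ Subgroup.normalizer (S : Set G)) (h1 : x ^ m = 1) : x ∈ S := by
  have hm : 0 < m := h.card ▸ Nat.card_pos
  have hi : (S.subgroupOf (Subgroup.normalizer (S : Set G))).index = n * Nat.card Z := by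
    have := (S.subgroupOf (Subgroup.normalizer (S : Set G))).index_mul_card
    rw [Nat.card_congr (Subgroup.subgroupOfEquivOfLe Subgroup.le_normalizer).toEquiv, h.card, h.idx,
      ← mul_assoc] at this
    exact Nat.eq_of_mul_eq_mul_right hm this
  have h2 := (S.subgroupOf (Subgroup.normalizer (S : Set G))).pow_index_mem ⟨x, hx⟩
  rw [hi, Subgroup.mem_subgroupOf, Subgroup.coe_pow] at h2
  refine Subgroup.zpowers_le.2 h2 (mem_zpowers_pow_iff.2 ?_)
  exact ((h.copn.mul_right h.cop).symm).coprime_dvd_right (orderOf_dvd_of_pow_eq_one h1)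

theorem TZ.abs_between {G : Type*} [Group G] [Finite G] {S Z K : Subgroup G} {n m : ℕ}
    (h : TZ n m S Z) (h1 : S ⊔ Z ≤ K) (h2 : K ≤ Subgroup.normalizer (S : Set G)) :
    K = S ⊔ Z ∨ K = Subgroup.normalizer (S : Set G) := by
  have hm : 0 < m := h.card ▸ Nat.card_pos
  have dv : ∀ T : Subgroup G, S ⊔ Z ≤ T → Nat.card Z * m ∣ Nat.card T := fun T hT =>
    h.cop.symm.mul_dvd_of_dvd_of_dvd (Subgroup.card_dvd_of_le (le_sup_right.trans hT))
      (h.card ▸ Subgroup.card_dvd_of_le (le_sup_left.trans hT))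
  obtain ⟨k, hk⟩ := dv K h1
  have h3 := Subgroup.card_dvd_of_le h2
  rw [hk, h.idx, mul_comm n, Nat.mul_dvd_mul_iff_left (Nat.mul_pos Nat.card_pos hm)] at h3
  rcases (Nat.dvd_prime h.pr).1 h3 with e | e
  · refine .inl (Subgroup.eq_of_le_of_card_ge h1 ?_).symm
    rw [hk, e, mul_one]
    exact Nat.le_of_dvd Nat.card_pos (dv _ le_rfl)
  · exact .inr (Subgroup.eq_of_le_of_card_ge h2 (by rw [hk, e, h.idx, mul_comm]))

theorem TZ.abs {G Ω : Type*} [Group G] [Finite G] [Finite Ω] [Nonempty Ω] [MulAction G Ω] {S Z : Subgroup G}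
    {n m B : ℕ} (h : TZ n m S Z) (hZ : ∀ z ∈ Z, ∀ x : Ω, z • x = x)
    (hs : ∀ s ∈ S, s ≠ 1 → ∀ x : Ω, s • x ≠ x) (hd : Nat.card Ω ≤ n * m)
    (hB : ∀ g : G, g ∉ Z → Nat.card (MulAction.fixedBy Ω g) ≤ B) (hm : B + n + 1 ≤ m) :
    Subgroup.normalizer (S : Set G) = ⊤ ∨
      ∃ H : Subgroup G, Subgroup.normalizer (S : Set G) ≤ H ∧ H ≤ ncl H S ⊔ Z := by
  refine or_iff_not_imp_left.2 fun hN => ?_
  have hZN : Z ≤ Subgroup.normalizer (S : Set G) := fun z hz =>
    Subgroup.mem_normalizer_iff.2 fun s => by rw [h.zc z hz s, mul_inv_cancel_right]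
  have hT : S ⊔ Z ≤ Subgroup.normalizer (S : Set G) := sup_le Subgroup.le_normalizer hZN
  obtain ⟨H, hH⟩ := exists_minimal_of_wellFoundedLT
    (fun H : Subgroup G => S ⊔ Z ≤ H ∧ ¬ H ≤ Subgroup.normalizer (S : Set G))
    ⟨⊤, le_top, fun e => hN (top_le_iff.1 e)⟩
  obtain ⟨h1, h2⟩ := hH.prop
  have hSH : S ≤ H := le_sup_left.trans h1
  have hZH : Z ≤ H := le_sup_right.trans h1
  have hL : ncl H S ≤ H := (Subgroup.closure_le _).2 (by
    rintro _ ⟨g, hg, s, hs, rfl⟩
    exact mul_mem (mul_mem hg (hSH hs)) (inv_mem hg))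
  have hSL : S ≤ ncl H S := fun s hs => Subgroup.subset_closure ⟨1, one_mem _, s, hs, by simp⟩
  have hgen : H ≤ ncl H S ⊔ Z := by
    refine hH.le_of_le ⟨sup_le_sup_right hSL _, fun e => h2 fun g hg => ?_⟩ (sup_le hL hZH)
    have key : ∀ g ∈ H, ∀ s ∈ S, g * s * g⁻¹ ∈ S := fun g hg s hs =>
      h.abs_key (e (Subgroup.mem_sup_left (Subgroup.subset_closure ⟨g, hg, s, hs, rfl⟩))) (by
        have : s ^ m = 1 := by
          have := pow_card_eq_one' (x := (⟨s, hs⟩ : S))
          rw [h.card] at this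
          exact congrArg Subtype.val this
        rw [conj_pow, this, mul_one, mul_inv_cancel])
    refine Subgroup.mem_normalizer_iff.2 fun s => ⟨key g hg s, fun hs => ?_⟩
    simpa [mul_assoc] using key g⁻¹ (inv_mem hg) _ hs
  rcases h.abs_between (K := Subgroup.normalizer (S : Set G) ⊓ H) (le_inf hT h1) inf_le_left with e | e
  · have hsup := Subgroup.subgroupOf_sup hSH hZH
    have htop := frob_count (Ω := Ω) (S := S.subgroupOf H) (Z := Z.subgroupOf H) (n := n) (m := m)
      (B := B) (fun a ha b hb => Subtype.ext (h.comm a ha b hb))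
      (by rw [Nat.card_congr (Subgroup.subgroupOfEquivOfLe hSH).toEquiv, h.card])
      (fun z hz g => Subtype.ext (h.zc z hz g))
      (by rw [Nat.card_congr (Subgroup.subgroupOfEquivOfLe hZH).toEquiv]; exact h.cop)
      (fun s hs h1 g e => by
        rw [← hsup]
        exact h.cent s hs (fun e => h1 (Subtype.ext e)) g (congrArg Subtype.val e))
      (by rw [← Subgroup.subgroupOf_normalizer_eq hSH, ← Subgroup.inf_subgroupOf_right, e, hsup])
      (fun z hz x => hZ z hz x) (fun s h0 h1 x => hs s h0 (fun e => h1 (Subtype.ext e)) x) hd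
      (fun g hg => hB g hg) hm
    rw [← hsup, Subgroup.subgroupOf_eq_top] at htop
    exact absurd (htop.trans hT) h2
  · exact ⟨H, e ▸ inf_le_right, hgen⟩

end Cfsg.Agent.SG
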