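/-
Overgroups of the Singer normaliser: the point stabiliser is transitive on the opposite hyperplanes.
-/
import Mathlib
import Cfsg.Agent.SG.Defs
import Cfsg.Agent.S7.Four

set_option autoImplicit false
set_option linter.unusedVariables false

namespace Cfsg.Agent.SG

open Matrix Cfsg.Geo Module
open scoped MatrixGroups ComplexConjugate commutatorElement

variable {nn : ℕ} {F : Type*} [Field F] [Fintype F]

local notation "Mn" => Matrix (Fin nn) (Fin nn) F
local notation "SLn" => specialLinear (Fin nn) F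
local notation "Zn" => scalars (Fin nn) F
local notation "GLn" => GL (Fin nn) F
local notation "qq" => Fintype.card F

theorem anti_dual {G : Subgroup GLn} (hZ : Zn ≤ G) {x : Fin nn → F} (hf : ∀ y, Ind2 x y → Full G x y)
    {η ζ : Fin nn → F} (h1 : η ⬝ᵥ x ≠ 0) (h2 : ζ ⬝ᵥ x ≠ 0) :
    ∃ g ∈ G, (∃ c : F, (g : Mn) *ᵥ x = c • x) ∧ η ᵥ* (g : Mn) = ζ := by
  classical
  obtain ⟨ψ, hψ⟩ := (AddChar.exists_apply_ne_zero (α := F) (a := 1)).2 one_ne_zero
  have hx : x ≠ 0 := by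
    rintro rfl
    exact h1 (dotProduct_zero _)
  have inj : ∀ (g : GLn) (v : Fin nn → F), (g : Mn) *ᵥ v = 0 → v = 0 := fun g v e => by
    rw [← one_mulVec v, ← Units.inv_mul g, ← mulVec_mulVec, e, mulVec_zero]
  let P : GLn → Prop := fun g => g ∈ G ∧ ∃ c : F, (g : Mn) *ᵥ x = c • x
  have Pm : ∀ g k, P g → P k → P (g * k) := by
    rintro g k ⟨g1, c, g2⟩ ⟨k1, d, k2⟩
    exact ⟨G.mul_mem g1 k1, d * c, by
      rw [Units.val_mul, ← mulVec_mulVec, k2, mulVec_smul, g2, smul_smul]⟩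
  have Pi' : ∀ g, P g → P g⁻¹ := by
    rintro g ⟨g1, c, g2⟩
    have hc : c ≠ 0 := by
      rintro rfl
      exact hx (inj g x (by rw [g2, zero_smul]))
    refine ⟨G.inv_mem g1, c⁻¹, ?_⟩
    have e : ((g⁻¹ : GLn) : Mn) *ᵥ ((g : Mn) *ᵥ x) = x := by
      rw [mulVec_mulVec, Units.inv_mul, one_mulVec]
    rw [g2, mulVec_smul] at e
    rw [eq_inv_smul_iff₀ hc, e]
  have can : ∀ (g : GLn) (ξ : Fin nn → F), ξ ᵥ* (g : Mn) ᵥ* ((g⁻¹ : GLn) : Mn) = ξ :=
    fun g ξ => by rw [vecMul_vecMul, Units.mul_inv, vecMul_one]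
  let f : (Fin nn → F) → ℂ := fun ξ => if ∃ g, P g ∧ η ᵥ* (g : Mn) = ξ then 1 else 0
  have fΓ : ∀ k, P k → ∀ ξ, f (ξ ᵥ* (k : Mn)) = f ξ := fun k hk ξ => if_congr
    ⟨fun ⟨g, hg, e⟩ => ⟨g * k⁻¹, Pm _ _ hg (Pi' _ hk), by
        rw [Units.val_mul, ← vecMul_vecMul, e, can]⟩,
      fun ⟨g, hg, e⟩ => ⟨g * k, Pm _ _ hg hk, by rw [Units.val_mul, ← vecMul_vecMul, e]⟩⟩ rfl rfl
  let fh : (Fin nn → F) → ℂ := fun v => ∑ ξ, f ξ * ψ (ξ ⬝ᵥ v)
  have hΓ : ∀ k, P k → ∀ v, fh ((k : Mn) *ᵥ v) = fh v := fun k hk v => by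
    have b : Function.Bijective fun ξ : Fin nn → F => ξ ᵥ* (k : Mn) :=
      Finite.injective_iff_bijective.1 (Function.LeftInverse.injective
        (g := fun ξ => ξ ᵥ* ((k⁻¹ : GLn) : Mn)) (can k))
    change ∑ ξ, f ξ * ψ (ξ ⬝ᵥ (k : Mn) *ᵥ v) = ∑ ξ, f ξ * ψ (ξ ⬝ᵥ v)
    rw [← b.sum_comp fun ξ => f ξ * ψ (ξ ⬝ᵥ v)]
    exact Finset.sum_congr rfl fun ξ _ => by rw [fΓ k hk, dotProduct_mulVec]
  have hs : ∀ c : F, c ≠ 0 → ∀ v, fh (c • v) = fh v := fun c hc v => by
    let k : GLn := Units.map (Matrix.scalar (Fin nn) : F →+* Mn).toMonoidHom (Units.mk0 c hc)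
    have hk : ∀ w, (k : Mn) *ᵥ w = c • w := fun w => by
      ext i
      simp [k, mulVec_diagonal]
    rw [← hk]
    exact hΓ k ⟨hZ ⟨_, rfl⟩, c, hk x⟩ v
  have hper : ∀ v, v ∉ Submodule.span F {x} → ∀ a : F, fh (v + a • x) = fh v := by
    intro v hv a
    have hi : Ind2 x v := by
      intro s t e
      have ht : t = 0 := by
        by_contra ht
        refine hv (Submodule.mem_span_singleton.2 ⟨-(t⁻¹ * s), ?_⟩)
        have e' : t • v = -(s • x) := eq_neg_of_add_eq_zero_right e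
        rw [neg_smul, mul_smul, ← smul_neg, ← e', inv_smul_smul₀ ht]
      rw [ht, zero_smul, add_zero, smul_eq_zero] at e
      exact ⟨e.resolve_right hx, ht⟩
    obtain ⟨g, hg, c, g1, g2⟩ := hf v hi a
    have hc : c ≠ 0 := by
      rintro rfl
      exact hv (inj g v (by rw [g2, zero_smul]) ▸ Submodule.zero_mem _)
    rw [← hs c hc, ← g2]
    exact hΓ g ⟨hg, 1, by rw [g1, one_smul]⟩ v
  let h : (Fin nn → F) → ℂ := fun v => if v ∈ Submodule.span F {x} then fh x else fh v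
  have hh : ∀ (a : F) v, h (v + a • x) = h v := fun a v => by
    have m : a • x ∈ Submodule.span F {x} :=
      Submodule.smul_mem _ _ (Submodule.mem_span_singleton_self x)
    by_cases hv : v ∈ Submodule.span F {x}
    · exact (if_pos (Submodule.add_mem _ hv m)).trans (if_pos hv).symm
    · refine (if_neg (by rwa [Submodule.add_mem_iff_left _ m])).trans ?_
      exact (hper v hv a).trans (if_neg hv).symm
  have dec : ∀ v, fh v = h v + if v = 0 then fh 0 - fh x else 0 := fun v => by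
    by_cases h0 : v = 0
    · subst h0
      rw [if_pos rfl, show h 0 = fh x from if_pos (Submodule.zero_mem _)]
      ring
    · rw [if_neg h0, add_zero]
      by_cases hv : v ∈ Submodule.span F {x}
      · rw [show h v = fh x from if_pos hv]
        obtain ⟨c, rfl⟩ := Submodule.mem_span_singleton.1 hv
        exact hs c (fun e => h0 (by rw [e, zero_smul])) x
      · exact (if_neg hv).symm
  have inv : ∀ u, ∑ v, fh v * ψ ((-u) ⬝ᵥ v) = Fintype.card (Fin nn → F) * f u := fun u => by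
    have e : ∀ v, fh v * ψ ((-u) ⬝ᵥ v) = ∑ w, f w * ψ ((w - u) ⬝ᵥ v) := fun v => by
      rw [Finset.sum_mul]
      refine Finset.sum_congr rfl fun w _ => ?_
      rw [mul_assoc, ← AddChar.map_add_eq_mul, sub_eq_add_neg, add_dotProduct]
    rw [Finset.sum_congr rfl fun v _ => e v, Finset.sum_comm, Finset.sum_eq_single u]
    · simp
    · intro w _ hw
      obtain ⟨v, hv⟩ : ∃ v, (w - u) ⬝ᵥ v ≠ 0 := by
        by_contra! e
        exact hw (sub_eq_zero.1 (dotProduct_eq_zero _ e))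
      exact S7.Four.sum_zero ψ hψ (dotProductBilin F F (w - u)) hv (fun _ => f w) fun _ _ => rfl
    · simp
  have key : ∀ u, u ⬝ᵥ x ≠ 0 → (Fintype.card (Fin nn → F) : ℂ) * f u = fh 0 - fh x := by
    intro u hu
    have z : ∑ v, h v * ψ ((-u) ⬝ᵥ v) = 0 :=
      S7.Four.sum_zero ψ hψ (dotProductBilin F F (-u)) (c := x)
        (by rwa [dotProductBilin_apply_apply, neg_dotProduct, neg_ne_zero]) h hh
    rw [← inv, Finset.sum_congr rfl fun v _ => by rw [dec v, add_mul], Finset.sum_add_distrib, z,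
      zero_add, Finset.sum_eq_single 0]
    · simp
    · intro v _ hv
      rw [if_neg hv, zero_mul]
    · simp
  have fin := (key ζ h2).trans (key η h1).symm
  rw [mul_right_inj' (Nat.cast_ne_zero.2 Fintype.card_ne_zero),
    show f η = 1 from if_pos ⟨1, ⟨G.one_mem, 1, by simp⟩, by simp⟩] at fin
  by_contra e
  refine zero_ne_one ((show f ζ = 0 from if_neg ?_).symm.trans fin)
  rintro ⟨g, ⟨g1, g2⟩, g3⟩
  exact e ⟨g, g1, g2, g3⟩

end Cfsg.Agent.SG
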