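import Mathlib
import Cfsg.Agent.SG.KDefs
import Cfsg.Agent.FG.CKA

set_option autoImplicit false

namespace Cfsg.Agent.SG

open Matrix Cfsg.Geo Cfsg.Agent.Cl.D5 Module
open scoped MatrixGroups ComplexConjugate commutatorElement

variable {nn : ℕ} {F : Type*} [Field F] [Fintype F]

local notation "Mn" => Matrix (Fin nn) (Fin nn) F
local notation "SLn" => specialLinear (Fin nn) F
local notation "Zn" => scalars (Fin nn) F
local notation "GLn" => GL (Fin nn) F

namespace WA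

open Subgroup MulAction Cfsg.Agent.FG.CK

section

variable {G α : Type*} [Group G] [MulAction G α] [Finite α] [Finite G] {p : ℕ} [hp : Fact p.Prime]

theorem exists_fixed {S : Subgroup G} (hS : IsPGroup p S) (T : Set α) (hT : ∀ g ∈ S, ∀ y ∈ T, g • y ∈ T)
    (ho : ¬ p ∣ T.ncard) : ∃ y ∈ T, ∀ g ∈ S, g • y = y := by
  by_contra h
  refine ho (dvd_ncard_of_orb S T hT fun y hy => ?_)
  obtain ⟨k, hk⟩ := hS.index ((stabilizer G y).subgroupOf S)
  rw [ncard_orb, relIndex, hk]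
  refine dvd_pow_self p fun e => h ⟨y, hy, fun g hg => ?_⟩
  rw [e, pow_zero, index_eq_one, subgroupOf_eq_top] at hk
  exact hk hg

theorem orb_eq (P : Sylow p G) {x : α} {k : ℕ} (hk : (orb (⊤ : Subgroup G) x).ncard = p ^ k) :
    orb (P : Subgroup G) x = orb (⊤ : Subgroup G) x := by
  have h1 := ncard_orb_dvd (le_top (a := (P : Subgroup G))) x
  rw [hk, relIndex_top_right] at h1
  refine Set.eq_of_subset_of_ncard_le (orb_mono le_top x) (hk ▸ Nat.le_of_dvd ?_
    ((hp.1.coprime_iff_not_dvd.2 P.not_dvd_index).pow_left k |>.dvd_of_dvd_mul_left h1))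
  exact (Set.ncard_pos).mpr ⟨x, 1, one_mem _, one_smul _ _⟩

end

theorem ncard_sub {U : Type*} [AddCommGroup U] [Module F U] [Finite U] (B : Submodule F U) :
    (B : Set U).ncard = Fintype.card F ^ finrank F B := by
  have : Module.Finite F U := Module.Finite.of_finite
  rw [← Nat.card_eq_fintype_card, ← Module.natCard_eq_pow_finrank]
  rfl

theorem fixmod {P U : Type*} [Group P] [Finite P] [AddCommGroup U] [Module F U] [Finite U] [DistribMulAction P U]
    [SMulCommClass P F U] {p : ℕ} [hp : Fact p.Prime] (hP : IsPGroup p P) (hq : p ∣ Fintype.card F)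
    {A B : Submodule F U} (hA : ∀ g : P, ∀ v ∈ A, g • v ∈ A) (hB : ∀ g : P, ∀ v ∈ B, g • v ∈ B) (h : ¬ B ≤ A) :
    ∃ d ∈ B, d ∉ A ∧ ∀ g : P, g • d - d ∈ A := by
  have hi : ∀ g : P, A ≤ A.comap (DistribMulAction.toLinearMap F U g) := hA
  have : Finite (U ⧸ A) := Finite.of_surjective _ A.mkQ_surjective
  letI : MulAction P (U ⧸ A) :=
    { smul := fun g => A.mapQ A (DistribMulAction.toLinearMap F U g) (hi g)
      one_smul := fun y => Submodule.Quotient.induction_on _ y fun y =>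
        congrArg Submodule.Quotient.mk (one_smul P y)
      mul_smul := fun g k y => Submodule.Quotient.induction_on _ y fun y =>
        congrArg Submodule.Quotient.mk (mul_smul g k y) }
  obtain ⟨_, ⟨⟨d, e1, rfl⟩, e2⟩, e3⟩ := exists_fixed (S := (⊤ : Subgroup P)) (hP.to_subgroup ⊤)
    ((B.map A.mkQ : Set (U ⧸ A)) \ {0}) (by
      rintro g - _ ⟨⟨y, e1, rfl⟩, e2⟩
      refine ⟨⟨g • y, hB g y e1, rfl⟩, fun e => e2 ?_⟩
      have := congrArg (g⁻¹ • ·) e
      simp only [inv_smul_smul] at this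
      exact this.trans (map_zero (A.mapQ A (DistribMulAction.toLinearMap F U g⁻¹) (hi _)))) (by
      rw [Set.ncard_diff_singleton_of_mem (zero_mem _), ncard_sub]
      intro k
      have h1 : finrank F (B.map A.mkQ) ≠ 0 := fun e => h fun v hv =>
        (Submodule.Quotient.mk_eq_zero A).1 ((Submodule.finrank_eq_zero.1 e).le ⟨v, hv, rfl⟩)
      have h2 := (Nat.dvd_sub_iff_right (Nat.one_le_pow _ _ Fintype.card_pos) (hq.trans (dvd_pow_self _ h1))).1 k
      exact hp.1.one_lt.ne' (Nat.dvd_one.1 h2))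
  exact ⟨d, e1, fun e => e2 ((Submodule.Quotient.mk_eq_zero A).2 e), fun g =>
    (Submodule.Quotient.eq A).1 (e3 g trivial)⟩

/-- The stabiliser of a functional. -/
def fixd (G : Subgroup GLn) (η : Fin nn → F) : Subgroup GLn where
  carrier := {g | g ∈ G ∧ η ᵥ* (g : Mn) = η}
  one_mem' := ⟨G.one_mem, by simp⟩
  mul_mem' := fun {g h} ⟨g0, g1⟩ ⟨h0, h1⟩ => ⟨G.mul_mem g0 h0, by rw [Units.val_mul, ← vecMul_vecMul, g1, h1]⟩
  inv_mem' := fun {g} ⟨g0, g1⟩ => ⟨G.inv_mem g0,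
    by conv_lhs => rw [← g1, vecMul_vecMul, Units.mul_inv, vecMul_one]⟩

theorem ex {G : Subgroup GLn} (h : CK G) : ∃ c d η, Ind2 c d ∧ Sp G c d η := by
  classical
  obtain ⟨p, hp⟩ := CharP.exists F
  obtain ⟨f, pp, hq⟩ := FiniteField.card F p
  have := Fact.mk pp
  have hd : p ∣ Fintype.card F := hq ▸ dvd_pow_self p f.ne_zero
  obtain ⟨i0, i1, i2, n01, n02, n12⟩ : ∃ i j k : Fin nn, i ≠ j ∧ i ≠ k ∧ j ≠ k :=
    ⟨⟨0, by have := h.dim; omega⟩, ⟨1, by have := h.dim; omega⟩, ⟨2, h.dim⟩, by simp, by simp, by simp⟩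
  let η : Fin nn → F := Pi.single i0 1
  have hη : ∀ v, η ⬝ᵥ v = v i0 := fun v => single_one_dotProduct i0 v
  let K : Submodule F (Fin nn → F) := LinearMap.ker (LinearMap.proj i0 : (Fin nn → F) →ₗ[F] F)
  have hK : ∀ {v}, v ∈ K ↔ η ⬝ᵥ v = 0 := fun {v} => by rw [hη]; rfl
  obtain ⟨P⟩ : Nonempty (Sylow p (fixd G η)) := inferInstance
  have hk : ∀ (g : fixd G η) y, η ⬝ᵥ (g • y) = η ⬝ᵥ y := fun g y =>
    (dotProduct_mulVec η (g.1 : Mn) y).trans (by rw [g.2.2])
  have hB : ∀ g : (P : Subgroup (fixd G η)), ∀ v ∈ K, g • v ∈ K := fun g v hv => hK.2 ((hk g v).trans (hK.1 hv))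
  have e1 : (Pi.single i1 1 : Fin nn → F) ∈ K := hK.2 (by rw [hη]; simp [n01])
  have e2 : (Pi.single i2 1 : Fin nn → F) ∈ K := hK.2 (by rw [hη]; simp [n02])
  obtain ⟨c, hc, c0, h2⟩ := fixmod P.isPGroup' hd (A := ⊥) (B := K)
    (fun g v hv => by rw [(Submodule.mem_bot F).1 hv, smul_zero]; exact zero_mem _) hB
    fun e => by simpa using congrFun ((Submodule.mem_bot F).1 (e e1)) i1
  replace c0 : c ≠ 0 := c0
  replace h2 : ∀ g : (P : Subgroup (fixd G η)), g • c = c := fun g => sub_eq_zero.1 (h2 g)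
  obtain ⟨d, hd', d0, h3⟩ := fixmod P.isPGroup' hd (A := Submodule.span F {c}) (B := K)
    (fun g v hv => by
      obtain ⟨r, rfl⟩ := Submodule.mem_span_singleton.1 hv
      rw [smul_comm, h2]; exact hv) hB
    fun e => by
      obtain ⟨r, hr⟩ := Submodule.mem_span_singleton.1 (e e1)
      obtain ⟨s, hs⟩ := Submodule.mem_span_singleton.1 (e e2)
      have a1 : r * c i1 = 1 := by simpa using congrFun hr i1
      have a2 : r * c i2 = 0 := by simpa [-mul_eq_zero, n12.symm] using congrFun hr i2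
      have a3 : s * c i2 = 1 := by simpa using congrFun hs i2
      rw [(mul_eq_zero.1 a2).resolve_left (left_ne_zero_of_mul_eq_one a1), mul_zero] at a3
      exact zero_ne_one a3
  refine ⟨c, d, η, fun s t e => ?_, fun e => by simpa [η] using congrFun e i0, hK.1 hc, hK.1 hd', fun y z hy hz => ?_⟩
  · by_cases ht : t = 0
    · rw [ht, zero_smul, add_zero] at e
      exact ⟨(smul_eq_zero.1 e).resolve_right c0, ht⟩
    · refine absurd (Submodule.mem_span_singleton.2 ⟨-(t⁻¹ * s), ?_⟩) d0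
      rw [neg_smul, mul_smul, eq_neg_of_add_eq_zero_left e, smul_neg, neg_neg, inv_smul_smul₀ ht]
  have h4 : orb (⊤ : Subgroup (fixd G η)) y = (fun v => v + y) '' (K : Set (Fin nn → F)) := by
    ext w
    constructor
    · rintro ⟨g, -, rfl⟩
      exact ⟨g • y - y, hK.2 (by rw [dotProduct_sub, hk, sub_self]), sub_add_cancel _ _⟩
    · rintro ⟨v, hv, rfl⟩
      obtain ⟨g, g0, g1, g2⟩ := h.flag.off η y (v + y) hy (by rw [dotProduct_add, hK.1 hv, hy, zero_add])
      exact ⟨⟨g, g0, g1⟩, trivial, g2⟩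
  have h5 := orb_eq P (x := y) (k := f * finrank F K) (by
    rw [h4, Set.ncard_image_of_injective _ (add_left_injective y), ncard_sub, hq, pow_mul])
  obtain ⟨s, hs, e⟩ := h5.ge (h4.ge ⟨z - y, hK.2 (by rw [dotProduct_sub, hz, hy, sub_self]), sub_add_cancel _ _⟩)
  obtain ⟨r, hr⟩ := Submodule.mem_span_singleton.1 (h3 ⟨s, hs⟩)
  have s1 : (s.1 : Mn) *ᵥ c = c := h2 ⟨s, hs⟩
  have s2 : (s.1 : Mn) *ᵥ d = r • c + d := (eq_sub_iff_add_eq.1 hr).symm
  have s3 : (s.1 : Mn) *ᵥ y = z := e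
  have h6 : ∀ a t : F, η ⬝ᵥ (a • c + t • y) = t := fun a t => by
    rw [dotProduct_add, dotProduct_smul, dotProduct_smul, hK.1 hc, hy, smul_zero, zero_add, smul_eq_mul, mul_one]
  obtain ⟨k, k0, k1, k2, k3⟩ := h.tr c y d (fun a t e => by
      have ht := h6 a t
      rw [e, dotProduct_zero] at ht
      rw [← ht, zero_smul, add_zero] at e
      exact ⟨(smul_eq_zero.1 e).resolve_right c0, ht.symm⟩)
    (fun e => by
      obtain ⟨a, t, e⟩ := Submodule.mem_span_pair.1 e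
      have ht := h6 a t
      rw [e, hK.1 hd'] at ht
      rw [← ht, zero_smul, add_zero] at e
      exact d0 (Submodule.mem_span_singleton.2 ⟨a, e⟩))
    ((-r) • c) (Submodule.smul_mem _ _ (Submodule.subset_span (by simp)))
  refine ⟨s.1 * k, ⟨G.mul_mem s.2.1 k0, ?_, ?_⟩, ?_⟩ <;> rw [Units.val_mul, ← mulVec_mulVec]
  · rw [k1, s1]
  · rw [k3, mulVec_add, mulVec_smul, s1, s2, neg_smul, add_comm (r • c), add_neg_cancel_right]
  · rw [k2, s3]

end WA

theorem CK.exists_sp {G : Subgroup GLn} (h : CK G) {a b : Fin nn → F} (i : Ind2 a b) :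
    ∃ η, Sp G a b η := by
  obtain ⟨c, d, η, i', h0, h1, h2, h3⟩ := WA.ex h
  obtain ⟨g, hg, s, t, e1, e2⟩ := h.two a b c d i i'
  have inv : ∀ v, ((g⁻¹ : GLn) : Mn) *ᵥ ((g : Mn) *ᵥ v) = v := fun v => by
    rw [mulVec_mulVec, Units.inv_mul, one_mulVec]
  refine ⟨η ᵥ* (g : Mn), fun e => h0 ?_, ?_, ?_, fun x y hx hy => ?_⟩
  · rw [← vecMul_one η, ← Units.mul_inv g, ← vecMul_vecMul, e, zero_vecMul]
  · rw [← dotProduct_mulVec, e1, dotProduct_smul, h1, smul_zero]
  · rw [← dotProduct_mulVec, e2, dotProduct_smul, h2, smul_zero]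
  · rw [← dotProduct_mulVec] at hx hy
    obtain ⟨k, ⟨k0, k1, k2⟩, k3⟩ := h3 _ _ hx hy
    refine ⟨g⁻¹ * (k * g), ⟨G.mul_mem (G.inv_mem hg) (G.mul_mem k0 hg), ?_, ?_⟩, ?_⟩ <;>
      rw [Units.val_mul, Units.val_mul, ← mulVec_mulVec, ← mulVec_mulVec]
    · rw [e1, mulVec_smul, k1, ← e1, inv]
    · rw [e2, mulVec_smul, k2, ← e2, inv]
    · rw [k3, inv]

end Cfsg.Agent.SG
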