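import Mathlib
import Cfsg.Agent.SG.Defs
import Cfsg.Agent.SG.KWA

set_option autoImplicit false
set_option linter.unusedVariables false

namespace Cfsg.Agent.SG

open Matrix Cfsg.Geo Module
open scoped MatrixGroups ComplexConjugate commutatorElement

variable {nn : ℕ} {F : Type*} [Field F] [Fintype F]

local notation "Mn" => Matrix (Fin nn) (Fin nn) F
local notation "SLn" => specialLinear (Fin nn) F
local notation "Zn" => scalars (Fin nn) F
local notation "GLn" => GL (Fin nn) F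
local notation "qq" => Fintype.card F

open Subgroup MulAction Cfsg.Agent.FG.CK WA in
/-- A group transitive on an affine hyperplane has a point stabiliser that is still transitive on it. -/
theorem anti_syl (h2 : 2 ≤ nn) {G : Subgroup GLn} {η : Fin nn → F} (h0 : η ≠ 0)
    (h : ∀ x y : Fin nn → F, η ⬝ᵥ x = 1 → η ⬝ᵥ y = 1 → ∃ g ∈ G, η ᵥ* (g : Mn) = η ∧ (g : Mn) *ᵥ x = y) :
    ∃ v : Fin nn → F, v ≠ 0 ∧ η ⬝ᵥ v = 0 ∧ ∀ x y : Fin nn → F, η ⬝ᵥ x = 1 → η ⬝ᵥ y = 1 →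
      ∃ g ∈ G, (g : Mn) *ᵥ v = v ∧ (g : Mn) *ᵥ x = y := by
  classical
  obtain ⟨p, hp⟩ := CharP.exists F
  obtain ⟨f, pp, hq⟩ := FiniteField.card F p
  have := Fact.mk pp
  have hd : p ∣ Fintype.card F := hq ▸ dvd_pow_self p f.ne_zero
  let K : Submodule F (Fin nn → F) := LinearMap.ker (dotProductBilin F F η)
  have hK : ∀ {v}, v ∈ K ↔ η ⬝ᵥ v = 0 := fun {v} => Iff.rfl
  obtain ⟨P⟩ : Nonempty (Sylow p (fixd G η)) := inferInstance
  have hk : ∀ (g : fixd G η) y, η ⬝ᵥ (g • y) = η ⬝ᵥ y := fun g y =>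
    (dotProduct_mulVec η (g.1 : Mn) y).trans (by rw [g.2.2])
  have hB : ∀ g : (P : Subgroup (fixd G η)), ∀ v ∈ K, g • v ∈ K := fun g v hv => hK.2 ((hk g v).trans (hK.1 hv))
  obtain ⟨c, hc, c0, h3⟩ := fixmod P.isPGroup' hd (A := ⊥) (B := K)
    (fun g v hv => by rw [(Submodule.mem_bot F).1 hv, smul_zero]; exact zero_mem _) hB
    fun e => by
      have := LinearMap.finrank_le_finrank_of_injective (LinearMap.ker_eq_bot.1 (le_bot_iff.1 e))
      rw [finrank_fin_fun, finrank_self] at this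
      omega
  replace h3 : ∀ g : (P : Subgroup (fixd G η)), g • c = c := fun g => sub_eq_zero.1 (h3 g)
  refine ⟨c, c0, hK.1 hc, fun y z hy hz => ?_⟩
  have h4 : orb (⊤ : Subgroup (fixd G η)) y = (fun v => v + y) '' (K : Set (Fin nn → F)) := by
    ext w
    constructor
    · rintro ⟨g, -, rfl⟩
      exact ⟨g • y - y, hK.2 (by rw [dotProduct_sub, hk, sub_self]), sub_add_cancel _ _⟩
    · rintro ⟨v, hv, rfl⟩
      obtain ⟨g, g0, g1, g2⟩ := h y (v + y) hy (by rw [dotProduct_add, hK.1 hv, hy, zero_add])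
      exact ⟨⟨g, g0, g1⟩, trivial, g2⟩
  have h5 := orb_eq P (x := y) (k := f * finrank F K) (by
    rw [h4, Set.ncard_image_of_injective _ (add_left_injective y), WA.ncard_sub, hq, pow_mul])
  obtain ⟨s, hs, e⟩ := h5.ge (h4.ge ⟨z - y, hK.2 (by rw [dotProduct_sub, hz, hy, sub_self]), sub_add_cancel _ _⟩)
  exact ⟨s.1, s.2.1, h3 ⟨s, hs⟩, e⟩

end Cfsg.Agent.SG
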