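import Mathlib
import Cfsg.Agent.SG.Defs

set_option autoImplicit false
set_option linter.unusedVariables false

namespace Cfsg.Agent.SG

open Matrix Cfsg.Geo Module
open scoped MatrixGroups ComplexConjugate commutatorElement

variable {nn : ℕ} {F : Type*} [Field F] [Fintype F]

local notation "Mn" => Matrix (Fin nn) (Fin nn) F
local notation "SLn" => specialLinear (Fin nn) F
local notation "Zn" => scalars (Fin nn) F
local notation "GLn" => GL (Fin nn) F
local notation "qq" => Fintype.card F

theorem full_trans {X : Type*} [Fintype X] (T : Subgroup (Equiv.Perm X))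
    (h1 : ∀ σ ∈ T, ∀ a b, a ≠ b → σ a = a → σ b = b → σ = 1)
    (h2 : Fintype.card X ≤ Nat.card T) (a b : X) : ∃ σ ∈ T, σ a = b := by
  classical
  by_contra hc
  have hB := MulAction.sum_card_fixedBy_eq_card_orbits_mul_card_group T X
  have h3 : 2 ≤ Fintype.card (Quotient (MulAction.orbitRel T X)) :=
    Fintype.one_lt_card_iff.2 ⟨⟦b⟧, ⟦a⟧, fun e => hc (by
      obtain ⟨σ, hσ⟩ := Quotient.exact e
      exact ⟨σ, σ.2, hσ⟩)⟩
  have h4 : ∑ σ : T, Fintype.card (MulAction.fixedBy X σ) ≤
      Fintype.card X + (Fintype.card T - 1) := by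
    rw [← Finset.add_sum_erase _ _ (Finset.mem_univ 1)]
    refine add_le_add (Fintype.card_subtype_le _)
      ((Finset.sum_le_card_nsmul _ _ 1 fun σ hσ => ?_).trans (by simp))
    exact Fintype.card_le_one_iff.2 fun a b => by_contra fun e => Finset.ne_of_mem_erase hσ
      (Subtype.ext (h1 σ σ.2 a b (fun e' => e (Subtype.ext e')) a.2 b.2))
  rw [Nat.card_eq_fintype_card] at h2
  have h5 : 0 < Fintype.card T := Fintype.card_pos
  have h6 := Nat.mul_le_mul_right (Fintype.card T) h3
  omega

/-- The affine permutation `a ↦ (a + β) / α`. -/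
def fullAff (α : Fˣ) (β : F) : Equiv.Perm F := (Equiv.addRight β).trans (Units.mulRight α⁻¹)

omit [Fintype F] in
theorem fullAff_apply (α : Fˣ) (β a : F) : fullAff α β a = (a + β) / α := by
  simp [fullAff, div_eq_mul_inv]

/-- The affine permutations induced on the line through `x` and `y`. -/
def fullT (H : Subgroup GLn) (x y : Fin nn → F) : Subgroup (Equiv.Perm F) where
  carrier := {σ | ∃ g ∈ H, ∃ (α : Fˣ) (β : F), (g : Mn) *ᵥ x = x ∧
    (g : Mn) *ᵥ y = (α : F) • y + β • x ∧ σ = fullAff α β}
  one_mem' := ⟨1, one_mem _, 1, 0, by simp, by simp, Equiv.ext fun a => by simp [fullAff_apply]⟩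
  mul_mem' := by
    rintro _ _ ⟨g, hg, α, β, h1, h2, rfl⟩ ⟨g', hg', α', β', h1', h2', rfl⟩
    refine ⟨g * g', mul_mem hg hg', α * α', α' * β + β', ?_, ?_, Equiv.ext fun a => ?_⟩
    · rw [Units.val_mul, ← mulVec_mulVec, h1', h1]
    · rw [Units.val_mul, ← mulVec_mulVec, h2', mulVec_add, mulVec_smul, mulVec_smul, h1, h2,
        Units.val_mul]
      module
    · simp only [Equiv.Perm.mul_apply, fullAff_apply, Units.val_mul]
      field_simp
      ring
  inv_mem' := by
    rintro _ ⟨g, hg, α, β, h1, h2, rfl⟩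
    have h3 : ((g⁻¹ : GLn) : Mn) *ᵥ x = x := by
      conv_lhs => rw [← h1, mulVec_mulVec, Units.inv_mul, one_mulVec]
    refine ⟨g⁻¹, inv_mem hg, α⁻¹, -(β / α), h3, ?_, ?_⟩
    · have h4 := congrArg (((g⁻¹ : GLn) : Mn) *ᵥ ·) h2
      simp only [mulVec_mulVec, Units.inv_mul, one_mulVec, mulVec_add, mulVec_smul, h3] at h4
      refine smul_right_injective _ α.ne_zero ?_
      simp only [smul_add, smul_smul, Units.mul_inv, one_smul]
      rw [show (α : F) * -(β / α) = -β by field_simp, neg_smul, ← sub_eq_add_neg,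
        eq_sub_iff_add_eq, ← h4]
    · refine inv_eq_of_mul_eq_one_right (Equiv.ext fun a => ?_)
      simp only [Equiv.Perm.mul_apply, fullAff_apply, Units.val_inv_eq_inv_val, Equiv.Perm.one_apply]
      field_simp
      ring

theorem Big.full {H : Subgroup GLn} {x y : Fin nn → F} (hb : Big H x y) (h : Ind2 x y) : Full H x y := by
  classical
  suffices hq : qq ≤ Nat.card (fullT H x y) by
    intro a
    obtain ⟨_, ⟨g, hg, α, β, h1, h2, rfl⟩, h3⟩ := full_trans (fullT H x y) (by
      rintro _ ⟨g, hg, α, β, h1, h2, rfl⟩ a b hab ha hb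
      rw [fullAff_apply, div_eq_iff α.ne_zero] at ha hb
      have h4 : (α : F) = 1 := mul_left_cancel₀ (sub_ne_zero.2 hab) (by linear_combination hb - ha)
      have h5 : β = 0 := by rw [h4] at ha; linear_combination ha
      exact Equiv.ext fun c => by simp [fullAff_apply, h4, h5]) hq 0 a
    rw [fullAff_apply, div_eq_iff α.ne_zero, zero_add] at h3
    exact ⟨g, hg, α, h1, by rw [h2, h3]; module⟩
  have hn : nn ≠ 0 := by
    rintro rfl
    exact one_ne_zero (h 1 0 (Subsingleton.elim _ _)).1
  have key := Finset.card_le_mul_card_image_of_maps_to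
    (f := fun p : (Fin nn → F) × F × Fˣ => (p.2.2 : F) • (p.1 + p.2.1 • x))
    (s := (vo H x y).toFinset ×ˢ Finset.univ) (t := Finset.univ.erase 0) (by
      rintro ⟨w, a, c⟩ hw
      obtain ⟨g, -, h1, rfl⟩ := Set.mem_toFinset.1 (Finset.mem_product.1 hw).1
      refine Finset.mem_erase.2 ⟨smul_ne_zero c.ne_zero fun e => ?_, Finset.mem_univ _⟩
      have h2 : (g : Mn) *ᵥ (a • x + (1 : F) • y) = 0 := by
        rw [one_smul, mulVec_add, mulVec_smul, h1, add_comm]; exact e
      have h3 := congrArg (((g⁻¹ : GLn) : Mn) *ᵥ ·) h2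
      simp only [mulVec_mulVec, Units.inv_mul, one_mulVec, mulVec_zero] at h3
      exact one_ne_zero (h _ _ h3).2) (Nat.card (fullT H x y)) (by
      intro v _
      refine Nat.le_of_not_lt fun hlt => hlt.not_ge ?_
      obtain ⟨⟨w0, a0, c0⟩, h0⟩ := Finset.card_pos.1 (Nat.zero_lt_of_lt hlt)
      clear hlt
      obtain ⟨h00, hv⟩ := Finset.mem_filter.1 h0
      obtain ⟨g0, hg0, h1, rfl⟩ := Set.mem_toFinset.1 (Finset.mem_product.1 h00).1
      subst hv
      refine le_of_le_of_eq (Finset.card_le_card_of_injOn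
        (fun p => fullAff (c0 / p.2.2) (c0 / p.2.2 * a0 - p.2.1)) ?_ ?_)
        (Nat.card_eq_card_toFinset (fullT H x y : Set (Equiv.Perm F))).symm
      · rintro ⟨w, a, c⟩ hw
        obtain ⟨hw, e⟩ := Finset.mem_filter.1 hw
        obtain ⟨g, hg, h2, rfl⟩ := Set.mem_toFinset.1 (Finset.mem_product.1 hw).1
        have h3 : ((g0⁻¹ : GLn) : Mn) *ᵥ x = x := by
          conv_lhs => rw [← h1, mulVec_mulVec, Units.inv_mul, one_mulVec]
        refine Set.mem_toFinset.2 ⟨g0⁻¹ * g, mul_mem (inv_mem hg0) hg, _, _, ?_, ?_, rfl⟩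
        · rw [Units.val_mul, ← mulVec_mulVec, h2, h3]
        · have h4 := congrArg (((g0⁻¹ : GLn) : Mn) *ᵥ ·) e
          simp only [mulVec_mulVec, Units.inv_mul, one_mulVec, mulVec_add, mulVec_smul, h3] at h4
          refine smul_right_injective _ c.ne_zero ?_
          rw [smul_add, ← eq_sub_iff_add_eq] at h4
          simp only [Units.val_mul, h4, smul_add, smul_smul, Units.val_div_eq_div_val]
          rw [show (c : F) * (c0 / c) = c0 by field_simp,
            show (c : F) * (c0 / c * a0 - a) = c0 * a0 - c * a by field_simp]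
          module
      · rintro ⟨w, a, c⟩ hw ⟨w', a', c'⟩ hw' e
        have e0 := congrArg (· 0) e
        have e1 := congrArg (· 1) e
        simp only [fullAff_apply, Units.val_div_eq_div_val] at e0 e1
        have h2 : (c : F) = c' := by
          field_simp at e0 e1
          linear_combination e1 - e0
        obtain rfl := Units.ext h2
        have h3 : a = a' := by
          field_simp at e0
          exact mul_left_cancel₀ c.ne_zero (by linear_combination -e0)
        subst h3
        have h4 := ((Finset.mem_filter.1 hw).2).trans ((Finset.mem_filter.1 hw').2).symm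
        exact Prod.ext (add_right_cancel (smul_right_injective _ c.ne_zero h4)) rfl)
  rw [Finset.card_product, Finset.card_univ, Fintype.card_prod, Fintype.card_units,
    Finset.card_erase_of_mem (Finset.mem_univ _), Finset.card_univ, Fintype.card_fun,
    Fintype.card_fin, ← Set.ncard_eq_toFinset_card'] at key
  by_contra! hlt
  have h1 := Nat.mul_le_mul_right (qq * (qq - 1)) hb
  rw [← mul_assoc, ← pow_succ, Nat.sub_add_cancel (Nat.one_le_iff_ne_zero.2 hn)] at h1
  have h2 : Nat.card (fullT H x y) * (qq ^ nn - 1) ≤ (qq - 1) * (qq ^ nn - 1) :=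
    Nat.mul_le_mul_right _ (by omega)
  have h3 : 1 < qq := Fintype.one_lt_card
  have h4 : (qq - 1) * (qq ^ nn - 1) < (qq - 1) * qq ^ nn :=
    Nat.mul_lt_mul_of_pos_left (Nat.sub_lt (by positivity) one_pos) (by omega)
  rw [mul_comm] at h1
  omega

end Cfsg.Agent.SG
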