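import Mathlib
import Cfsg.Agent.SG.KDefs
import Cfsg.Agent.S7.Four
import Cfsg.Agent.FG.CKA

set_option autoImplicit false

namespace Cfsg.Agent.SG

open Matrix Cfsg.Geo Cfsg.Agent.Cl.D5 Module
open scoped MatrixGroups ComplexConjugate commutatorElement

variable {nn : ℕ} {F : Type*} [Field F] [Fintype F]

local notation "Mn" => Matrix (Fin nn) (Fin nn) F
local notation "SLn" => specialLinear (Fin nn) F
local notation "Zn" => scalars (Fin nn) F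
local notation "GLn" => GL (Fin nn) F

namespace CK1

omit [Fintype F] in
theorem mv_mul (g h : GLn) (v : Fin nn → F) : ((g * h : GLn) : Mn) *ᵥ v = (g : Mn) *ᵥ (h : Mn) *ᵥ v := by
  rw [Units.val_mul, mulVec_mulVec]

omit [Fintype F] in
theorem vm_mul (g h : GLn) (v : Fin nn → F) : v ᵥ* ((g * h : GLn) : Mn) = v ᵥ* (g : Mn) ᵥ* (h : Mn) := by
  rw [Units.val_mul, vecMul_vecMul]

omit [Fintype F] in
theorem mv_inv {g : GLn} {v w : Fin nn → F} (h : (g : Mn) *ᵥ v = w) : ((g⁻¹ : GLn) : Mn) *ᵥ w = v := by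
  rw [← h, ← mv_mul, inv_mul_cancel, Units.val_one, one_mulVec]

omit [Fintype F] in
theorem vm_inv {g : GLn} {v w : Fin nn → F} (h : v ᵥ* (g : Mn) = w) : w ᵥ* ((g⁻¹ : GLn) : Mn) = v := by
  rw [← h, ← vm_mul, mul_inv_cancel, Units.val_one, vecMul_one]

omit [Fintype F] in
theorem mv_ne (g : GLn) {v : Fin nn → F} (h : v ≠ 0) : (g : Mn) *ᵥ v ≠ 0 := fun e =>
  h ((mv_inv e).symm.trans (mulVec_zero _))

omit [Fintype F] in
theorem vm_ne (g : GLn) {v : Fin nn → F} (h : v ≠ 0) : v ᵥ* (g : Mn) ≠ 0 := fun e =>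
  h ((vm_inv e).symm.trans (zero_vecMul _))

omit [Fintype F] in
theorem ne_of {g : GLn} {v w : Fin nn → F} {s : F} (h : v ≠ 0) (e : (g : Mn) *ᵥ v = s • w) : s ≠ 0 := by
  rintro rfl
  exact mv_ne g h (e.trans (zero_smul _ _))

omit [Fintype F] in
theorem exists_sc {s : F} (hs : s ≠ 0) : ∃ z ∈ Zn, ∀ v, (z : Mn) *ᵥ v = s • v := by
  refine ⟨_, ⟨Units.mk0 s hs, rfl⟩, fun v => ?_⟩
  change Matrix.scalar (Fin nn) s *ᵥ v = _
  rw [scalar_apply, ← smul_one_eq_diagonal, smul_mulVec, one_mulVec]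

omit [Fintype F] in
theorem ind_of {x y : Fin nn → F} (hx : x ≠ 0) (hy : ∀ s : F, y ≠ s • x) : Ind2 x y := by
  intro s t e
  have ht : t = 0 := by
    by_contra ht
    refine hy (-(t⁻¹ * s)) ?_
    rw [neg_smul, mul_smul, ← smul_neg, neg_eq_of_add_eq_zero_right e, smul_smul, inv_mul_cancel₀ ht, one_smul]
  rw [ht, zero_smul, add_zero] at e
  exact ⟨(smul_eq_zero.1 e).resolve_right hx, ht⟩

omit [Fintype F] in
theorem exists_ind (h3 : 3 ≤ nn) {x : Fin nn → F} (hx : x ≠ 0) : ∃ y, Ind2 x y := by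
  by_contra h
  have : Submodule.span F {x} = ⊤ := eq_top_iff.2 fun y _ => by
    by_contra hy
    exact h ⟨y, ind_of hx fun s e => hy (Submodule.mem_span_singleton.2 ⟨s, e.symm⟩)⟩
  have h1 := finrank_span_singleton (K := F) hx
  rw [this, finrank_top, finrank_fin_fun] at h1
  omega

omit [Fintype F] in
theorem trans (h3 : 3 ≤ nn) {G : Subgroup GLn} (h : TwoT G) (hZ : Zn ≤ G) {x y : Fin nn → F} (hx : x ≠ 0) (hy : y ≠ 0) :
    ∃ g ∈ G, (g : Mn) *ᵥ x = y := by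
  obtain ⟨x', h1⟩ := exists_ind h3 hx
  obtain ⟨y', h2⟩ := exists_ind h3 hy
  obtain ⟨g, hg, s, t, e, -⟩ := h _ _ _ _ h1 h2
  obtain ⟨z, hz, k⟩ := exists_sc (inv_ne_zero (ne_of hx e))
  exact ⟨z * g, mul_mem (hZ hz) hg, by rw [mv_mul, k, e, smul_smul, inv_mul_cancel₀ (ne_of hx e), one_smul]⟩

theorem key (Γ A) (ht : ∀ v w : Fin nn → F, (∃ u ∈ A, u ⬝ᵥ v ≠ 0) → (∃ u ∈ A, u ⬝ᵥ w ≠ 0) →
      ∃ g ∈ (Γ : Subgroup GLn), (g : Mn) *ᵥ v = w)
    {z z' : Fin nn → F} (hz : z ≠ 0) (hz' : z' ≠ 0) (h : z - z' ∈ (A : Submodule F (Fin nn → F))) :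
    ∃ g ∈ Γ, z ᵥ* (g : Mn) = z' := by
  let ρ : Γ →* Module.End F (Fin nn → F) :=
    { toFun := fun g => (((g : GLn)⁻¹ : GLn) : Mn).vecMulLinear
      map_one' := LinearMap.ext fun v => by simp
      map_mul' := fun g k => LinearMap.ext fun v => by
        rw [Subgroup.coe_mul, _root_.mul_inv_rev]
        exact vm_mul _ _ v }
  let σ : Γ →* Module.End F (Fin nn → F) :=
    { toFun := fun g => ((g : GLn) : Mn).mulVecLin
      map_one' := LinearMap.ext fun v => by simp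
      map_mul' := fun g k => LinearMap.ext fun v => mv_mul _ _ _ }
  obtain ⟨g, hg⟩ := S7.four ρ σ (dotProductBilin F F)
    (fun g u v => by
      change (u ᵥ* (((g : GLn)⁻¹ : GLn) : Mn)) ⬝ᵥ (((g : GLn) : Mn) *ᵥ v) = u ⬝ᵥ v
      rw [dotProduct_mulVec, ← vm_mul, inv_mul_cancel, Units.val_one, vecMul_one])
    (fun u hu => dotProduct_eq_zero u hu)
    (fun v hv => dotProduct_eq_zero v fun u => (dotProduct_comm _ _).trans (hv u))
    (C := ⊥) (A := A) (fun g u hu => by rw [(Submodule.mem_bot F).1 hu, map_zero]; exact zero_mem _)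
    (fun v w _ _ h1 h2 => by
      obtain ⟨g, hg, e⟩ := ht v w h1 h2
      exact ⟨⟨g, hg⟩, e⟩) hz hz' h
  exact ⟨_, inv_mem g.2, sub_eq_zero.1 ((Submodule.mem_bot F).1 hg)⟩

/-- the stabiliser of a point -/
def stp (G : Subgroup GLn) {x : Fin nn → F} (hx : x ≠ 0) : Subgroup GLn where
  carrier := {g | g ∈ G ∧ ∃ s : F, (g : Mn) *ᵥ x = s • x}
  one_mem' := ⟨G.one_mem, 1, by simp⟩
  mul_mem' := fun {a b} ⟨h1, s, e⟩ ⟨h2, t, e'⟩ =>
    ⟨G.mul_mem h1 h2, t * s, by rw [mv_mul, e', mulVec_smul, e, smul_smul]⟩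
  inv_mem' := fun {a} ⟨h1, s, e⟩ => ⟨G.inv_mem h1, s⁻¹, by
    have := mv_inv e
    rw [mulVec_smul] at this
    conv_rhs => rw [← this, smul_smul, inv_mul_cancel₀ (ne_of hx e), one_smul]⟩

theorem flagx (h3 : 3 ≤ nn) {G : Subgroup GLn} (h : TwoT G) (hZ : Zn ≤ G) {η x y : Fin nn → F} (hη : η ≠ 0) (hx : x ≠ 0)
    (hy : y ≠ 0) (e : η ⬝ᵥ x = η ⬝ᵥ y) :
    ∃ g ∈ G, η ᵥ* (g : Mn) = η ∧ ∃ s : F, (g : Mn) *ᵥ x = s • y := by
  obtain ⟨g, hg, rfl⟩ := trans h3 h hZ hx hy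
  have k : ∀ v, (∃ u ∈ LinearMap.ker ((dotProductBilin F F).flip x), u ⬝ᵥ v ≠ 0) → Ind2 x v := by
    rintro v ⟨u, h1, h2⟩
    refine ind_of hx fun s e => h2 ?_
    rw [e, dotProduct_smul, show u ⬝ᵥ x = 0 from h1, smul_zero]
  obtain ⟨c, ⟨hc, s, e1⟩, e2⟩ := key (stp G hx) (LinearMap.ker ((dotProductBilin F F).flip x))
    (fun v w h1 h2 => by
      obtain ⟨a, ha, s, t, e1, e2⟩ := h _ _ _ _ (k v h1) (k w h2)
      have hv : v ≠ 0 := fun e => by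
        obtain ⟨u, -, h1⟩ := h1
        exact h1 (by rw [e, dotProduct_zero])
      obtain ⟨z, hz, j⟩ := exists_sc (inv_ne_zero (ne_of hv e2))
      exact ⟨z * a, ⟨mul_mem (hZ hz) ha, t⁻¹ * s, by rw [mv_mul, j, e1, smul_smul]⟩,
        by rw [mv_mul, j, e2, smul_smul, inv_mul_cancel₀ (ne_of hv e2), one_smul]⟩)
    (vm_ne g hη) hη (by
      change (η ᵥ* (g : Mn) - η) ⬝ᵥ x = 0
      rw [sub_dotProduct, ← dotProduct_mulVec, e, sub_self])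
  exact ⟨g * c, mul_mem hg hc, by rw [vm_mul, e2], s, by rw [mv_mul, e1, mulVec_smul]⟩

/-- the natural action -/
@[reducible] def act : MulAction GLn (Fin nn → F) where
  smul g v := (g : Mn) *ᵥ v
  one_smul := one_mulVec
  mul_smul := mv_mul

/-- the stabiliser of a functional -/
def stf (G : Subgroup GLn) (η : Fin nn → F) : Subgroup GLn where
  carrier := {g | g ∈ G ∧ η ᵥ* (g : Mn) = η}
  one_mem' := ⟨G.one_mem, by simp⟩
  mul_mem' := fun {a b} ⟨h1, e⟩ ⟨h2, e'⟩ => ⟨G.mul_mem h1 h2, by rw [vm_mul, e, e']⟩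
  inv_mem' := fun {a} ⟨h1, e⟩ => ⟨G.inv_mem h1, vm_inv e⟩

omit [Fintype F] in
theorem dot_eq {G : Subgroup GLn} {η : Fin nn → F} {g : GLn} (hg : g ∈ stf G η) (v : Fin nn → F) :
    η ⬝ᵥ ((g : Mn) *ᵥ v) = η ⬝ᵥ v := by
  rw [dotProduct_mulVec, hg.2]

open FG.CK in
theorem exists_fix {G : Subgroup GLn} (h : Flag G) {η x y : Fin nn → F} (hx : x ≠ 0) (h1 : η ⬝ᵥ x = 0)
    (h2 : η ⬝ᵥ y = 1) : ∃ c, c ≠ 0 ∧ η ⬝ᵥ c = 0 ∧ ∀ u v, η ⬝ᵥ u = 1 → η ⬝ᵥ v = 1 →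
      ∃ g ∈ G, η ᵥ* (g : Mn) = η ∧ (g : Mn) *ᵥ c = c ∧ (g : Mn) *ᵥ u = v := by
  letI : MulAction GLn (Fin nn → F) := act
  obtain ⟨p, _⟩ := CharP.exists F
  obtain ⟨n, hp, hn⟩ := FiniteField.card F p
  let K := LinearMap.ker (dotProductBilin F F η)
  have mK : ∀ v, v ∈ K ↔ η ⬝ᵥ v = 0 := fun v => Iff.rfl
  have cK : (K : Set (Fin nn → F)).ncard = p ^ (n * finrank F K) := by
    rw [pow_mul, ← hn, ← Nat.card_eq_fintype_card, ← Module.natCard_eq_pow_finrank]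
    rfl
  have pos : (n : ℕ) * finrank F K ≠ 0 := mul_ne_zero n.ne_zero fun e =>
    hx ((Submodule.eq_bot_iff _).mp (Submodule.finrank_eq_zero.mp e) x h1)
  obtain ⟨c, hc, hd⟩ : ∃ c ∈ (K : Set (Fin nn → F)) \ {0}, ¬ p ∣ (orb (stf G η) c).ncard := by
    by_contra hn
    push Not at hn
    have := dvd_ncard_of_orb (stf G η) ((K : Set (Fin nn → F)) \ {0}) (fun g hg v hv =>
      ⟨(mK _).2 ((dot_eq hg v).trans hv.1), mv_ne g hv.2⟩) hn
    rw [Set.ncard_diff_singleton_of_mem (zero_mem _), cK] at this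
    have h3 := (Nat.dvd_sub_iff_right (Nat.one_le_pow _ _ hp.pos) (dvd_pow_self p pos)).1 this
    exact hp.one_lt.ne' (Nat.dvd_one.1 h3)
  refine ⟨c, hc.2, hc.1, fun u v hu hv => ?_⟩
  have e1 : orb (stf G η) u = (fun w => w + y) '' K := by
    ext w
    constructor
    · rintro ⟨g, hg, rfl⟩
      refine ⟨g • u - y, (mK _).2 ?_, sub_add_cancel _ _⟩
      rw [dotProduct_sub, h2, ← hu]
      exact sub_eq_zero.2 (dot_eq hg u)
    · rintro ⟨w, hw, rfl⟩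
      obtain ⟨g, hg, k1, k2⟩ := h.off η u (w + y) hu (by rw [dotProduct_add, (mK w).1 hw, h2, zero_add])
      exact ⟨g, ⟨hg, k1⟩, k2⟩
  have e2 : (orb (stf G η) u).ncard = p ^ (n * finrank F K) := by
    rw [e1, Set.ncard_image_of_injective _ (add_left_injective y), cK]
  have le : MulAction.stabilizer GLn c ⊓ stf G η ≤ stf G η := inf_le_right
  have e3 := ncard_orb_dvd le u
  rw [Subgroup.inf_relIndex_right, ← ncard_orb, e2] at e3
  have e4 := Set.eq_of_subset_of_ncard_le (orb_mono le u) (e2 ▸ Nat.le_of_dvd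
    ((Set.ncard_pos).mpr ⟨u, 1, one_mem _, one_smul _ _⟩)
    ((((Nat.Prime.coprime_iff_not_dvd hp).2 hd).pow_left _).dvd_of_dvd_mul_left e3))
  obtain ⟨g, hg, k1, k2⟩ := h.off η u v hu hv
  obtain ⟨g, ⟨k3, k4, k5⟩, k6⟩ := e4.ge ⟨g, ⟨hg, k1⟩, k2⟩
  exact ⟨g, k4, k5, k3, k6⟩

end CK1

open CK1

theorem TwoT.flag {G : Subgroup GLn} (h : TwoT G) (hn : 3 ≤ nn) (hZ : Zn ≤ G) : Flag G := by
  have ne : ∀ {η x : Fin nn → F}, η ⬝ᵥ x ≠ 0 → η ≠ 0 ∧ x ≠ 0 := fun e =>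
    ⟨fun k => e (by rw [k, zero_dotProduct]), fun k => e (by rw [k, dotProduct_zero])⟩
  refine ⟨fun η ζ h1 h2 => key G ⊤ (fun v w ⟨_, _, k1⟩ ⟨_, _, k2⟩ => trans hn h hZ (ne k1).2 (ne k2).2)
    h1 h2 Submodule.mem_top, fun η x y h1 h2 h3 h4 h5 => flagx hn h hZ h1 h2 h3 (h4.trans h5.symm),
    fun η x y h1 h2 => ?_⟩
  have k1 := ne (h1.trans_ne one_ne_zero)
  obtain ⟨g, hg, e1, s, e2⟩ := flagx hn h hZ k1.1 k1.2 (ne (h2.trans_ne one_ne_zero)).2 (h1.trans h2.symm)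
  have := congrArg (η ⬝ᵥ ·) e2
  simp only [dotProduct_mulVec, e1, h1, dotProduct_smul, h2, smul_eq_mul, mul_one] at this
  exact ⟨g, hg, e1, by rw [e2, ← this, one_smul]⟩

theorem Flag.tri {G : Subgroup GLn} (h : Flag G) : Tri G := by
  intro x y η ζ hx h1 h2 h3 h4
  have hη : η ≠ 0 := fun e => zero_ne_one (by rwa [e, zero_dotProduct] at h3)
  have hζ : ζ ≠ 0 := fun e => zero_ne_one (by rwa [e, zero_dotProduct] at h4)
  obtain ⟨c, hc, h5, k⟩ := exists_fix h hx h1 h3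
  obtain ⟨g, hg, e⟩ := h.dual η ζ hη hζ
  obtain ⟨a, ha, a1, s, a2⟩ := h.on η ((g : Mn) *ᵥ x) c hη (mv_ne g hx) hc
    (by rw [dotProduct_mulVec, e, h2]) h5
  obtain ⟨b, hb, b1, t, b2⟩ := h.on η c x hη hc hx h5 h1
  obtain ⟨l, hl, l1, l2, l3⟩ := k ((a : Mn) *ᵥ (g : Mn) *ᵥ y) (((b⁻¹ : GLn) : Mn) *ᵥ y)
    (by rw [dotProduct_mulVec, a1, dotProduct_mulVec, e, h4]) (by rw [dotProduct_mulVec, vm_inv b1, h3])
  refine ⟨b * (l * (a * g)), mul_mem hb (mul_mem hl (mul_mem ha hg)), ⟨s * t, ?_⟩, ?_, ?_⟩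
  · rw [mv_mul, mv_mul, mv_mul, a2, mulVec_smul, l2, mulVec_smul, b2, smul_smul]
  · rw [mv_mul, mv_mul, mv_mul, l3, ← mv_mul, mul_inv_cancel, Units.val_one, one_mulVec]
  · rw [vm_mul, vm_mul, vm_mul, b1, l1, a1, e]

end Cfsg.Agent.SG
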