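/-
Large suborbits give double transitivity on the points.
-/
import Mathlib
import Cfsg.Agent.SG.Defs
import Cfsg.Agent.SG.Full
import Cfsg.Agent.SG.AntiA
import Cfsg.Agent.SG.AntiS
import Cfsg.Agent.SG.KCK1

set_option autoImplicit false
set_option linter.unusedVariables false

namespace Cfsg.Agent.SG

open Matrix Cfsg.Geo Module
open scoped MatrixGroups ComplexConjugate commutatorElement

variable {nn : ℕ} {F : Type*} [Field F] [Fintype F]

local notation "Mn" => Matrix (Fin nn) (Fin nn) F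
local notation "SLn" => specialLinear (Fin nn) F
local notation "Zn" => scalars (Fin nn) F
local notation "GLn" => GL (Fin nn) F
local notation "qq" => Fintype.card F

namespace AntiB

open CK1

omit [Fintype F] in
theorem ne_left {a b : Fin nn → F} (h : Ind2 a b) : a ≠ 0 := fun e =>
  one_ne_zero (h 1 0 (by simp [e])).1

omit [Fintype F] in
theorem ne_right {a b : Fin nn → F} (h : Ind2 a b) : b ≠ 0 := fun e =>
  one_ne_zero (h 0 1 (by simp [e])).2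

theorem ind_map (g : GLn) {a b : Fin nn → F} (h : Ind2 a b) :
    Ind2 ((g : Mn) *ᵥ a) ((g : Mn) *ᵥ b) := fun s t e => by
  refine h s t ?_
  by_contra h0
  refine mv_ne g h0 ?_
  rw [mulVec_add, mulVec_smul, mulVec_smul, e]

theorem vec_trans {H : Subgroup GLn} (hp : PT H) {x y : Fin nn → F} (hx : x ≠ 0) (hy : y ≠ 0) :
    ∃ g ∈ H ⊔ Zn, (g : Mn) *ᵥ x = y := by
  obtain ⟨g, hg, c, e⟩ := hp x y hx hy
  have hc := ne_of hx e
  obtain ⟨z, hz, ez⟩ := exists_sc (nn := nn) (inv_ne_zero hc)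
  exact ⟨z * g, mul_mem (Subgroup.mem_sup_right hz) (Subgroup.mem_sup_left hg), by
    rw [mv_mul, e, ez, smul_smul, inv_mul_cancel₀ hc, one_smul]⟩

theorem off {H : Subgroup GLn} (hp : PT H) (hb : ∀ x y, Ind2 x y → Big H x y) {η x y : Fin nn → F}
    (hx : η ⬝ᵥ x = 1) (hy : η ⬝ᵥ y = 1) :
    ∃ g ∈ H ⊔ Zn, η ᵥ* (g : Mn) = η ∧ (g : Mn) *ᵥ x = y := by
  have hx0 : x ≠ 0 := fun e => by simp [e] at hx
  have hy0 : y ≠ 0 := fun e => by simp [e] at hy
  obtain ⟨g1, h1, e1⟩ := vec_trans hp hx0 hy0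
  have hf : ∀ w, Ind2 x w → Full (H ⊔ Zn) x w := fun w hw a => by
    obtain ⟨g, hg, r⟩ := (hb x w hw).full hw a
    exact ⟨g, Subgroup.mem_sup_left hg, r⟩
  obtain ⟨g2, h2, ⟨c, e2⟩, e3⟩ := anti_dual (η := η ᵥ* (g1 : Mn)) (ζ := η) le_sup_right hf
    (by rw [← dotProduct_mulVec, e1, hy]; exact one_ne_zero) (by rw [hx]; exact one_ne_zero)
  have e4 : η ᵥ* ((g1 * g2 : GLn) : Mn) = η := by rw [vm_mul, e3]
  have e5 : ((g1 * g2 : GLn) : Mn) *ᵥ x = c • y := by rw [mv_mul, e2, mulVec_smul, e1]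
  have e6 : c = 1 := by
    have : η ⬝ᵥ ((g1 * g2 : GLn) : Mn) *ᵥ x = 1 := by rw [dotProduct_mulVec, e4, hx]
    rwa [e5, dotProduct_smul, hy, smul_eq_mul, mul_one] at this
  exact ⟨g1 * g2, mul_mem h1 h2, e4, by rw [e5, e6, one_smul]⟩

theorem exists_off {k : ℕ} {H : Subgroup (GL (Fin (k + 1)) F)} {v y : Fin (k + 1) → F} (hy : y ≠ 0)
    (hb : Big H v y) : ∃ w ∈ vo H v y, w 0 ≠ 0 := by
  by_contra hc
  push Not at hc
  have hs : vo H v y ⊂ Set.range fun u : Fin k → F => (Fin.cons 0 u : Fin (k + 1) → F) := by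
    refine ⟨fun w hw => ⟨Fin.tail w, ?_⟩, fun h => ?_⟩
    · rw [← hc w hw]
      exact Fin.cons_self_tail w
    · obtain ⟨g, -, -, e⟩ := h ⟨0, rfl⟩
      refine mv_ne g hy (e.trans ?_)
      funext i
      refine Fin.cases rfl (fun _ => rfl) i
  have h1 := Set.ncard_lt_ncard hs
  rw [Set.ncard_range_of_injective (Fin.cons_right_injective (α := fun _ => F) 0), Nat.card_fun,
    Nat.card_eq_fintype_card, Nat.card_eq_fintype_card, Fintype.card_fin] at h1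
  exact absurd hb (not_le.2 h1)

end AntiB

open AntiB CK1

theorem twoT_of_big (h2 : 2 ≤ nn) {H : Subgroup GLn} (hp : PT H) (hb : ∀ x y, Ind2 x y → Big H x y) :
    TwoT H := by
  obtain ⟨k, rfl⟩ : ∃ k, nn = k + 1 := ⟨nn - 1, by omega⟩
  let η : Fin (k + 1) → F := Pi.single 0 1
  have hη : ∀ w, η ⬝ᵥ w = w 0 := fun w => by simp [η]
  obtain ⟨v, hv, -, ht⟩ := anti_syl h2 (G := H ⊔ scalars (Fin (k + 1)) F) (η := η)
    (fun e => by simpa [η] using congrFun e 0) fun x y hx hy => off hp hb hx hy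
  have key : ∀ a b : Fin (k + 1) → F, Ind2 a b → ∃ g ∈ H ⊔ scalars (Fin (k + 1)) F,
      g.val *ᵥ a = v ∧ ∃ t : F, t ≠ 0 ∧ g.val *ᵥ b = t • η := by
    intro a b hab
    obtain ⟨g1, h1, e1⟩ := vec_trans hp (ne_left hab) hv
    have i1 := ind_map g1 hab
    rw [e1] at i1
    obtain ⟨w, ⟨g2, hg2, e2, e3⟩, hw⟩ := exists_off (ne_right i1) (hb _ _ i1)
    obtain ⟨g3, h3, e4, e5⟩ := ht ((w 0)⁻¹ • w) η (by rw [hη]; simp [hw]) (by rw [hη]; simp [η])
    refine ⟨g3 * (g2 * g1), mul_mem h3 (mul_mem (Subgroup.mem_sup_left hg2) h1), ?_, w 0, hw, ?_⟩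
    · rw [mv_mul, mv_mul, e1, e2, e4]
    · rw [mv_mul, mv_mul, e3, ← e5, mulVec_smul, smul_smul, mul_inv_cancel₀ hw, one_smul]
  intro a b a' b' i i'
  obtain ⟨g, hg, e1, t, ht0, e2⟩ := key a b i
  obtain ⟨g', hg', e1', t', ht0', e2'⟩ := key a' b' i'
  obtain ⟨m, hm, z, hz, e⟩ := Subgroup.mem_sup_of_normal_right.1 (mul_mem (inv_mem hg') hg)
  obtain ⟨c, hc⟩ := (mem_scalars_iff z).1 hz
  have em : ∀ u, m.val *ᵥ u = (c : F)⁻¹ • (g'⁻¹).val *ᵥ g.val *ᵥ u := fun u => by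
    rw [← mv_mul, ← e, mv_mul, hc, smul_mulVec, one_mulVec, mulVec_smul, smul_smul,
      inv_mul_cancel₀ c.ne_zero, one_smul]
  refine ⟨m, hm, (c : F)⁻¹, (c : F)⁻¹ * (t * t'⁻¹), by rw [em, e1, mv_inv e1'], ?_⟩
  rw [em, e2, ← mv_inv e2', mulVec_smul, mulVec_smul, smul_smul, smul_smul, mul_assoc,
    mul_assoc, inv_mul_cancel₀ ht0', mul_one]

end Cfsg.Agent.SG
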