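/-
Exceptional characters: the combinatorial step, relative to a finite set `X` of characters.
-/
import Mathlib
import Cfsg.Agent.SG.Defs
import Cfsg.Agent.S11.ChC

set_option autoImplicit false
set_option linter.unusedVariables false

namespace Cfsg.Agent.SG

open Matrix Cfsg.Geo Module
open scoped MatrixGroups ComplexConjugate commutatorElement

open Classical in
theorem chc_shapeX {I : Type*} (X : Finset I) {t : ℕ} (ht : 2 ≤ t) (a : I → Fin t → ℕ) (D : I → ℕ)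
    (two : ∀ i j, i ≠ j → ∑ χ ∈ X, ((a χ i : ℤ) - a χ j) ^ 2 = 2)
    (pos : ∀ χ, 0 < D χ)
    (orth : ∀ i j, ∑ χ ∈ X, ((D χ : ℕ) : ℤ) * ((a χ i : ℤ) - a χ j) = 0) :
    ∃ (ε : ℤ) (c : I → ℤ) (x : Fin t → I), Function.Injective x ∧ (∀ k, x k ∈ X) ∧
      (ε = 1 ∨ ε = -1) ∧ (∀ φ ∈ X, ∀ k, (a φ k : ℤ) = c φ + if φ = x k then ε else 0) ∧
      (∀ w : I → ℤ, (∀ i j, ∑ χ ∈ X, w χ * ((a χ i : ℤ) - a χ j) = 0) →
        ∀ i j, w (x i) = w (x j)) ∧
      (∀ χ ∈ X, ∀ i j, a χ i ≠ a χ j → ∃ k, χ = x k) := by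
  let i0 : Fin t := ⟨0, by omega⟩
  let i1 : Fin t := ⟨1, by omega⟩
  have h01 : i1 ≠ i0 := by simp [i0, i1, Fin.ext_iff]
  obtain ⟨ε, c, x, hx, hε, hac⟩ := S11.chc_shape (fun (φ : X) k => (a φ k : ℤ)) i0 i1 h01
    fun i j hij =>
    S11.chc_norm_two (fun χ : X => (a χ i : ℤ) - a χ j) (fun χ : X => ((D χ : ℕ) : ℤ))
      (fun χ => by exact_mod_cast pos χ)
      (by rw [← two i j hij, ← Finset.sum_coe_sort X])
      (by rw [← orth i j, ← Finset.sum_coe_sort X])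
  have hε0 : ε ≠ 0 := by omega
  have hac' : ∀ φ ∈ X, ∀ k, (a φ k : ℤ) =
      (if h : φ ∈ X then c ⟨φ, h⟩ else 0) + if φ = (x k : I) then ε else 0 := by
    intro φ hφ k
    rw [dif_pos hφ]
    have := hac ⟨φ, hφ⟩ k
    simp only [Subtype.ext_iff] at this
    exact this
  refine ⟨ε, fun φ => if h : φ ∈ X then c ⟨φ, h⟩ else 0, fun k => (x k : I),
    fun k l e => hx (Subtype.ext e), fun k => (x k).2, hε, hac', ?_, ?_⟩
  · intro w hw i j
    have h1 := hw i j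
    have h2 : ∀ χ ∈ X, w χ * ((a χ i : ℤ) - a χ j) =
        (if χ = (x i : I) then w χ * ε else 0) - (if χ = (x j : I) then w χ * ε else 0) :=
      fun χ hχ => by
        rw [hac' χ hχ i, hac' χ hχ j]
        split_ifs <;> ring
    rw [Finset.sum_congr rfl h2, Finset.sum_sub_distrib, Finset.sum_ite_eq', Finset.sum_ite_eq',
      if_pos (x i).2, if_pos (x j).2] at h1
    have h3 : (w (x i) - w (x j)) * ε = 0 := by linarith
    rcases mul_eq_zero.1 h3 with h4 | h4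
    · linarith
    · exact absurd h4 hε0
  · intro χ hχ i j hij
    by_contra hno
    push Not at hno
    apply hij
    have e1 := hac' χ hχ i
    have e2 := hac' χ hχ j
    rw [if_neg (hno i)] at e1
    rw [if_neg (hno j)] at e2
    exact_mod_cast e1.trans e2.symm

theorem chc_one {I : Type*} (X : Finset I) {n t : ℕ} (ht : 2 ≤ t) (a : I → Fin t → ℕ) (b c : I → ℕ)
    (two : ∀ i j, i ≠ j → ∑ χ ∈ X, ((a χ i : ℤ) - a χ j) ^ 2 = 2)
    (pos : ∀ χ, 0 < b χ + n * ∑ k, a χ k)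
    (orth : ∀ i j, ∑ χ ∈ X, ((b χ + n * ∑ k, a χ k : ℕ) : ℤ) * ((a χ i : ℤ) - a χ j) = 0)
    (ha : ∀ i j, ∑ χ ∈ X, c χ * a χ i = ∑ χ ∈ X, c χ * a χ j)
    {φ : I} (hφ : φ ∈ X) (hc : c φ ≠ 0) {i j : Fin t} (hij : a φ i ≠ a φ j) :
    t * (b φ + n * ∑ k, a φ k) ≤ ∑ χ ∈ X, c χ * (b χ + n * ∑ k, a χ k) := by
  classical
  obtain ⟨ε, c0, x, hx, hxX, hε, hac, const, exc⟩ :=
    chc_shapeX X ht a (fun χ => b χ + n * ∑ k, a χ k) two pos orth
  have hdeg : ∀ i j, b (x i) + n * ∑ k, a (x i) k = b (x j) + n * ∑ k, a (x j) k := fun i j => by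
    exact_mod_cast const _ orth i j
  have hnn : ∀ i j, c (x i) = c (x j) := fun i j => by
    have := const (fun χ => (c χ : ℤ)) (fun i j => by
      have e1 : ∑ χ ∈ X, (c χ : ℤ) * (a χ i : ℤ) = ∑ χ ∈ X, (c χ : ℤ) * (a χ j : ℤ) := by
        exact_mod_cast ha i j
      simp only [mul_sub, Finset.sum_sub_distrib, e1, sub_self]) i j
    exact_mod_cast this
  obtain ⟨k0, rfl⟩ := exc φ hφ i j hij
  have hsub : ∀ f : I → ℕ, ∑ k, f (x k) ≤ ∑ χ ∈ X, f χ := fun f => by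
    rw [← Finset.sum_image (s := Finset.univ) (g := x) (f := f) (fun _ _ _ _ e => hx e)]
    refine Finset.sum_le_sum_of_subset fun y hy => ?_
    obtain ⟨k, -, rfl⟩ := Finset.mem_image.1 hy
    exact hxX k
  refine le_trans ?_ (hsub fun χ => c χ * (b χ + n * ∑ k, a χ k))
  have e2 : ∑ l : Fin t, c (x l) * (b (x l) + n * ∑ k, a (x l) k) =
      t * (c (x k0) * (b (x k0) + n * ∑ k, a (x k0) k)) := by
    rw [Finset.sum_congr rfl fun l _ => by rw [hnn l k0, hdeg l k0]]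
    simp
  rw [e2]
  exact Nat.mul_le_mul_left _ (Nat.le_mul_of_pos_left _ (Nat.pos_of_ne_zero hc))

theorem chc_two {I : Type*} (X : Finset I) {n t : ℕ} (ht : n + 3 ≤ t) (a : I → Fin t → ℕ) (b : I → ℕ)
    (two : ∀ i j, i ≠ j → ∑ χ ∈ X, ((a χ i : ℤ) - a χ j) ^ 2 = 2)
    (eight : ∀ i, ∑ χ ∈ X, ((b χ : ℤ) - a χ i) ^ 2 = n + 1)
    (pos : ∀ χ, 0 < b χ + n * ∑ k, a χ k)
    (orth : ∀ i j, ∑ χ ∈ X, ((b χ + n * ∑ k, a χ k : ℕ) : ℤ) * ((a χ i : ℤ) - a χ j) = 0)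
    {φ : I} (hφ : φ ∈ X) {i j : Fin t} (hij : a φ i ≠ a φ j)
    (hd : b φ + n * ∑ k, a φ k < n * (t - 1)) : b φ = 0 ∧ ∑ k, a φ k = 1 := by
  classical
  obtain ⟨ε, c, x, hx, hxX, hε, hac, const, exc⟩ :=
    chc_shapeX X (by omega) a (fun χ => b χ + n * ∑ k, a χ k) two pos orth
  have hdeg : ∀ i j, b (x i) + n * ∑ k, a (x i) k = b (x j) + n * ∑ k, a (x j) k := fun i j => by
    exact_mod_cast const _ orth i j
  obtain ⟨k0, rfl⟩ := exc φ hφ i j hij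
  let i0 : Fin t := ⟨0, by omega⟩
  let i1 : Fin t := ⟨1, by omega⟩
  have h01 : i1 ≠ i0 := by simp [i0, i1, Fin.ext_iff]
  have hsum : ∀ j, ((∑ k, a (x j) k : ℕ) : ℤ) = t * c (x j) + ε := by
    intro j
    push_cast
    simp only [hac (x j) (hxX j), Finset.sum_add_distrib, hx.eq_iff]
    simp
  have hc0 : ∀ j, c (x j) = 0 := by
    intro j
    obtain ⟨k, hk⟩ : ∃ k, k ≠ j := by
      by_cases e : j = i0
      · exact ⟨i1, by rw [e]; exact h01⟩
      · exact ⟨i0, Ne.symm e⟩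
    have e1 := hac (x j) (hxX j) k
    rw [if_neg (fun e => hk (hx e).symm), add_zero] at e1
    have e2 := hsum j
    have e4 : (0 : ℤ) ≤ c (x j) := by rw [← e1]; positivity
    by_contra e5
    have e6 : (1 : ℤ) ≤ c (x j) := by omega
    have e7 : (t : ℤ) * 1 ≤ t * c (x j) := mul_le_mul_of_nonneg_left e6 (by positivity)
    have e8 : t - 1 ≤ ∑ k, a (x j) k := by omega
    have e9 : n * (t - 1) ≤ n * ∑ k, a (x j) k := Nat.mul_le_mul_left _ e8
    have e10 := hdeg j k0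
    omega
  have hone : ∀ j, ∑ k, a (x j) k = 1 := by
    intro j
    have e2 := hsum j
    rw [hc0 j, mul_zero, zero_add] at e2
    omega
  have hbb : ∀ i j, b (x i) = b (x j) := fun i j => by
    have := hdeg i j
    rw [hone i, hone j] at this
    omega
  refine ⟨?_, hone k0⟩
  have e1 := eight i0
  have e2 : ∑ χ ∈ (Finset.univ.erase i0).image x, ((b χ : ℤ) - a χ i0) ^ 2 ≤ n + 1 := by
    rw [← e1]
    refine Finset.sum_le_sum_of_subset_of_nonneg (fun y hy => ?_) fun _ _ _ => sq_nonneg _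
    obtain ⟨k, -, rfl⟩ := Finset.mem_image.1 hy
    exact hxX k
  rw [Finset.sum_image (fun _ _ _ _ e => hx e)] at e2
  have e3 : ∑ k ∈ Finset.univ.erase i0, ((b (x k) : ℤ) - a (x k) i0) ^ 2 =
      ∑ k ∈ Finset.univ.erase i0, (b (x k0) : ℤ) ^ 2 := by
    refine Finset.sum_congr rfl fun k hk => ?_
    have hk' : k ≠ i0 := (Finset.mem_erase.1 hk).1
    rw [hac (x k) (hxX k) i0, hc0 k, if_neg (fun e => hk' (hx e)), hbb k k0]
    ring
  rw [e3, Finset.sum_const, Finset.card_erase_of_mem (Finset.mem_univ _), Finset.card_univ,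
    Fintype.card_fin, nsmul_eq_mul] at e2
  by_contra e4
  have e5 : (1 : ℤ) ≤ (b (x k0) : ℤ) := by omega
  have e6 : (1 : ℤ) ≤ (b (x k0) : ℤ) ^ 2 := by nlinarith
  have e7 : (n : ℤ) + 2 ≤ ((t - 1 : ℕ) : ℤ) := by omega
  nlinarith

end Cfsg.Agent.SG
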