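import Mathlib
import Cfsg.Agent.SG.Defs
import Cfsg.Agent.Ch.Decomp
import Cfsg.Agent.Ch.Kernel

set_option autoImplicit false
set_option linter.unusedVariables false

namespace Cfsg.Agent.SG

open Matrix Cfsg.Geo Module
open scoped MatrixGroups ComplexConjugate commutatorElement

theorem chz_mul {G : Type*} [Group G] [Fintype G] (χ : IrrCharacter G) {z : G}
    (hz : ∀ g : G, z * g = g * z) (g : G) : χ.1 (g * z) = χ.1 z / χ.1 1 * χ.1 g := by
  have h1 : χ.1 1 ≠ 0 := χ.2.apply_one_ne_zero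
  have hc : z ∈ Subgroup.center G := Subgroup.mem_center_iff.2 fun g => (hz g).symm
  have h := χ.2.apply_mul_of_mem_center hc g
  rw [← hz g]
  field_simp
  linear_combination h

theorem chz_norm {G : Type*} [Group G] [Fintype G] (χ : IrrCharacter G) {z : G}
    (hz : ∀ g : G, z * g = g * z) : conj (χ.1 z / χ.1 1) * (χ.1 z / χ.1 1) = 1 := by
  have h1 : χ.1 1 ≠ 0 := χ.2.apply_one_ne_zero
  have hc : z ∈ Subgroup.center G := Subgroup.mem_center_iff.2 fun g => (hz g).symm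
  have h := χ.2.norm_apply_of_mem_center hc
  have h' := χ.2.norm_apply_of_mem_center (Subgroup.center G).one_mem
  have hn : ‖χ.1 z / χ.1 1‖ = 1 := by
    rw [norm_div, h, ← h', div_self (norm_ne_zero_iff.2 h1)]
  rw [Complex.conj_mul', hn]
  simp

theorem chz_sum {G : Type*} [Group G] [Fintype G] {Z : Subgroup G} [Fintype Z]
    (zc : ∀ z ∈ Z, ∀ g : G, z * g = g * z) (ω χ : IrrCharacter G) (h : χ ∉ cls Z ω) :
    ∑ z : Z, conj (ω.1 z / ω.1 1) * (χ.1 z / χ.1 1) = 0 := by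
  have h1 : χ.1 1 ≠ 0 := χ.2.apply_one_ne_zero
  have h2 : ω.1 1 ≠ 0 := ω.2.apply_one_ne_zero
  rw [mem_cls] at h
  push Not at h
  obtain ⟨z0, hz0, hne⟩ := h
  have hf : conj (ω.1 z0 / ω.1 1) * (χ.1 z0 / χ.1 1) ≠ 1 := by
    intro he
    apply hne
    have hn := chz_norm ω (zc z0 hz0)
    have hc : conj (ω.1 z0 / ω.1 1) ≠ 0 := left_ne_zero_of_mul_eq_one hn
    have : χ.1 z0 / χ.1 1 = ω.1 z0 / ω.1 1 := mul_left_cancel₀ hc (he.trans hn.symm)
    field_simp at this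
    linear_combination this
  have hs : ∑ z : Z, conj (ω.1 z / ω.1 1) * (χ.1 z / χ.1 1) =
      conj (ω.1 z0 / ω.1 1) * (χ.1 z0 / χ.1 1) *
        ∑ z : Z, conj (ω.1 z / ω.1 1) * (χ.1 z / χ.1 1) := by
    rw [Finset.mul_sum, ← Equiv.sum_comp (Equiv.mulRight (⟨z0, hz0⟩ : Z))]
    refine Finset.sum_congr rfl fun z _ => ?_
    simp only [Equiv.coe_mulRight, Subgroup.coe_mul]
    rw [chz_mul ω (zc z0 hz0), chz_mul χ (zc z0 hz0), mul_div_assoc, map_mul]
    ring
  have : (1 - conj (ω.1 z0 / ω.1 1) * (χ.1 z0 / χ.1 1)) *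
      ∑ z : Z, conj (ω.1 z / ω.1 1) * (χ.1 z / χ.1 1) = 0 := by linear_combination hs
  exact (mul_eq_zero.1 this).resolve_left (sub_ne_zero.2 hf.symm)

/-- Projection of a class function to a central class. -/
theorem cls_proj {G : Type*} [Group G] [Fintype G] {Z : Subgroup G} [Fintype Z]
    (zc : ∀ z ∈ Z, ∀ g : G, z * g = g * z) (ω : IrrCharacter G) (c : IrrCharacter G → ℂ) (g : G) :
    (Nat.card Z : ℂ) * ∑ χ ∈ cls Z ω, c χ * χ.1 g =
      ∑ z : Z, conj (ω.1 z / ω.1 1) * ∑ χ : IrrCharacter G, c χ * χ.1 (g * z) := by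
  have e : ∀ z : Z, conj (ω.1 z / ω.1 1) * ∑ χ : IrrCharacter G, c χ * χ.1 (g * z) =
      ∑ χ : IrrCharacter G, c χ * χ.1 g * (conj (ω.1 z / ω.1 1) * (χ.1 z / χ.1 1)) := by
    intro z
    rw [Finset.mul_sum]
    refine Finset.sum_congr rfl fun χ _ => ?_
    rw [chz_mul χ (zc z z.2)]
    ring
  simp only [e]
  rw [Finset.sum_comm, Finset.mul_sum]
  simp only [← Finset.mul_sum]
  rw [← Finset.sum_subset (Finset.subset_univ (cls Z ω))
    (fun χ _ h => by rw [chz_sum zc ω χ h, mul_zero]), Finset.mul_sum]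
  refine Finset.sum_congr rfl fun χ hχ => ?_
  have h1 : χ.1 1 ≠ 0 := χ.2.apply_one_ne_zero
  have h2 : ω.1 1 ≠ 0 := ω.2.apply_one_ne_zero
  have hz : ∀ z : Z, conj (ω.1 z / ω.1 1) * (χ.1 z / χ.1 1) = 1 := by
    intro z
    have : χ.1 z / χ.1 1 = ω.1 z / ω.1 1 := by
      have := mem_cls.1 hχ z z.2
      field_simp
      linear_combination this
    rw [this]
    exact chz_norm ω (zc z z.2)
  simp only [hz, Finset.sum_const, Finset.card_univ, nsmul_eq_mul, mul_one, Nat.card_eq_fintype_card]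
  ring

end Cfsg.Agent.SG
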