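import Mathlib
import Cfsg.Agent.SG.Defs
import Cfsg.Agent.SG.ChZ

set_option autoImplicit false
set_option linter.unusedVariables false

namespace Cfsg.Agent.SG

open Matrix Cfsg.Geo Module
open scoped MatrixGroups ComplexConjugate commutatorElement

section
variable {G : Type*} [Group G] {S Z : Subgroup G} {n m : ℕ}

theorem TZ.chf_mem (h : TZ n m S Z) {x : G} (hx : x ∈ S ⊔ Z) : ∃ s ∈ S, ∃ z ∈ Z, s * z = x := by
  have : Z.Normal := ⟨fun z hz g => by rw [← h.zc z hz g, mul_inv_cancel_right]; exact hz⟩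
  exact Subgroup.mem_sup_of_normal_right.1 hx

theorem TZ.chf_pow (h : TZ n m S Z) {s : G} (hs : s ∈ S) : s ^ m = 1 := by
  have := pow_card_eq_one' (x := (⟨s, hs⟩ : S))
  rw [h.card] at this
  exact congrArg Subtype.val this

theorem TZ.chf_one (h : TZ n m S Z) {z : G} (hz : z ∈ Z) (e : z ^ m = 1) : z = 1 :=
  orderOf_eq_one_iff.1 (Nat.eq_one_of_dvd_coprimes h.cop (orderOf_dvd_of_pow_eq_one e)
    (Z.orderOf_dvd_natCard hz))

theorem TZ.chf_one' (h : TZ n m S Z) {s z : G} (hs : s ∈ S) (hz : z ∈ Z) (e : (s * z) ^ m = 1) :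
    z = 1 := by
  have c : Commute s z := (h.zc z hz s).symm
  rw [c.mul_pow, h.chf_pow hs, one_mul] at e
  exact h.chf_one hz e

theorem TZ.chf_key (h : TZ n m S Z) {x : G} (hx : x ∈ S ⊔ Z) (e : x ^ m = 1) : x ∈ S := by
  obtain ⟨s, hs, z, hz, rfl⟩ := h.chf_mem hx
  rw [h.chf_one' hs hz e, mul_one]; exact hs

theorem TZ.chf_comm (h : TZ n m S Z) {x s : G} (hx : x ∈ S ⊔ Z) (hs : s ∈ S) : x * s = s * x := by
  obtain ⟨a, ha, z, hz, rfl⟩ := h.chf_mem hx
  rw [mul_assoc, h.zc z hz s, ← mul_assoc, h.comm a ha s hs, mul_assoc]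

theorem TZ.chf_card (h : TZ n m S Z) : Nat.card ↥(S ⊔ Z) = Nat.card Z * m := by
  rw [← h.card, mul_comm, ← Nat.card_prod]
  symm
  refine Nat.card_congr (Equiv.ofBijective (fun p : S × Z => (⟨p.1 * p.2,
    Subgroup.mul_mem_sup p.1.2 p.2.2⟩ : ↥(S ⊔ Z))) ⟨?_, fun x => ?_⟩)
  · rintro ⟨s, z⟩ ⟨s', z'⟩ e
    have e' : (s : G) * z = s' * z' := congrArg Subtype.val e
    have e1 : (s : G) * (z * (z' : G)⁻¹) = s' := by rw [← mul_assoc, e', mul_inv_cancel_right]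
    have e2 := h.chf_one' s.2 (Z.mul_mem z.2 (Z.inv_mem z'.2)) (by rw [e1]; exact h.chf_pow s'.2)
    rw [e2, mul_one] at e1
    exact Prod.ext (Subtype.ext e1) (Subtype.ext (mul_inv_eq_one.1 e2))
  · obtain ⟨s, hs, z, hz, e⟩ := h.chf_mem x.2
    exact ⟨(⟨s, hs⟩, ⟨z, hz⟩), Subtype.ext e⟩

theorem TZ.chf_norm [Finite G] (h : TZ n m S Z)
    {s : G} (hs : s ∈ S) (s1 : s ≠ 1) {g : G} (hg : g * s * g⁻¹ ∈ S) :
    g ∈ Subgroup.normalizer (S : Set G) := by
  refine Subgroup.mem_normalizer_fintype fun x hx =>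
    h.chf_key (h.cent _ hg (fun e => s1 ?_) _ ?_) (by rw [conj_pow, h.chf_pow hx]; group)
  · calc s = g⁻¹ * (g * s * g⁻¹) * g := by group
      _ = 1 := by rw [e]; group
  · calc g * x * g⁻¹ * (g * s * g⁻¹) = g * (x * s) * g⁻¹ := by group
      _ = g * s * g⁻¹ * (g * x * g⁻¹) := by rw [h.comm x hx s hs]; group

theorem TZ.chf_cent (h : TZ n m S Z)
    {s : G} (hs : s ∈ S) (s1 : s ≠ 1) : Subgroup.centralizer ({s} : Set G) = S ⊔ Z :=
  le_antisymm (fun g hg => h.cent s hs s1 g (Subgroup.mem_centralizer_singleton_iff.1 hg))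
    fun g hg => Subgroup.mem_centralizer_singleton_iff.2 (h.chf_comm hg hs)

theorem TZ.chf_le [Finite G] (h : TZ n m S Z) : S ⊔ Z ≤ Subgroup.normalizer (S : Set G) :=
  fun g hg => Subgroup.mem_normalizer_fintype fun x hx => by
    rw [h.chf_comm hg hx, mul_inv_cancel_right]; exact hx

/-- The column sum over a central class is the full one divided by the order of `Z`. -/
theorem TZ.chf_col [Fintype G] (h : TZ n m S Z) (ω : IrrCharacter G) {s s' : G} (hs : s ∈ S)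
    (hs' : s' ∈ S) :
    (Nat.card Z : ℂ) * ∑ χ ∈ cls Z ω, χ.1 s' * conj (χ.1 s) =
      ∑ χ : IrrCharacter G, χ.1 s' * conj (χ.1 s) := by
  classical
  have := Fintype.ofFinite Z
  have k := cls_proj h.zc ω (fun χ => conj (χ.1 s)) s'
  rw [Finset.sum_eq_single (1 : Z) (fun z _ z1 => ?_) (fun hh => absurd (Finset.mem_univ _) hh)] at k
  · simp only [Subgroup.coe_one, mul_one, div_self ω.2.apply_one_ne_zero, map_one, one_mul] at k
    simp only [mul_comm (conj _)] at k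
    exact k
  · rw [Finset.sum_congr rfl fun χ _ => mul_comm _ _, Ch.column_orthogonality_of_not_isConj, mul_zero]
    intro hc
    obtain ⟨g, hg⟩ := isConj_iff.1 hc.symm
    refine z1 (Subtype.ext (h.chf_one' hs' z.2 ?_))
    rw [← hg, conj_pow, h.chf_pow hs]; group

end

theorem TZ.fusion {G : Type*} [Group G] [Finite G] {S Z : Subgroup G} {n m : ℕ} (h : TZ n m S Z) [NeZero n] :
    ∃ u : Fin n → G, (∀ k, u k ∈ Subgroup.normalizer (S : Set G)) ∧ u 0 = 1 ∧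
      (∀ g ∈ Subgroup.normalizer (S : Set G), ∃ k, ∃ s ∈ S ⊔ Z, g = u k * s) ∧
      (∀ s ∈ S, s ≠ 1 → Function.Injective fun k => u k * s * (u k)⁻¹) ∧
      ∀ s ∈ S, s ≠ 1 → ∀ g : G, g * s * g⁻¹ ∈ S → g ∈ Subgroup.normalizer (S : Set G) := by
  classical
  set N := Subgroup.normalizer (S : Set G) with hN
  set T := S ⊔ Z with hT
  have hle : T ≤ N := h.chf_le
  have hc : Nat.card (N ⧸ T.subgroupOf N) = n := by
    have h1 := Subgroup.card_eq_card_quotient_mul_card_subgroup (T.subgroupOf N)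
    have h2 : 0 < Nat.card T := Nat.card_pos
    rw [Nat.card_congr (Subgroup.subgroupOfEquivOfLe hle).toEquiv, h.idx, ← h.chf_card] at h1
    exact (Nat.eq_of_mul_eq_mul_right h2 h1).symm
  let e0 := Finite.equivFinOfCardEq hc
  let e : Fin n ≃ (N ⧸ T.subgroupOf N) := (Equiv.swap 0 (e0 (QuotientGroup.mk 1))).trans e0.symm
  have he : e 0 = QuotientGroup.mk 1 := by simp [e]
  let r : (N ⧸ T.subgroupOf N) → N := fun q => if q = QuotientGroup.mk 1 then 1 else q.out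
  have hr : ∀ q, (QuotientGroup.mk (r q) : N ⧸ T.subgroupOf N) = q := fun q => by
    by_cases hq : q = QuotientGroup.mk 1
    · simp only [r, if_pos hq]; exact hq.symm
    · simp only [r, if_neg hq]; exact q.out_eq
  refine ⟨fun k => r (e k), fun k => (r (e k)).2, ?_, fun g hg => ?_, fun s hs s1 k j hkj => ?_,
    fun s hs s1 g hg => h.chf_norm hs s1 hg⟩
  · simp only [he, r, if_true]; rfl
  · refine ⟨e.symm (QuotientGroup.mk ⟨g, hg⟩), ((r (QuotientGroup.mk ⟨g, hg⟩) : N) : G)⁻¹ * g, ?_, ?_⟩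
    · exact Subgroup.mem_subgroupOf.1 (QuotientGroup.eq.1 (hr (QuotientGroup.mk ⟨g, hg⟩)))
    · simp only [Equiv.apply_symm_apply, mul_inv_cancel_left]
  · have h1 : ((r (e j) : N) : G)⁻¹ * r (e k) ∈ T := by
      refine h.cent s hs s1 _ ?_
      have hkj' : ((r (e k) : N) : G) * s * ((r (e k) : N) : G)⁻¹ =
        ((r (e j) : N) : G) * s * ((r (e j) : N) : G)⁻¹ := hkj
      calc ((r (e j) : N) : G)⁻¹ * r (e k) * s
          = ((r (e j) : N) : G)⁻¹ * (((r (e k) : N) : G) * s * ((r (e k) : N) : G)⁻¹) * r (e k) := by group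
        _ = s * (((r (e j) : N) : G)⁻¹ * r (e k)) := by rw [hkj']; group
    have h2 : (QuotientGroup.mk (r (e j)) : N ⧸ T.subgroupOf N) = QuotientGroup.mk (r (e k)) :=
      QuotientGroup.eq.2 (Subgroup.mem_subgroupOf.2 h1)
    rw [hr, hr] at h2
    exact (e.injective h2).symm

theorem TZ.sum_irr {G : Type*} [Group G] [Fintype G] {S Z : Subgroup G} [Fintype S] {n m : ℕ}
    (h : TZ n m S Z) {u : Fin n → G} (h1 : ∀ k, u k ∈ Subgroup.normalizer (S : Set G))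
    (h2 : ∀ g ∈ Subgroup.normalizer (S : Set G), ∃ k, ∃ s ∈ S ⊔ Z, g = u k * s)
    (h3 : ∀ s ∈ S, s ≠ 1 → Function.Injective fun k => u k * s * (u k)⁻¹)
    (ω : IrrCharacter G) (θ ψ : G → ℂ) (h0 : θ 1 = 0) :
    ∑ χ ∈ cls Z ω, (∑ s : S, θ s * conj (χ.1 s)) * conj (∑ s : S, ψ s * conj (χ.1 s)) =
      (m : ℂ) * ∑ k, ∑ s : S, θ s * conj (ψ (u k * s * (u k)⁻¹)) := by
  have hZ : (Nat.card Z : ℂ) ≠ 0 := Nat.cast_ne_zero.2 Nat.card_pos.ne'
  have e1 : ∀ χ : IrrCharacter G,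
      (∑ s : S, θ s * conj (χ.1 s)) * conj (∑ s : S, ψ s * conj (χ.1 s)) =
        ∑ s : S, ∑ s' : S, θ s * (conj (ψ s') * (χ.1 s' * conj (χ.1 s))) := fun χ => by
    rw [map_sum, Finset.sum_mul_sum]
    refine Finset.sum_congr rfl fun s _ => Finset.sum_congr rfl fun s' _ => ?_
    rw [map_mul, Complex.conj_conj]; ring
  rw [Finset.sum_congr rfl fun χ _ => e1 χ, Finset.sum_comm, Finset.sum_comm (s := Finset.univ (α := Fin n)),
    Finset.mul_sum]
  refine Finset.sum_congr rfl fun s _ => ?_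
  by_cases s1 : (s : G) = 1
  · simp [s1, h0]
  rw [Finset.sum_comm, Finset.mul_sum]
  have hm : ∀ k, u k * s * (u k)⁻¹ ∈ S := fun k => (Subgroup.mem_normalizer_iff.1 (h1 k) s).1 s.2
  symm
  refine Fintype.sum_of_injective (fun k => (⟨u k * s * (u k)⁻¹, hm k⟩ : S))
    (fun k j e => h3 s s.2 s1 (congrArg Subtype.val e)) _ _ (fun s' hs' => ?_) fun k => ?_
  · have k := h.chf_col ω s.2 s'.2
    rw [Ch.column_orthogonality_of_not_isConj] at k
    · rw [← Finset.mul_sum, ← Finset.mul_sum, (mul_eq_zero.1 k).resolve_left hZ, mul_zero, mul_zero]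
    intro hc
    obtain ⟨g, hg⟩ := isConj_iff.1 hc.symm
    obtain ⟨k, x, hx, rfl⟩ := h2 g (h.chf_norm s.2 s1 (hg ▸ s'.2))
    refine hs' ⟨k, Subtype.ext ?_⟩
    rw [← hg]
    show u k * s * (u k)⁻¹ = u k * x * s * (u k * x)⁻¹
    rw [mul_assoc (u k) x, h.chf_comm hx s.2]; group
  · have hne : u k * s * (u k)⁻¹ ≠ 1 := fun e => s1 (by
      calc (s : G) = (u k)⁻¹ * (u k * s * (u k)⁻¹) * u k := by group
        _ = 1 := by rw [e]; group)
    have k1 := h.chf_col ω s.2 (hm k)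
    rw [Ch.column_orthogonality_of_isConj (isConj_iff.2 ⟨u k, rfl⟩ : IsConj (s : G) _).symm,
      h.chf_cent (hm k) hne, h.chf_card, Nat.cast_mul] at k1
    rw [← Finset.mul_sum, ← Finset.mul_sum, mul_left_cancel₀ hZ k1]
    ring

theorem TZ.sum_deg {G : Type*} [Group G] [Fintype G] {S Z : Subgroup G} {n m : ℕ}
    (h : TZ n m S Z) (ω : IrrCharacter G) {s : G} (hs : s ∈ S) (s1 : s ≠ 1) :
    ∑ χ ∈ cls Z ω, χ.1 1 * χ.1 s = 0 := by
  have hZ : (Nat.card Z : ℂ) ≠ 0 := Nat.cast_ne_zero.2 Nat.card_pos.ne'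
  have k := h.chf_col ω S.one_mem hs
  rw [Ch.column_orthogonality_of_not_isConj (fun hc => s1 (isConj_one_left.1 hc))] at k
  rw [← (mul_eq_zero.1 k).resolve_left hZ]
  refine Finset.sum_congr rfl fun χ _ => ?_
  rw [χ.2.isCharacter.conj_apply_one, mul_comm]

end Cfsg.Agent.SG
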