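import Mathlib
import Cfsg.Agent.SG.Defs
import Cfsg.Agent.SG.ChF
import Cfsg.Agent.Ch.Linear
import Cfsg.Agent.Ch.Decomp
import Cfsg.Agent.S11.ChD

set_option autoImplicit false
set_option linter.unusedVariables false

namespace Cfsg.Agent.SG

open Matrix Cfsg.Geo Module
open scoped MatrixGroups ComplexConjugate commutatorElement

open Cfsg.Agent.Ch
open Cfsg.Agent.S11 (chdM chdM_eq chdM_sum chdM_sum' chdA chdA_apply chdM_act)

/-- Orbit representatives for a free action off a fixed point. -/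
theorem chd_orb {n : ℕ} [NeZero n] {Λ : Type*} [Finite Λ] (x0 : Λ) (act : Fin n → Λ → Λ) (h0 : ∀ x, act 0 x = x)
    (h1 : ∀ k x, ∃ l, act l (act k x) = x) (h2 : ∀ j k x, ∃ l, act j (act k x) = act l x) (h3 : ∀ k, act k x0 = x0)
    (h4 : ∀ x, x ≠ x0 → Function.Injective fun k => act k x) :
    ∃ (t : ℕ) (rep : Fin t → Λ), Function.Bijective fun o : Option (Fin t × Fin n) =>
      o.elim x0 fun p => act p.2 (rep p.1) := by
  classical
  let r : Setoid Λ := ⟨fun x y => ∃ k, act k x = y, fun x => ⟨0, h0 x⟩, by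
    rintro x _ ⟨k, rfl⟩
    exact h1 k x, by
    rintro x _ _ ⟨k, rfl⟩ ⟨j, rfl⟩
    exact (h2 j k x).imp fun _ e => e.symm⟩
  let e := (Finite.equivFin {q : Quotient r // q ≠ Quotient.mk r x0}).symm
  have mk : ∀ i k, Quotient.mk r (act k (e i).1.out) = (e i).1 := fun i k =>
    (Quotient.sound (s := r) ⟨k, rfl⟩).symm.trans (Quotient.out_eq _)
  have ne : ∀ i k, act k (e i).1.out ≠ x0 := fun i k h => (e i).2 (by rw [← mk i k, h])
  refine ⟨_, fun i => (e i).1.out, ?_, fun x => ?_⟩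
  · rintro (_ | ⟨i, k⟩) (_ | ⟨j, l⟩) h
    · rfl
    · exact absurd h.symm (ne j l)
    · exact absurd h (ne i k)
    · have h' : act k (e i).1.out = act l (e j).1.out := h
      obtain rfl : i = j := e.injective (Subtype.ext (by rw [← mk i k, h', mk]))
      obtain rfl : k = l := h4 _ (h0 (e i).1.out ▸ ne i 0) h'
      rfl
  · by_cases h : x = x0
    · exact ⟨none, h.symm⟩
    · have hq : Quotient.mk r x ≠ Quotient.mk r x0 := fun k => by
        obtain ⟨l, hl⟩ := Quotient.exact k.symm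
        exact h (hl.symm.trans (h3 l))
      obtain ⟨i, hi⟩ := e.surjective ⟨_, hq⟩
      obtain ⟨k, hk⟩ : r (e i).1.out x := Quotient.exact (by rw [Quotient.out_eq, hi])
      exact ⟨some (i, k), hk⟩

section

variable {G : Type*} [Group G] [Fintype G] {S : Subgroup G} [Fintype S]

theorem chd_reg (n : IrrCharacter G → ℕ) (h1 : ∀ s ∈ S, s ≠ 1 → ∑ χ, (n χ : ℂ) * χ.1 s = 0)
    (f f' : S →* ℂˣ) : ∑ χ, n χ * chdM χ f = ∑ χ, n χ * chdM χ f' := by
  have key : ∀ f : S →* ℂˣ,
      (Nat.card S : ℂ) * ((∑ χ, n χ * chdM χ f : ℕ) : ℂ) = ∑ χ, (n χ : ℂ) * χ.1 1 := fun f => by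
    have e : ∀ χ : IrrCharacter G, (Nat.card S : ℂ) * ((n χ : ℂ) * chdM χ f) =
        ∑ s : S, (n χ : ℂ) * χ.1 s * conj (f s : ℂ) := fun χ => by
      rw [mul_left_comm, ← chdM_sum, Finset.mul_sum]
      exact Finset.sum_congr rfl fun s _ => (mul_assoc _ _ _).symm
    push_cast
    rw [Finset.mul_sum, Finset.sum_congr rfl fun χ _ => e χ, Finset.sum_comm,
      Finset.sum_eq_single (1 : S) (fun s _ hs => by
        rw [← Finset.sum_mul, h1 s s.2 (fun k => hs (Subtype.ext k)), zero_mul]) (by simp), ← Finset.sum_mul]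
    simp only [OneMemClass.coe_one, map_one, Units.val_one, mul_one]
  exact Nat.cast_injective (R := ℂ) (mul_left_cancel₀ (natCard_ne_zero S) ((key f).trans (key f').symm))

omit [Fintype G] [Fintype S] in
theorem TZ.chd_comm {N m : ℕ} {Z : Subgroup G} (h : TZ N m S Z) {x s : G} (hx : x ∈ S ⊔ Z)
    (hs : s ∈ S) : x * s = s * x :=
  Subgroup.mem_centralizer_singleton_iff.1 ((sup_le
    (fun a ha => Subgroup.mem_centralizer_singleton_iff.2 (h.comm a ha s hs))
    (fun a ha => Subgroup.mem_centralizer_singleton_iff.2 (h.zc a ha s)) :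
      S ⊔ Z ≤ Subgroup.centralizer {s}) hx)

open Classical in
theorem TZ.chd_sq {N m : ℕ} {Z : Subgroup G} (h : TZ N m S Z) {n : Fin N → G} (h1 : ∀ k, n k ∈ Subgroup.normalizer (S : Set G))
    (h2 : ∀ g ∈ Subgroup.normalizer (S : Set G), ∃ k, ∃ s ∈ S ⊔ Z, g = n k * s)
    (h3 : ∀ s ∈ S, s ≠ 1 → Function.Injective fun k => n k * s * (n k)⁻¹) (ω : IrrCharacter G) (f f' : S →* ℂˣ) :
    ∑ χ ∈ cls Z ω, ((chdM χ f : ℤ) - chdM χ f') ^ 2 =
      ∑ k, ((if f = chdA ⟨n k, h1 k⟩ f then 1 else 0) - (if f = chdA ⟨n k, h1 k⟩ f' then 1 else 0) -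
        ((if f' = chdA ⟨n k, h1 k⟩ f then 1 else 0) - (if f' = chdA ⟨n k, h1 k⟩ f' then 1 else 0)) : ℤ) := by
  let θ : G → ℂ := fun g => if hg : g ∈ S then (f ⟨g, hg⟩ : ℂ) - f' ⟨g, hg⟩ else 0
  have hθ : ∀ s : S, θ s = (f s : ℂ) - f' s := fun s => dif_pos s.2
  have k := h.sum_irr h1 h2 h3 ω θ θ (by simpa using hθ 1)
  have hm := natCard_ne_zero S
  have e1 : ∀ χ : IrrCharacter G, ∑ s : S, θ s * conj (χ.1 s) =
      (Nat.card S : ℂ) * (((chdM χ f : ℤ) - chdM χ f' : ℤ) : ℂ) := fun χ => by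
    simp only [hθ, sub_mul, Finset.sum_sub_distrib, chdM_sum']
    push_cast
    ring
  have o : ∀ a b : S →* ℂˣ, ∑ s : S, (a s : ℂ) * conj (b s : ℂ) = (Nat.card S : ℂ) * if a = b then 1 else 0 :=
    fun a b => by rw [← card_mul_classInner, classInner_monoidHom_units]
  have e2 : ∀ j, ∑ s : S, θ s * conj (θ (n j * s * (n j)⁻¹)) = (Nat.card S : ℂ) *
      (((if f = chdA ⟨n j, h1 j⟩ f then 1 else 0) - (if f = chdA ⟨n j, h1 j⟩ f' then 1 else 0) -
        ((if f' = chdA ⟨n j, h1 j⟩ f then 1 else 0) - (if f' = chdA ⟨n j, h1 j⟩ f' then 1 else 0)) : ℤ) : ℂ) := fun j => by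
    have e : ∀ s : S, θ (n j * s * (n j)⁻¹) = (chdA ⟨n j, h1 j⟩ f s : ℂ) - chdA ⟨n j, h1 j⟩ f' s := fun s =>
      hθ (S.normalizerMonoidHom ⟨n j, h1 j⟩ s)
    simp only [hθ, e, map_sub, sub_mul, mul_sub, Finset.sum_sub_distrib, o]
    push_cast
    ring
  simp only [e1, e2, map_mul, map_natCast, map_intCast, ← h.card, ← Finset.mul_sum] at k
  refine Int.cast_injective (α := ℂ) (mul_left_cancel₀ hm (mul_left_cancel₀ hm ?_))
  rw [Int.cast_sum, Int.cast_sum, ← k, Finset.mul_sum, Finset.mul_sum]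
  exact Finset.sum_congr rfl fun χ _ => by push_cast; ring

end

theorem TZ.exists_cd {G : Type*} [Group G] [Fintype G] {S Z : Subgroup G} [Fintype S] {n m : ℕ}
    (h : TZ n m S Z) : ∃ t a b, m = n * t + 1 ∧ CD n S Z t a b := by
  classical
  haveI : NeZero n := ⟨h.pr.ne_zero⟩
  obtain ⟨u, h1, n0, h2, h3, -⟩ := h.fusion
  have hc : ∀ a b : S, a * b = b * a := fun a b => Subtype.ext (h.comm a a.2 b b.2)
  letI := Fintype.ofFinite (S →* ℂˣ)
  let act : Fin n → (S →* ℂˣ) → (S →* ℂˣ) := fun k => chdA ⟨u k, h1 k⟩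
  have a0 : ∀ f, act 0 f = f := fun f => MonoidHom.ext fun s => chdA_apply _ f s s (by simp [n0])
  have key : ∀ g : Subgroup.normalizer (S : Set G), ∃ l, ∀ f, chdA g f = act l f := fun g => by
    obtain ⟨l, x, hx, e⟩ := h2 g g.2
    refine ⟨l, fun f => MonoidHom.ext fun s => chdA_apply g f s _ ?_⟩
    show u l * s * (u l)⁻¹ = _
    rw [e, mul_assoc (u l) x, h.chd_comm hx s.2]
    group
  have cmp : ∀ g g' : Subgroup.normalizer (S : Set G), ∀ f, chdA g (chdA g' f) = chdA (g' * g) f := fun g g' f =>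
    MonoidHom.ext fun s => by simp [chdA]
  have fr : ∀ f, f ≠ 1 → Function.Injective fun k => act k f := fun f hf k j e => by
    by_contra hkj
    let ck := S.normalizerMonoidHom ⟨u k, h1 k⟩
    let cj := S.normalizerMonoidHom ⟨u j, h1 j⟩
    have inj : Function.Injective fun s => ck s * (cj s)⁻¹ := fun s s' e' => by
      have e1 : ck (s'⁻¹ * s) = cj (s'⁻¹ * s) := by
        rw [map_mul, map_mul, map_inv, map_inv, eq_mul_of_mul_inv_eq e']
        group
      by_contra hs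
      refine hkj (h3 _ (s'⁻¹ * s).2 (fun e2 => hs ?_) (congrArg Subtype.val e1))
      exact (inv_mul_eq_one.1 (Subtype.ext e2)).symm
    refine hf (MonoidHom.ext fun s => ?_)
    obtain ⟨s, rfl⟩ := Finite.surjective_of_injective inj s
    have : f (ck s) = f (cj s) := DFunLike.congr_fun e s
    simp [this]
  obtain ⟨t, rep, hb⟩ := chd_orb 1 act a0 (fun k f => by
      obtain ⟨l, hl⟩ := key (⟨u k, h1 k⟩ : Subgroup.normalizer (S : Set G))⁻¹
      exact ⟨l, by rw [← hl, cmp, mul_inv_cancel]; exact MonoidHom.ext fun s => by simp [chdA]⟩)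
    (fun j k f => by
      obtain ⟨l, hl⟩ := key (⟨u k, h1 k⟩ * ⟨u j, h1 j⟩)
      exact ⟨l, (cmp _ _ f).trans (hl f)⟩) (fun k => rfl) fr
  have sm : ∀ {M : Type} [AddCommMonoid M] (F : (S →* ℂˣ) → M),
      ∑ f, F f = F 1 + ∑ i, ∑ k, F (act k (rep i)) := fun F => by
    rw [← hb.sum_comp F, Fintype.sum_option, Fintype.sum_prod_type]
    rfl
  have r1 : ∀ i k, 1 ≠ act k (rep i) := fun i k e => nomatch hb.1 (a₁ := none) (a₂ := some (i, k)) e
  have r2 : ∀ i j k, rep i = act k (rep j) ↔ i = j ∧ k = 0 := fun i j k => ⟨fun e => by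
    have := hb.1 (a₁ := some (i, 0)) (a₂ := some (j, k)) ((a0 _).trans e)
    simpa [eq_comm] using this, by rintro ⟨rfl, rfl⟩; exact (a0 _).symm⟩
  have r3 : ∀ i k, rep i ≠ act k 1 := fun i k e => r1 i 0 (by rw [a0, e]; rfl)
  have hm : Nat.card S = n * t + 1 := by
    rw [← card_monoidHom_units_of_comm' hc, Nat.card_eq_fintype_card, ← Finset.card_univ, Finset.card_eq_sum_ones, sm]
    simp
    ring
  have ex : ∀ (χ : IrrCharacter G) (s : S), χ.1 s =
      chdM χ (1 : S →* ℂˣ) + ∑ i, chdM χ (rep i) * ∑ k, (act k (rep i) s : ℂ) := fun χ s => by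
    rw [eq_sum_monoidHom_of_comm hc (fun s : S => χ.1 s) s, sm]
    simp only [chdM_eq, act, chdM_act, Finset.mul_sum]
    simp only [MonoidHom.one_apply, Units.val_one, mul_one]
  have deg : ∀ χ : IrrCharacter G, χ.1 1 = ((chdM χ (1 : S →* ℂˣ) + n * ∑ i, chdM χ (rep i) : ℕ) : ℂ) := fun χ => by
    have := ex χ 1
    simp only [OneMemClass.coe_one, map_one, Units.val_one, Finset.sum_const, Finset.card_univ, Fintype.card_fin,
      nsmul_eq_mul, mul_one, ← Finset.sum_mul] at this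
    rw [this]
    push_cast
    ring
  have q := h.chd_sq h1 h2 h3
  refine ⟨t, fun χ i => chdM χ (rep i), fun χ => chdM χ (1 : S →* ℂˣ), h.card ▸ hm, hm, fun ω i j hij => ?_, fun ω i => ?_,
    deg, fun ω i j => ?_, fun χ => by simpa using chdM_sum χ (1 : S →* ℂˣ), fun χ => ?_, fun χ α ha s hs s1 => ?_,
    fun c k1 i => chd_reg c k1 _ _⟩
  · rw [q]
    change ∑ k, ((if rep i = act k (rep i) then 1 else 0) - (if rep i = act k (rep j) then 1 else 0) -
      ((if rep j = act k (rep i) then 1 else 0) - (if rep j = act k (rep j) then 1 else 0)) : ℤ) = 2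
    simp [r2, hij, hij.symm, Finset.sum_add_distrib]
  · rw [q]
    change ∑ k, ((if 1 = act k 1 then 1 else 0) - (if 1 = act k (rep i) then 1 else 0) -
      ((if rep i = act k 1 then 1 else 0) - (if rep i = act k (rep i) then 1 else 0)) : ℤ) = n + 1
    have r4 : ∀ k, (1 = act k 1) = True := fun k => eq_true rfl
    simp [r1, r2, r3, r4, Finset.sum_add_distrib]
  · have k := chd_reg (S := S)
      (fun χ => if χ ∈ cls Z ω then chdM χ (1 : S →* ℂˣ) + n * ∑ i, chdM χ (rep i) else 0)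
      (fun s hs s1 => by
        rw [← h.sum_deg ω hs s1]
        simp only [Nat.cast_ite, ← deg, Nat.cast_zero, ite_mul, zero_mul, Finset.sum_ite_mem,
          Finset.univ_inter]) (rep i) (rep j)
    simp only [ite_mul, zero_mul, Finset.sum_ite_mem, Finset.univ_inter] at k
    simp only [mul_sub, Finset.sum_sub_distrib]
    rw [sub_eq_zero]
    exact_mod_cast k
  · rw [← card_mul_classInner (fun s : S => χ.1 s) (fun s : S => χ.1 s),
      (IsClassFunction.of_comm hc _).classInner_eq_sum,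
      sum_irr_of_comm hc fun φ => classInner (fun s : S => χ.1 s) φ * conj (classInner (fun s : S => χ.1 s) φ), sm]
    simp only [chdM_eq, act, chdM_act, map_natCast, Finset.sum_const, Finset.card_univ, Fintype.card_fin,
      nsmul_eq_mul, ← Finset.mul_sum]
    push_cast
    simp only [sq]
  · have k1 := ex χ ⟨s, hs⟩
    have k2 := sum_degree_mul_apply_of_ne (G := S) (g := ⟨s, hs⟩) fun e => s1 (congrArg Subtype.val e)
    rw [sum_irr_of_comm hc fun φ => φ 1 * φ ⟨s, hs⟩, sm] at k2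
    simp only [map_one, Units.val_one, one_mul, MonoidHom.one_apply] at k2
    simp only [ha, ← Finset.mul_sum] at k1
    rw [k1]
    linear_combination (α : ℂ) * k2

end Cfsg.Agent.SG
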