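import Mathlib
import Cfsg.Agent.SG.Defs
import Cfsg.Agent.SG.ChC
import Cfsg.Agent.Ch.Decomp
import Cfsg.Agent.Ch.Kernel

set_option autoImplicit false
set_option linter.unusedVariables false

namespace Cfsg.Agent.SG

open Matrix Cfsg.Geo Module
open scoped MatrixGroups ComplexConjugate commutatorElement

theorem CD.not_exc {G : Type*} [Group G] [Fintype G] {S Z : Subgroup G} [Fintype S] {n t : ℕ}
    {a : IrrCharacter G → Fin t → ℕ} {b : IrrCharacter G → ℕ} (h : CD n S Z t a b) (hn : 2 ≤ n) (ht : n + 3 ≤ t)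
    (zc : ∀ z ∈ Z, ∀ g : G, z * g = g * z) (hL : Subgroup.normalClosure (S : Set G) ⊔ Z = ⊤)
    {χ : IrrCharacter G} (h0 : b χ = 0) (h1 : ∑ k, a χ k = 1) : False := by
  have s2 : ∑ k, a χ k ^ 2 = 1 := by
    rw [← h1]
    refine Finset.sum_congr rfl fun k _ => ?_
    have : a χ k ≤ 1 := h1 ▸ Finset.single_le_sum (f := a χ) (fun _ _ => Nat.zero_le _) (Finset.mem_univ k)
    interval_cases a χ k <;> rfl
  have hc := χ.isCharacter.mul χ.isCharacter.complexConj
  obtain ⟨m, hm, e⟩ := hc.exists_mult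
  have ev : ∀ g, χ.1 g * conj (χ.1 g) = ∑ φ, (m φ : ℂ) * φ.1 g := fun g => by
    have := congrFun e g
    simpa [Finset.sum_apply] using this
  have m1 : m (Ch.irrOne G) = 1 := by
    have k := hm (Ch.irrOne G)
    have k2 := χ.2.classInner_self
    rw [Ch.classInner_def] at k k2
    simp only [Ch.coe_irrOne, map_one, mul_one, Pi.mul_apply] at k
    exact_mod_cast k.symm.trans k2
  have b1 : b (Ch.irrOne G) = 1 := by
    have k : (1 : ℂ) = _ := h.deg (Ch.irrOne G)
    have k1 : (1 : ℕ) = b (Ch.irrOne G) + n * ∑ i, a (Ch.irrOne G) i := by exact_mod_cast k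
    rcases Nat.eq_zero_or_pos (∑ i, a (Ch.irrOne G) i) with k2 | k2
    · rw [k2] at k1; omega
    · have := Nat.le_mul_of_pos_right n k2
      omega
  have pos : ∀ φ, 0 < b φ + n * ∑ k, a φ k := fun φ => Nat.pos_of_ne_zero fun k =>
    φ.2.apply_one_ne_zero (by rw [h.deg, k, Nat.cast_zero])
  have d49 : ∑ φ, m φ * (b φ + n * ∑ i, a φ i) = n * n := by
    have k := ev 1
    simp only [h.deg, h0, h1, map_natCast, zero_add, mul_one] at k
    exact_mod_cast k.symm
  have s7 : ∑ φ, m φ * b φ = n := by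
    have k := h.sq χ
    simp only [ev, h0, s2] at k
    rw [Finset.sum_comm] at k
    simp only [← Finset.mul_sum, h.bdef, mul_left_comm _ (Nat.card S : ℂ)] at k
    have k1 := mul_left_cancel₀ (Ch.natCard_ne_zero S) k
    simp only [ne_eq, OfNat.ofNat_ne_zero, not_false_eq_true, zero_pow, zero_add, mul_one] at k1
    exact_mod_cast k1
  rw [Finset.sum_eq_single (Ch.irrOne G) (fun φ _ hφ => ?_) (by simp), m1, b1] at s7
  · omega
  by_contra hne
  obtain ⟨n1, n2⟩ := mul_ne_zero_iff.1 hne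
  have k2 : m φ * (b φ + n * ∑ i, a φ i) ≤ n * n := d49 ▸ Finset.single_le_sum
    (f := fun φ => m φ * (b φ + n * ∑ i, a φ i)) (fun _ _ => Nat.zero_le _) (Finset.mem_univ φ)
  have k4 := (Nat.le_mul_of_pos_left (b φ + n * ∑ i, a φ i) (Nat.pos_of_ne_zero n1)).trans k2
  have cst : ∀ i j, a φ i = a φ j := fun i j => by
    by_contra k
    exact n2 (chc_two (cls Z φ) ht a b (h.two φ) (h.eight φ) pos (h.orth φ) (self_mem_cls Z φ) k
      (k4.trans_lt ((Nat.mul_lt_mul_left (by omega)).2 (by omega)))).1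
  let i : Fin t := ⟨0, by omega⟩
  have k1 : ∑ k, a φ k = t * a φ i := by simp [cst _ i]
  by_cases h3 : a φ i = 0
  · have := φ.isCharacter.charKer_normal
    refine hφ (Subtype.ext (φ.2.eq_one_of_charKer_eq_top (top_le_iff.1 (hL.ge.trans (sup_le
      (Subgroup.normalClosure_le_normal fun s hs => φ.isCharacter.mem_charKer.2 ?_) fun z hz => ?_)))))
    · by_cases s1 : s = 1
      · rw [s1]
      · rw [h.val φ 0 (fun k => (cst k i).trans h3) s hs s1, h.deg, k1, h3]
        simp
    · refine hc.charKer_le_of_constituent φ.2 (by rw [hm]; exact_mod_cast n1) (hc.mem_charKer.2 ?_)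
      have k := χ.2.norm_apply_of_mem_center (Subgroup.mem_center_iff.2 fun g => (zc z hz g).symm)
      simp only [Pi.mul_apply, Complex.mul_conj, Complex.normSq_eq_norm_sq, k, χ.isCharacter.norm_apply_one]
  have k3 : t ≤ t * a φ i := Nat.le_mul_of_pos_right _ (Nat.pos_of_ne_zero h3)
  have k5 : n * (n + 3) ≤ n * ∑ k, a φ k := Nat.mul_le_mul_left _ (by omega)
  rw [mul_add] at k5
  omega

end Cfsg.Agent.SG
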