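import Mathlib
import Cfsg.Agent.SG.Defs
import Cfsg.Agent.SG.ChC
import Cfsg.Agent.SG.ChE
import Cfsg.Agent.SG.ChZ
import Cfsg.Agent.Perm.PermChar
import Cfsg.Agent.Ch.Kernel

set_option autoImplicit false
set_option linter.unusedVariables false

namespace Cfsg.Agent.SG

open Matrix Cfsg.Geo Module
open scoped MatrixGroups ComplexConjugate commutatorElement

theorem CD.const {G Ω : Type*} [Group G] [Fintype G] [Finite Ω] [MulAction G Ω] {S Z : Subgroup G} [Fintype S]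
    {n t j : ℕ} {a : IrrCharacter G → Fin t → ℕ} {b : IrrCharacter G → ℕ} (h : CD n S Z t a b) (hn : 2 ≤ n)
    (ht : j + n + 3 ≤ t) (zc : ∀ z ∈ Z, ∀ g : G, z * g = g * z)
    (hL : Subgroup.normalClosure (S : Set G) ⊔ Z = ⊤)
    (hs : ∀ s ∈ S, s ≠ 1 → ∀ z ∈ Z, ∀ x : Ω, (s * z) • x ≠ x) (hj : Nat.card Ω = j * Nat.card S)
    {χ : IrrCharacter G} (hχ : classInner (Perm.permChar G Ω) χ.1 ≠ 0) (i i' : Fin t) : a χ i = a χ i' := by
  classical
  have := Fintype.ofFinite Z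
  have hπ : IsCharacter G (Perm.permChar G Ω) := Ch.isCharacter_permChar Ω
  obtain ⟨c, hc1, hc2⟩ := hπ.exists_mult
  have ev : ∀ g, ∑ ψ, (c ψ : ℂ) * ψ.1 g = Perm.permChar G Ω g := fun g => by
    conv_rhs => rw [hc2]
    simp [Finset.sum_apply]
  have c0 : c χ ≠ 0 := fun e => hχ (by rw [hc1, e, Nat.cast_zero])
  have cut : ∀ {M : Type} [NonAssocSemiring M] (f : IrrCharacter G → M),
      ∑ ψ, ((if ψ ∈ cls Z χ then c ψ else 0 : ℕ) : M) * f ψ = ∑ ψ ∈ cls Z χ, (c ψ : M) * f ψ := fun f => by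
    rw [← Finset.sum_subset (Finset.subset_univ (cls Z χ)) fun ψ _ k => by rw [if_neg k, Nat.cast_zero, zero_mul]]
    exact Finset.sum_congr rfl fun ψ k => by rw [if_pos k]
  have ha := h.reg (fun ψ => if ψ ∈ cls Z χ then c ψ else 0) fun s hs' s1 => by
    have k := (cls_proj zc χ (fun ψ => (c ψ : ℂ)) s).trans (Finset.sum_eq_zero fun z _ => by
      have : IsEmpty (MulAction.fixedBy Ω (s * z)) := ⟨fun x => hs s hs' s1 z z.2 x.1 x.2⟩
      rw [ev]
      simp [Perm.permChar])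
    rw [cut]
    exact (mul_eq_zero.1 k).resolve_left (Nat.cast_ne_zero.2 Nat.card_pos.ne')
  have ha' : ∀ k, ∑ ψ ∈ cls Z χ, c ψ * a ψ k = ∑ ψ ∈ cls Z χ, c ψ * b ψ := fun k =>
    (cut (M := ℕ) fun ψ => a ψ k).symm.trans ((ha k).trans (cut (M := ℕ) b))
  have pos : ∀ ψ : IrrCharacter G, 0 < b ψ + n * ∑ k, a ψ k := fun ψ =>
    Ch.charDegree_of_apply_one (h.deg ψ) ▸ ψ.2.charDegree_pos
  by_contra ne
  have k1 := chc_one (cls Z χ) (by omega) a b c (h.two χ) pos (h.orth χ)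
    (fun k l => (ha' k).trans (ha' l).symm) (self_mem_cls Z χ) c0 ne
  have k2 : ∑ ψ, c ψ * (b ψ + n * ∑ k, a ψ k) = j * (n * t + 1) := by
    have k := ev 1
    rw [Perm.permChar_apply_one, hj, h.card] at k
    simp only [h.deg] at k
    exact_mod_cast k
  have k3 := k1.trans ((Finset.sum_le_sum_of_subset (Finset.subset_univ _)).trans k2.le)
  obtain ⟨k4, k5⟩ := chc_two (cls Z χ) (by omega) a b (h.two χ) (h.eight χ) pos (h.orth χ) (self_mem_cls Z χ) ne (by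
    obtain ⟨u, rfl⟩ : ∃ u, t = u + 2 := ⟨t - 2, by omega⟩
    refine Nat.lt_of_mul_lt_mul_left (a := u + 2) (k3.trans_lt ?_)
    have : j * (n * (u + 2) + 1) ≤ u * (n * (u + 2) + 1) := Nat.mul_le_mul_right _ (by omega)
    have : u + 2 ≤ n * (u + 2) := Nat.le_mul_of_pos_left _ (by omega)
    change _ < (u + 2) * (n * (u + 1))
    nlinarith)
  exact h.not_exc hn (by omega) zc hL k4 k5

end Cfsg.Agent.SG
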