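import Mathlib
import Cfsg.Agent.SG.Defs
import Cfsg.Agent.Perm.PermChar
import Cfsg.Agent.Ch.Decomp
import Cfsg.Agent.Ch.Kernel

set_option autoImplicit false
set_option linter.unusedVariables false

namespace Cfsg.Agent.SG

open Matrix Cfsg.Geo Module
open scoped MatrixGroups ComplexConjugate commutatorElement

/-- Cauchy-Schwarz for the isotypic projection. -/
theorem idem_bound {G Ω : Type*} [Group G] [Fintype G] [Fintype Ω] [MulAction G Ω] (A : Ω → Ω → ℂ)
    (χ : IrrCharacter G) {c d : ℕ} (hc : classInner (Perm.permChar G Ω) χ.1 = c) (hd : χ.1 1 = d) :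
    (d : ℝ) * ‖classInner (fun g : G => ∑ x, A x (g • x)) χ.1‖ ^ 2 ≤ c * ∑ x, ∑ y, ‖A x y‖ ^ 2 := by
  classical
  let E := Perm.isoMat G Ω χ.1
  have d0 : (0 : ℝ) < d := by exact_mod_cast (Ch.charDegree_of_apply_one hd ▸ χ.2.charDegree_pos : 0 < d)
  have e1 : (d : ℂ) * classInner (fun g : G => ∑ x, A x (g • x)) χ.1 = ∑ p : Ω × Ω, A p.1 p.2 * E p.2 p.1 := by
    simp only [E, Perm.isoMat_apply, hd, Ch.classInner_def, Fintype.sum_prod_type, Finset.mul_sum, Finset.sum_mul]
    rw [Finset.sum_comm]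
    refine Finset.sum_congr rfl fun x _ => ?_
    rw [Finset.sum_comm]
    refine Finset.sum_congr rfl fun g _ => ?_
    rw [Finset.sum_eq_single (g • x) (fun y _ k => by rw [if_neg k.symm, mul_zero, mul_zero]) (by simp), if_pos rfl]
    ring
  have e2 : ∀ x y, conj (E y x) = E x y := fun x y => by
    rw [show E x y = Eᵀ y x from rfl, Perm.isoMat_transpose χ.2.isCharacter]
    simp only [E, Perm.isoMat_apply, hd, map_mul, map_div₀, map_natCast, map_sum, apply_ite conj, map_zero]
  have e3 : ∑ p : Ω × Ω, ‖E p.2 p.1‖ ^ 2 = d * c := by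
    have k : (E * E).trace = d * c := by rw [Perm.isoMat_mul_self χ.2, Perm.trace_isoMat, hc, hd]
    have : ((∑ p : Ω × Ω, ‖E p.2 p.1‖ ^ 2 : ℝ) : ℂ) = (E * E).trace := by
      simp only [Matrix.trace, Matrix.diag_apply, Matrix.mul_apply, Fintype.sum_prod_type]
      push_cast
      exact Finset.sum_congr rfl fun x _ => Finset.sum_congr rfl fun y _ => by
        rw [← e2 x y, Complex.conj_mul']
    exact_mod_cast this.trans k
  have e4 : ‖∑ p : Ω × Ω, A p.1 p.2 * E p.2 p.1‖ ^ 2 ≤ (∑ p : Ω × Ω, ‖A p.1 p.2‖ ^ 2) * (d * c) := by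
    rw [← e3]
    refine le_trans (pow_le_pow_left₀ (norm_nonneg _) (norm_sum_le _ _) 2) ?_
    simp only [norm_mul]
    exact Finset.sum_mul_sq_le_sq_mul_sq _ _ _
  rw [← e1, norm_mul, Complex.norm_natCast, Fintype.sum_prod_type] at e4
  refine le_of_mul_le_mul_left ?_ d0
  nlinarith

theorem idem_fib {G Ω : Type*} [Group G] [Fintype G] [Fintype Ω] [DecidableEq Ω] [MulAction G Ω]
    (htr : ∀ x y : Ω, ∃ g : G, g • x = y) (x y : Ω) :
    Fintype.card Ω * (Finset.univ.filter fun g : G => g • x = y).card = Fintype.card G := by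
  have k : ∀ z, (Finset.univ.filter fun g : G => g • x = z).card = (Finset.univ.filter fun g : G => g • x = y).card :=
    fun z => by
      obtain ⟨u, rfl⟩ := htr z y
      exact Finset.card_equiv (Equiv.mulLeft u) fun g => by simp [mul_smul]
  rw [← Finset.card_univ (α := G), Finset.card_eq_sum_card_fiberwise (f := fun g : G => g • x) (s := Finset.univ) (t := Finset.univ)
    fun _ _ => Finset.mem_univ _, Finset.sum_congr rfl fun z _ => k z]
  simp

/-- A constituent with a transitive subgroup in its kernel is trivial. -/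
theorem idem_triv {G Ω : Type*} [Group G] [Fintype G] [Finite Ω] [MulAction G Ω] {L : Subgroup G}
    (htr : ∀ x y : Ω, ∃ l ∈ L, l • x = y) {χ : IrrCharacter G} (hk : ∀ l ∈ L, χ.1 l = χ.1 1)
    (hχ : classInner (Perm.permChar G Ω) χ.1 ≠ 0) : χ.1 = fun _ => 1 := by
  classical
  have := Fintype.ofFinite Ω
  by_contra ne
  refine hχ ?_
  have h1 : χ.1 1 ≠ 0 := χ.2.apply_one_ne_zero
  have E1 : ∀ x x' y, Perm.isoMat G Ω χ.1 x y = Perm.isoMat G Ω χ.1 x' y := fun x x' y => by
    obtain ⟨l, hl, rfl⟩ := htr x x'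
    rw [Perm.isoMat_apply, Perm.isoMat_apply]
    congr 1
    refine Fintype.sum_equiv (Equiv.mulLeft l) _ _ fun g => ?_
    simp [mul_smul, χ.2.isCharacter.apply_mul_of_eq (hk l hl)]
  have E0 : ∀ y, ∑ x, Perm.isoMat G Ω χ.1 x y = 0 := fun y => by
    simp only [Perm.isoMat_apply, ← Finset.mul_sum]
    rw [Finset.sum_comm]
    simp only [Finset.sum_ite_eq, Finset.mem_univ, if_true]
    have k := Ch.card_mul_classInner (fun _ : G => (1 : ℂ)) χ.1
    rw [IsIrrCharacter.one.classInner_eq_zero χ.2 (Ne.symm ne), mul_zero] at k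
    simp only [one_mul] at k
    rw [← k, mul_zero]
  have := Perm.trace_isoMat (G := G) (Ω := Ω) χ.1
  rw [Matrix.trace, Finset.sum_eq_zero fun y _ => ?_] at this
  · exact (mul_eq_zero.1 this.symm).resolve_left h1
  · have k := E0 y
    rw [Finset.sum_congr rfl fun x _ => E1 x y y, Finset.sum_const, nsmul_eq_mul] at k
    exact (mul_eq_zero.1 k).resolve_left (Nat.cast_ne_zero.2 (Finset.card_ne_zero.2 ⟨y, Finset.mem_univ _⟩))

/-- The trivial constituent of the trace function of an invariant relation. -/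
theorem idem_one {G Ω : Type*} [Group G] [Fintype G] [Finite Ω] [Nonempty Ω] [MulAction G Ω]
    (htr : ∀ x y : Ω, ∃ g : G, g • x = y) (R : Ω → Ω → Prop) {γ : ℕ} (hγ : ∀ x, {y | R x y}.ncard = γ) :
    classInner (fun g : G => (({x : Ω | R x (g • x)}.ncard : ℕ) : ℂ)) (fun _ => 1) = γ := by
  classical
  have := Fintype.ofFinite Ω
  have k : ∀ x, Fintype.card Ω * ∑ g : G, (if R x (g • x) then 1 else 0) = Fintype.card G * γ := fun x => by
    rw [← Finset.card_filter, Finset.card_eq_sum_card_fiberwise (f := fun g : G => g • x)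
      (t := Finset.univ.filter (R x)) fun g hg => by simpa using hg, Finset.mul_sum, ← hγ x,
      Set.ncard_eq_toFinset_card', Set.toFinset_ofPred, Finset.sum_congr rfl fun y hy => ?_, Finset.sum_const,
      smul_eq_mul, mul_comm]
    rw [← idem_fib htr x y, Finset.filter_filter]
    congr 2
    ext g
    simp only [Finset.mem_filter, Finset.mem_univ, true_and] at hy ⊢
    exact ⟨fun h => h.2, fun h => ⟨h ▸ hy, h⟩⟩
  have e : ∑ g : G, {x : Ω | R x (g • x)}.ncard = Fintype.card G * γ := by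
    refine Nat.eq_of_mul_eq_mul_left (Fintype.card_pos (α := Ω)) ?_
    simp only [Set.ncard_eq_toFinset_card', Set.toFinset_ofPred, Finset.card_filter]
    rw [Finset.sum_comm, Finset.mul_sum, Finset.sum_congr rfl fun x _ => k x]
    simp
  rw [Ch.classInner_one_right, ← Nat.cast_sum, e, Nat.card_eq_fintype_card, Nat.cast_mul,
    inv_mul_cancel_left₀ (Nat.cast_ne_zero.2 Fintype.card_ne_zero)]

end Cfsg.Agent.SG
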