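import Mathlib
import Cfsg.Agent.SG.Defs
import Cfsg.Agent.SG.ChD
import Cfsg.Agent.SG.ChU
import Cfsg.Agent.SG.Idem
import Cfsg.Agent.Ch.Kernel

set_option autoImplicit false
set_option linter.unusedVariables false

namespace Cfsg.Agent.SG

open Matrix Cfsg.Geo Module
open scoped MatrixGroups ComplexConjugate commutatorElement

/-- The sum over a subgroup of a function that is constant on its non-trivial elements. -/
theorem est_sum {G : Type*} [Group G] {S : Subgroup G} [Fintype S] (φ : G → ℂ) {v : ℂ}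
    (h : ∀ s ∈ S, s ≠ 1 → φ s = v) : ∑ s : S, φ s = φ 1 + ((Nat.card S : ℂ) - 1) * v := by
  classical
  rw [← Finset.add_sum_erase _ _ (Finset.mem_univ (1 : S)), Finset.sum_congr rfl fun (s : S) hs =>
    h s s.2 fun e => (Finset.mem_erase.1 hs).1 (Subtype.ext e), Finset.sum_const,
    Finset.card_erase_of_mem (Finset.mem_univ _), Finset.card_univ, Nat.card_eq_fintype_card, nsmul_eq_mul,
    Nat.cast_sub Fintype.card_pos, Nat.cast_one, Subgroup.coe_one]

theorem est_ncard {Ω : Type*} [Fintype Ω] (P : Ω → Prop) [DecidablePred P] :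
    ({x | P x}.ncard : ℝ) = ∑ x, if P x then 1 else 0 := by
  rw [Finset.sum_boole, Set.ncard_eq_toFinset_card', Set.toFinset_setOf]

theorem TZ.est {G Ω : Type*} [Group G] [Finite G] [Finite Ω] [Nonempty Ω] [MulAction G Ω] {S Z : Subgroup G}
    {n m j : ℕ} (h : TZ n m S Z) (hm : n * (j + n + 3) < m)
    (hL : Subgroup.normalClosure (S : Set G) ⊔ Z = ⊤)
    (htr : ∀ x y : Ω, ∃ l ∈ Subgroup.normalClosure (S : Set G), l • x = y)
    (hs : ∀ s ∈ S, s ≠ 1 → ∀ z ∈ Z, ∀ x : Ω, (s * z) • x ≠ x) (hj : Nat.card Ω = j * m)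
    (R : Ω → Ω → Prop) (hR : ∀ (g : G) x y, R x y → R (g • x) (g • y)) (irr : ∀ x, ¬ R x x)
    {γ : ℕ} (hγ : ∀ x, {y | R x y}.ncard = γ) :
    ∃ f : ℕ, (∀ s ∈ S, s ≠ 1 → {x : Ω | R x (s • x)}.ncard = f) ∧
      (((m : ℤ) - 1) * f - m * γ) ^ 2 ≤ 2 * j ^ 3 * γ * m ^ 2 := by
  classical
  letI := Fintype.ofFinite G
  letI := Fintype.ofFinite S
  letI := Fintype.ofFinite Ω
  obtain ⟨t, a, b, hm', cd⟩ := h.exists_cd
  have hn := h.pr.two_le
  have ht : j + n + 3 ≤ t := Nat.le_of_mul_le_mul_left (a := j + n + 3) (c := n) (by omega) (by omega)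
  have m2 : 2 ≤ m := by nlinarith
  have m0 : (m : ℂ) ≠ 0 := Nat.cast_ne_zero.2 (by omega)
  have hπ : IsCharacter G (Perm.permChar G Ω) := Ch.isCharacter_permChar Ω
  obtain ⟨c, hc1, hc2⟩ := hπ.exists_mult
  have ev : ∀ g, ∑ ψ, (c ψ : ℂ) * ψ.1 g = Perm.permChar G Ω g := fun g => by
    conv_rhs => rw [hc2]
    simp [Finset.sum_apply]
  set φ : G → ℂ := fun g => (({x : Ω | R x (g • x)}.ncard : ℕ) : ℂ) with hφ
  have cl : IsClassFunction G φ := fun g k => by
    refine congrArg Nat.cast (Set.ncard_congr (fun x _ => k⁻¹ • x) (fun x hx => ?_)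
      (fun x y _ _ e => MulAction.injective _ e) fun y hy => ⟨k • y, ?_, inv_smul_smul k y⟩)
    · simpa [mul_smul] using hR k⁻¹ _ _ hx
    · simpa [mul_smul] using hR k _ _ hy
  have pos : ∀ ψ : IrrCharacter G, 0 < b ψ + n * ∑ k, a ψ k := fun ψ =>
    Ch.charDegree_of_apply_one (cd.deg ψ) ▸ ψ.2.charDegree_pos
  have bd : ∀ χ : IrrCharacter G, ((b χ + n * ∑ k, a χ k : ℕ) : ℝ) * ‖classInner φ χ.1‖ ^ 2 ≤
      c χ * (j * m * γ) := fun χ => by
    have k := idem_bound (fun x y : Ω => if R x y then (1 : ℂ) else 0) χ (hc1 χ) (cd.deg χ)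
    have e1 : (fun g : G => ∑ x : Ω, if R x (g • x) then (1 : ℂ) else 0) = φ := funext fun g => by
      have := congrArg (fun r : ℝ => (r : ℂ)) (est_ncard fun x : Ω => R x (g • x))
      simp only [Complex.ofReal_natCast, Complex.ofReal_sum, apply_ite (fun r : ℝ => (r : ℂ)),
        Complex.ofReal_one, Complex.ofReal_zero] at this
      exact this.symm
    have e2 : ∑ x : Ω, ∑ y : Ω, ‖if R x y then (1 : ℂ) else 0‖ ^ 2 = j * m * γ := by
      rw [Finset.sum_congr rfl fun x _ => (show _ = (γ : ℝ) by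
        rw [← hγ x, est_ncard]
        exact Finset.sum_congr rfl fun y _ => by split_ifs <;> simp), Finset.sum_const, Finset.card_univ,
        ← Nat.card_eq_fintype_card, hj, nsmul_eq_mul, Nat.cast_mul]
    rwa [e1, e2] at k
  have z0 : ∀ χ, c χ = 0 → classInner φ χ.1 = 0 := fun χ e => by
    have k := bd χ
    rw [e, Nat.cast_zero, zero_mul] at k
    have k2 := nonpos_of_mul_nonpos_right (a := ((b χ + n * ∑ k, a χ k : ℕ) : ℝ)) k (Nat.cast_pos.2 (pos χ))
    exact norm_eq_zero.1 (pow_eq_zero_iff two_ne_zero |>.1 (le_antisymm k2 (sq_nonneg _)))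
  let i0 : Fin t := ⟨0, by omega⟩
  have co : ∀ χ, c χ ≠ 0 → ∀ i, a χ i = a χ i0 := fun χ e i =>
    cd.const hn ht h.zc hL hs (h.card ▸ hj) (by rw [hc1]; exact Nat.cast_ne_zero.2 e) i i0
  have val : ∀ s ∈ S, s ≠ 1 → φ s = ∑ χ : IrrCharacter G, classInner φ χ.1 * ((b χ : ℂ) - a χ i0) :=
    fun s h1 h2 => by
      rw [cl.apply_eq_sum_irr s]
      refine Finset.sum_congr rfl fun χ _ => ?_
      by_cases e : c χ = 0
      · rw [z0 χ e, zero_mul, zero_mul]
      · rw [cd.val χ _ (co χ e) s h1 h2]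
  have : Nontrivial S := Finite.one_lt_card_iff_nontrivial.1 (by rw [h.card]; omega)
  obtain ⟨s0, hs0⟩ := exists_ne (1 : S)
  have hf : ∀ s ∈ S, s ≠ 1 → φ s = φ s0 := fun s h1 h2 =>
    (val s h1 h2).trans (val s0 s0.2 fun e => hs0 (Subtype.ext e)).symm
  refine ⟨{x : Ω | R x ((s0 : G) • x)}.ncard, fun s h1 h2 => Nat.cast_injective (R := ℂ) (hf s h1 h2), ?_⟩
  set f := {x : Ω | R x ((s0 : G) • x)}.ncard with hf0
  have sm : ∀ w : IrrCharacter G → ℂ, ∑ s : S, ∑ χ, w χ * χ.1 s = m * ∑ χ, w χ * b χ := fun w => by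
    rw [Finset.sum_comm, Finset.mul_sum]
    exact Finset.sum_congr rfl fun χ _ => by rw [← Finset.mul_sum, cd.bdef, h.card]; ring
  have e1 : ((m : ℂ) - 1) * f = m * ∑ χ : IrrCharacter G, classInner φ χ.1 * b χ := by
    have k := est_sum φ hf
    rw [show φ 1 = 0 by simp [hφ, irr], zero_add, h.card,
      Finset.sum_congr rfl fun (s : S) _ => cl.apply_eq_sum_irr (s : G), sm] at k
    exact k.symm
  have e2 : ∑ χ, (c χ : ℝ) * b χ = j := by
    have k := est_sum (S := S) (Perm.permChar G Ω) (v := 0) fun s h1 h2 => by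
      have : IsEmpty (MulAction.fixedBy Ω s) := ⟨fun x => hs s h1 h2 1 Z.one_mem x.1 ((mul_one s).symm ▸ x.2)⟩
      simp [Perm.permChar]
    rw [mul_zero, add_zero, Perm.permChar_apply_one, hj, ← Finset.sum_congr rfl fun (s : S) _ => ev (s : G), sm,
      Nat.cast_mul, mul_comm (j : ℂ)] at k
    exact_mod_cast mul_left_cancel₀ m0 k
  let χ0 : IrrCharacter G := ⟨fun _ => 1, IsIrrCharacter.one⟩
  have b0 : (b χ0 : ℂ) = 1 := by
    have k := cd.bdef χ0
    simp only [χ0, Finset.sum_const, Finset.card_univ, ← Nat.card_eq_fintype_card, h.card, nsmul_eq_mul] at k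
    exact (mul_left_cancel₀ m0 k).symm
  have s0' : classInner φ χ0.1 = γ :=
    idem_one (fun x y => (htr x y).imp fun _ k => k.2) R hγ
  have nb : ∀ χ, χ ≠ χ0 → ‖classInner φ χ.1‖ ≤ c χ * √(2 * j * γ) := fun χ ne => by
    by_cases e : c χ = 0
    · rw [z0 χ e, norm_zero]; positivity
    have a1 : 1 ≤ a χ i0 := by
      by_contra k
      have k0 : ∀ i, a χ i = 0 := fun i => by rw [co χ e i]; omega
      refine ne (Subtype.ext (idem_triv htr (fun l hl => χ.2.mem_charKer.1 ?_)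
        (by rw [hc1]; exact Nat.cast_ne_zero.2 e)))
      have := χ.2.isCharacter.charKer_normal
      refine Subgroup.normalClosure_le_normal (fun s h1 => χ.2.mem_charKer.2 ?_) hl
      by_cases h2 : s = 1
      · rw [h2]
      · rw [cd.val χ 0 k0 s h1 h2, cd.deg]
        simp [k0]
    have d1 : m ≤ 2 * (b χ + n * ∑ k, a χ k) := by
      rw [Finset.sum_congr rfl fun i _ => co χ e i, Finset.sum_const, Finset.card_univ, Fintype.card_fin,
        smul_eq_mul]
      have : n * t ≤ n * (t * a χ i0) := Nat.mul_le_mul_left _ (Nat.le_mul_of_pos_right _ a1)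
      omega
    have d2 : (m : ℝ) ≤ 2 * ((b χ + n * ∑ k, a χ k : ℕ) : ℝ) := by exact_mod_cast d1
    have c1 : (1 : ℝ) ≤ c χ := by exact_mod_cast Nat.pos_of_ne_zero e
    have mp : (0 : ℝ) < m := by exact_mod_cast (show 0 < m by omega)
    have k := bd χ
    have k2 : ‖classInner φ χ.1‖ ^ 2 ≤ c χ * (2 * j * γ) := le_of_mul_le_mul_left (a := (m : ℝ)) (by
      nlinarith [mul_le_mul_of_nonneg_right d2 (sq_nonneg ‖classInner φ χ.1‖)]) mp
    refine (abs_le_of_sq_le_sq' (k2.trans ?_) (by positivity)).2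
    rw [mul_pow, Real.sq_sqrt (by positivity)]
    exact mul_le_mul_of_nonneg_right (by nlinarith) (by positivity)
  have e3 : ((m : ℂ) - 1) * f - m * γ = m * ∑ χ ∈ Finset.univ.erase χ0, classInner φ χ.1 * b χ := by
    rw [e1, ← Finset.add_sum_erase _ _ (Finset.mem_univ χ0), b0, s0']
    ring
  have e4 : ‖∑ χ ∈ Finset.univ.erase χ0, classInner φ χ.1 * b χ‖ ≤ j * √(2 * j * γ) := by
    refine (norm_sum_le _ _).trans ((Finset.sum_le_sum fun χ hχ => ?_).trans
      ((Finset.sum_le_sum_of_subset_of_nonneg (Finset.subset_univ _)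
        (f := fun χ => (c χ : ℝ) * b χ * √(2 * j * γ)) fun _ _ _ => by positivity).trans
        (by rw [← Finset.sum_mul, e2])))
    rw [norm_mul, Complex.norm_natCast, mul_right_comm]
    exact mul_le_mul_of_nonneg_right (nb χ (Finset.mem_erase.1 hχ).1) (Nat.cast_nonneg _)
  have e5 : |((((m : ℤ) - 1) * f - m * γ : ℤ) : ℝ)| ≤ m * (j * √(2 * j * γ)) := by
    rw [← Complex.norm_intCast]
    push_cast
    rw [e3, norm_mul, Complex.norm_natCast]
    exact mul_le_mul_of_nonneg_left e4 (Nat.cast_nonneg _)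
  have e6 := pow_le_pow_left₀ (abs_nonneg _) e5 2
  rw [sq_abs, mul_pow, mul_pow, Real.sq_sqrt (by positivity)] at e6
  have e7 : ((((m : ℤ) - 1) * f - m * γ : ℤ) : ℝ) ^ 2 ≤ 2 * j ^ 3 * γ * m ^ 2 := e6.trans_eq (by ring)
  exact_mod_cast e7

end Cfsg.Agent.SG
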