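import Mathlib
import Cfsg.Agent.SG.Defs

set_option autoImplicit false
set_option linter.unusedVariables false

namespace Cfsg.Agent.SG

open Matrix Cfsg.Geo Module
open scoped MatrixGroups ComplexConjugate commutatorElement

variable {nn : ℕ} {F : Type*} [Field F] [Fintype F]

local notation "Mn" => Matrix (Fin nn) (Fin nn) F
local notation "SLn" => specialLinear (Fin nn) F
local notation "Zn" => scalars (Fin nn) F
local notation "GLn" => GL (Fin nn) F
local notation "qq" => Fintype.card F

theorem card_proj : Nat.card (Projectivization F (Fin nn → F)) = ∑ i ∈ Finset.range nn, qq ^ i := by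
  rw [Projectivization.card_of_finrank F (Fin nn → F) (n := nn) (by simp), Nat.card_eq_fintype_card]

theorem Fixp_sub (W : Submodule F (Fin nn → F)) :
    {p : Projectivization F (Fin nn → F) | p.rep ∈ W}.ncard ≤
      ∑ i ∈ Finset.range (finrank F W), Fintype.card F ^ i := by
  have h := Projectivization.card_of_finrank F W (n := finrank F W) rfl
  rw [Nat.card_eq_fintype_card (α := F)] at h
  rw [← h]
  have hs : {p : Projectivization F (Fin nn → F) | p.rep ∈ W} ⊆
      Projectivization.map W.subtype W.injective_subtype '' Set.univ := by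
    intro p hp
    refine ⟨Projectivization.mk F ⟨p.rep, hp⟩ (fun e => p.rep_nonzero (congrArg Subtype.val e)),
      Set.mem_univ _, ?_⟩
    rw [Projectivization.map_mk]
    exact p.mk_rep
  refine (Set.ncard_le_ncard hs (Set.toFinite _)).trans ?_
  refine (Set.ncard_image_le (Set.toFinite _)).trans ?_
  rw [Set.ncard_univ]

theorem Fixp_num {q a b n : ℕ} (hq : 1 ≤ q) (h1 : 1 ≤ a) (h6 : a ≤ n - 1) (hab : a + b ≤ n) :
    ∑ i ∈ Finset.range a, q ^ i + ∑ i ∈ Finset.range b, q ^ i ≤ ∑ i ∈ Finset.range (n - 1), q ^ i + 1 := by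
  have mono : ∀ k ≤ n - 1, ∑ i ∈ Finset.range k, q ^ i ≤ ∑ i ∈ Finset.range (n - 1), q ^ i := fun k hk =>
    Finset.sum_le_sum_of_subset (Finset.range_subset_range.2 hk)
  rcases Nat.eq_zero_or_pos b with rfl | hb
  · have := mono a h6
    simp only [Finset.range_zero, Finset.sum_empty]
    omega
  obtain ⟨a, rfl⟩ := Nat.exists_eq_add_of_le' h1
  have h2 := mono (b + a) (by omega)
  have h3 : ∑ i ∈ Finset.range a, q ^ (i + 1) ≤ ∑ i ∈ Finset.range a, q ^ (b + i) :=
    Finset.sum_le_sum fun i _ => Nat.pow_le_pow_right hq (by omega)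
  rw [Finset.sum_range_add] at h2
  rw [Finset.sum_range_succ', pow_zero]
  omega

/-- A non-scalar matrix fixes few points. -/
theorem card_fix_le {g : GLn} (hg : g ∉ Zn) :
    Nat.card {p : Projectivization F (Fin nn → F) // ∃ c : F, (g : Mn) *ᵥ p.rep = c • p.rep} ≤
      ∑ i ∈ Finset.range (nn - 1), qq ^ i + 1 := by
  change {p : Projectivization F (Fin nn → F) | ∃ c : F, (g : Mn) *ᵥ p.rep = c • p.rep}.ncard ≤ _
  rcases Set.eq_empty_or_nonempty
    {p : Projectivization F (Fin nn → F) | ∃ c : F, (g : Mn) *ᵥ p.rep = c • p.rep} with h | h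
  · rw [h, Set.ncard_empty]; omega
  obtain ⟨p0, c0, h0⟩ := h
  let f : Module.End F (Fin nn → F) := Matrix.mulVecLin (g : Mn)
  have hm : ∀ (c : F) (v : Fin nn → F), v ∈ f.eigenspace c ↔ (g : Mn) *ᵥ v = c • v := fun c v => by
    rw [Module.End.mem_eigenspace_iff]; rfl
  let E := f.eigenspace c0
  let E' := ⨆ c, ⨆ (_ : c ≠ c0), f.eigenspace c
  have hd : Disjoint E E' := Module.End.eigenspaces_iSupIndep f c0
  have hab : finrank F E + finrank F E' ≤ nn := by
    have := Submodule.finrank_add_finrank_le_of_disjoint hd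
    simpa using this
  have h1 : 1 ≤ finrank F E := by
    rw [Nat.one_le_iff_ne_zero, Ne, Submodule.finrank_eq_zero]
    intro e
    have : p0.rep ∈ E := (hm _ _).2 h0
    rw [e] at this
    exact p0.rep_nonzero this
  have h6 : finrank F E ≤ nn - 1 := by
    have hne : E ≠ ⊤ := by
      intro e
      apply hg
      have hall : ∀ v, (g : Mn) *ᵥ v = c0 • v := fun v => (hm _ _).1 (show v ∈ E from e ▸ trivial)
      have hmat : (g : Mn) = c0 • (1 : Mn) := by
        ext i j
        have := congrFun (hall (Pi.single j 1)) i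
        simpa [Matrix.mulVec_single, Matrix.one_apply, Pi.single_apply] using this
      have hc : c0 ≠ 0 := by
        rintro rfl
        have := congrArg (· *ᵥ p0.rep) g.mul_inv
        simp only [hmat, zero_smul, zero_mul, zero_mulVec, one_mulVec] at this
        exact p0.rep_nonzero this.symm
      exact (mem_scalars_iff g).2 ⟨Units.mk0 c0 hc, hmat⟩
    have := Submodule.finrank_lt hne
    simp only [finrank_fintype_fun_eq_card, Fintype.card_fin] at this
    omega
  have hs : {p : Projectivization F (Fin nn → F) | ∃ c : F, (g : Mn) *ᵥ p.rep = c • p.rep} ⊆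
      {p | p.rep ∈ E} ∪ {p | p.rep ∈ E'} := by
    rintro p ⟨c, hc⟩
    by_cases e : c = c0
    · exact Or.inl ((hm _ _).2 (e ▸ hc))
    · exact Or.inr (Submodule.mem_iSup_of_mem c (Submodule.mem_iSup_of_mem e ((hm _ _).2 hc)))
  refine (Set.ncard_le_ncard hs (Set.toFinite _)).trans ((Set.ncard_union_le _ _).trans ?_)
  exact (Nat.add_le_add (Fixp_sub E) (Fixp_sub E')).trans (Fixp_num Fintype.card_pos h1 h6 hab)

end Cfsg.Agent.SG
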