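import Mathlib
import Cfsg.Agent.SG.Defs

set_option autoImplicit false
set_option linter.unusedVariables false

namespace Cfsg.Agent.SG

open Matrix Cfsg.Geo Module
open scoped MatrixGroups ComplexConjugate commutatorElement

namespace NumP

theorem geom {n q a : ℕ} (hq : 2 ≤ q) (h : a * (q - 1) = q ^ n - 1) :
    ∑ i ∈ Finset.range n, q ^ i = a := by
  obtain ⟨r, rfl⟩ : ∃ r, q = r + 1 := ⟨q - 1, by omega⟩
  have h1 := geom_sum_mul_add r n
  rw [Nat.add_sub_cancel, ← h1, Nat.add_sub_cancel] at h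
  exact (Nat.eq_of_mul_eq_mul_right (by omega) h).symm

theorem two_pow (k : ℕ) : (k + 13) * (k + 13 + 4) < 2 ^ (k + 11) := by
  induction k with
  | zero => norm_num
  | succ k ih =>
    rw [show k + 1 + 11 = k + 11 + 1 by ring, pow_succ]
    nlinarith

theorem low (q k : ℕ) : 1 + q ≤ ∑ i ∈ Finset.range (k + 11), q ^ i := by
  have := Finset.sum_le_sum_of_subset (f := fun i => q ^ i)
    (Finset.range_mono (show 2 ≤ k + 11 by omega))
  simpa [Finset.sum_range_succ _ 1] using this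

theorem not_fourteen : ¬ IsPrimePow 14 := fun h => by
  obtain ⟨p, k, hp, -, e⟩ := (isPrimePow_nat_iff 14).1 h
  have h2 : 2 ∣ p ^ k := by rw [e]; norm_num
  have h7 : 7 ∣ p ^ k := by rw [e]; norm_num
  have a := (Nat.prime_dvd_prime_iff_eq Nat.prime_two hp).1 (Nat.prime_two.dvd_of_dvd_pow h2)
  have b := (Nat.prime_dvd_prime_iff_eq (by norm_num) hp).1
    ((show Nat.Prime 7 by norm_num).dvd_of_dvd_pow h7)
  omega

end NumP

open NumP

theorem num_m {n q d m : ℕ} (hn : 13 ≤ n) (hq : 2 ≤ q) (hp : n.Prime) (hd : d = Nat.gcd n (q - 1))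
    (h : d * m * (q - 1) = q ^ n - 1) :
    ∑ i ∈ Finset.range n, q ^ i = d * m ∧ d ≤ n ∧ ∑ i ∈ Finset.range (n - 1), q ^ i + 1 + n + 1 ≤ m ∧
      n * (1 + n + 3) < m := by
  have h1 := geom hq h
  have h2 : d ∣ n := hd ▸ Nat.gcd_dvd_left _ _
  obtain ⟨k, rfl⟩ : ∃ k, n = k + 13 := ⟨n - 13, by omega⟩
  have e : k + 13 - 1 = k + 12 := by omega
  rw [e]
  have p1 := two_pow k
  have p2 : 2 ^ (k + 11) ≤ q ^ (k + 11) := Nat.pow_le_pow_left hq _
  have p3 : q ^ (k + 11) ≤ q ^ (k + 12) := Nat.pow_le_pow_right (by omega) (by omega)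
  have s1 : ∑ i ∈ Finset.range (k + 13), q ^ i =
      ∑ i ∈ Finset.range (k + 12), q ^ i + q ^ (k + 12) := Finset.sum_range_succ _ _
  have s2 : ∑ i ∈ Finset.range (k + 12), q ^ i =
      ∑ i ∈ Finset.range (k + 11), q ^ i + q ^ (k + 11) := Finset.sum_range_succ _ _
  have s3 : ∑ i ∈ Finset.range (k + 13), q ^ i = q * ∑ i ∈ Finset.range (k + 12), q ^ i + 1 := by
    rw [Finset.sum_range_succ' _ (k + 12), Finset.mul_sum, pow_zero]
    simp only [pow_succ']
  have p4 : (k + 13) * (k + 13 + 4) < ∑ i ∈ Finset.range (k + 12), q ^ i := by omega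
  have h3 : ∑ i ∈ Finset.range (k + 12), q ^ i + 1 + (k + 13) + 1 ≤ m := by
    rcases (Nat.dvd_prime hp).1 h2 with rfl | rfl
    · rw [one_mul, s1] at h1
      nlinarith
    · have h4 : k + 13 ∣ q - 1 := hd ▸ Nat.gcd_dvd_right _ _
      have h5 : k + 13 + 1 ≤ q := by
        have := Nat.le_of_dvd (by omega) h4
        omega
      refine Nat.le_of_mul_le_mul_left ?_ (show 0 < k + 13 by omega)
      rw [← h1, s3]
      have h6 := Nat.mul_le_mul_right (∑ i ∈ Finset.range (k + 12), q ^ i) h5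
      generalize ∑ i ∈ Finset.range (k + 12), q ^ i = T at p4 h6
      have h7 : (k + 13) * (T + 1 + (k + 13) + 1) + 2 * (k + 13) =
          (k + 13) * T + (k + 13) * (k + 13 + 4) := by ring
      have h8 : (k + 13 + 1) * T = (k + 13) * T + T := by ring
      omega
  refine ⟨h1, Nat.le_of_dvd hp.pos h2, h3, ?_⟩
  rw [show 1 + (k + 13) + 3 = k + 13 + 4 by omega]
  omega

theorem num_gap {n q m j : ℕ} (hn : 13 ≤ n) (hq : n < q) (h : n * m * (q - 1) = q ^ n - 1) (hj : j ≤ n * q) :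
    n * (j + n + 3) < m ∧ q ^ (n - 1) - 1 ≤ n * (m - 1) ∧
      2 * j ^ 3 * (q ^ (n - 1) - 1) < (n * (m - 1) - (q ^ (n - 1) - 1)) ^ 2 := by
  have h1 := geom (by omega) h
  obtain ⟨k, rfl⟩ : ∃ k, n = k + 13 := ⟨n - 13, by omega⟩
  have e : k + 13 - 1 = k + 12 := by omega
  rw [e]
  have s1 : ∑ i ∈ Finset.range (k + 13), q ^ i =
      ∑ i ∈ Finset.range (k + 12), q ^ i + q ^ (k + 12) := Finset.sum_range_succ _ _
  have s2 : ∑ i ∈ Finset.range (k + 12), q ^ i =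
      ∑ i ∈ Finset.range (k + 11), q ^ i + q ^ (k + 11) := Finset.sum_range_succ _ _
  have s3 := low q k
  have q0 : 0 < q := by omega
  have j1 : j ≤ q ^ 2 := hj.trans (by rw [sq]; exact Nat.mul_le_mul_right _ hq.le)
  have d1 : (k + 13) * (m - 1) = (k + 13) * m - (k + 13) := Nat.mul_sub_one _ _
  have d2 : q ^ (k + 11) ≤ (k + 13) * (m - 1) - (q ^ (k + 12) - 1) := by omega
  refine ⟨?_, by omega, ?_⟩
  · refine Nat.lt_of_mul_lt_mul_left (a := k + 13) ?_
    have a1 : j + (k + 13) + 3 < q ^ 3 := by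
      have : q ^ 3 = q * q ^ 2 := by ring
      have : 14 * q ^ 2 ≤ q * q ^ 2 := Nat.mul_le_mul_right _ (by omega)
      nlinarith
    have a2 : (k + 13) * ((k + 13) * (j + (k + 13) + 3)) ≤ q * (q * (j + (k + 13) + 3)) :=
      Nat.mul_le_mul hq.le (Nat.mul_le_mul_right _ hq.le)
    have a3 : q * (q * (j + (k + 13) + 3)) < q * (q * q ^ 3) :=
      Nat.mul_lt_mul_of_pos_left (Nat.mul_lt_mul_of_pos_left a1 q0) q0
    have a4 : q * (q * q ^ 3) ≤ q ^ (k + 12) := by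
      rw [← pow_succ', ← pow_succ']
      exact Nat.pow_le_pow_right q0 (by omega)
    omega
  · have a1 : 2 * j ^ 3 * (q ^ (k + 12) - 1) ≤ 2 * (q ^ 2) ^ 3 * q ^ (k + 12) :=
      Nat.mul_le_mul (Nat.mul_le_mul_left _ (Nat.pow_le_pow_left j1 _)) (Nat.sub_le _ _)
    have a2 : 2 * (q ^ 2) ^ 3 * q ^ (k + 12) < q * (q ^ 2) ^ 3 * q ^ (k + 12) :=
      Nat.mul_lt_mul_of_pos_right (Nat.mul_lt_mul_of_pos_right (by omega) (by positivity))
        (by positivity)
    have a3 : q * (q ^ 2) ^ 3 * q ^ (k + 12) ≤ (q ^ (k + 11)) ^ 2 := by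
      rw [← pow_mul, ← pow_succ', ← pow_add, ← pow_mul]
      exact Nat.pow_le_pow_right q0 (by omega)
    exact a1.trans_lt (a2.trans_le (a3.trans (Nat.pow_le_pow_left d2 _)))

theorem num_sq {n q : ℕ} (hn : 13 ≤ n) (hp : n.Prime) (hq : IsPrimePow q) (hd : n ∣ q - 1) :
    n < q ∧ (2 * (n * q) ^ 3) ^ 2 < q ^ (n - 1) ∧ n * (n + 1) * (2 * (n * q) ^ 3 * q ^ 2) < q ^ n - 1 := by
  have q2 := hq.two_le
  have h1 : n < q := by
    have := Nat.le_of_dvd (by omega) hd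
    omega
  have q0 : 0 < q := by omega
  refine ⟨h1, ?_, ?_⟩
  · rw [show (2 * (n * q) ^ 3) ^ 2 = 4 * n ^ 6 * q ^ 6 by ring]
    rcases hn.eq_or_lt with rfl | hn'
    · have h2 : q ≠ 14 := fun e => not_fourteen (e ▸ hq)
      have h3 : 27 ≤ q := by omega
      have h4 : 4 * 13 ^ 6 < q ^ 6 := lt_of_lt_of_le (by norm_num) (Nat.pow_le_pow_left h3 6)
      rw [show q ^ (13 - 1) = q ^ 6 * q ^ 6 by ring]
      exact Nat.mul_lt_mul_of_pos_right h4 (by positivity)
    · have h2 : 4 * n ^ 6 < q * q ^ 6 :=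
        Nat.mul_lt_mul'' (by omega) (Nat.pow_lt_pow_left h1 (by norm_num))
      refine (Nat.mul_lt_mul_of_pos_right h2 (by positivity)).trans_le ?_
      rw [← pow_succ', ← pow_add]
      exact Nat.pow_le_pow_right q0 (by omega)
  · have a1 : n * (n + 1) * (2 * (n * q) ^ 3 * q ^ 2) ≤ q * q * (2 * (q * q) ^ 3 * q ^ 2) :=
      Nat.mul_le_mul (Nat.mul_le_mul h1.le h1) (Nat.mul_le_mul_right _
        (Nat.mul_le_mul_left _ (Nat.pow_le_pow_left (Nat.mul_le_mul_right _ h1.le) _)))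
    have a2 : q * q * (2 * (q * q) ^ 3 * q ^ 2) = 2 * q ^ 10 := by ring
    have a3 : q * q ^ 10 ≤ q ^ n := by
      rw [← pow_succ']
      exact Nat.pow_le_pow_right q0 (by omega)
    have a4 : 14 * q ^ 10 ≤ q * q ^ 10 := Nat.mul_le_mul_right _ (by omega)
    have a5 : 0 < q ^ 10 := by positivity
    omega

end Cfsg.Agent.SG
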