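/-
Overgroups of the Singer normaliser in `SL_n(q)`: bookkeeping.
-/
import Mathlib
import Cfsg.Agent.SG.Defs

set_option autoImplicit false
set_option linter.unusedVariables false

namespace Cfsg.Agent.SG

open Matrix Cfsg.Geo Module
open scoped MatrixGroups ComplexConjugate commutatorElement

variable {nn : ℕ} {F : Type*} [Field F] [Fintype F]

local notation "Mn" => Matrix (Fin nn) (Fin nn) F
local notation "SLn" => specialLinear (Fin nn) F
local notation "Zn" => scalars (Fin nn) F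
local notation "GLn" => GL (Fin nn) F
local notation "qq" => Fintype.card F

theorem ncl_conj {G : Type*} [Group G] {H S : Subgroup G} {g l : G} (hg : g ∈ H) (hl : l ∈ ncl H S) :
    g * l * g⁻¹ ∈ ncl H S := by
  induction hl using Subgroup.closure_induction with
  | mem x hx =>
    obtain ⟨h, hh, s, hs, rfl⟩ := hx
    exact Subgroup.subset_closure ⟨g * h, H.mul_mem hg hh, s, hs, by group⟩
  | one => simp
  | mul x y _ _ hx hy =>
    have e : g * (x * y) * g⁻¹ = g * x * g⁻¹ * (g * y * g⁻¹) := by group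
    rw [e]
    exact (ncl H S).mul_mem hx hy
  | inv x _ hx =>
    have e : g * x⁻¹ * g⁻¹ = (g * x * g⁻¹)⁻¹ := by group
    rw [e]
    exact (ncl H S).inv_mem hx

theorem ncl_subgroupOf {G : Type*} [Group G] {H S : Subgroup G} (h : S ≤ H) :
    ncl H S ≤ H ∧ (ncl H S).subgroupOf H = Subgroup.normalClosure (S.subgroupOf H : Set H) := by
  refine ⟨(Subgroup.closure_le _).2 ?_, le_antisymm ?_ ?_⟩
  · rintro _ ⟨g, hg, s, hs, rfl⟩
    exact H.mul_mem (H.mul_mem hg (h hs)) (H.inv_mem hg)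
  · have k : ncl H S ≤ (Subgroup.normalClosure (S.subgroupOf H : Set H)).map H.subtype := by
      refine (Subgroup.closure_le _).2 ?_
      rintro _ ⟨g, hg, s, hs, rfl⟩
      refine ⟨⟨g, hg⟩ * ⟨s, h hs⟩ * ⟨g, hg⟩⁻¹, ?_, rfl⟩
      have k0 : (⟨s, h hs⟩ : H) ∈ (S.subgroupOf H : Set H) := hs
      exact Subgroup.normalClosure_normal.conj_mem _ (Subgroup.subset_normalClosure k0) _
    intro x hx
    obtain ⟨y, hy, e⟩ := k hx
    have e' : y = x := Subtype.ext e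
    exact e' ▸ hy
  · haveI : ((ncl H S).subgroupOf H).Normal := ⟨fun l hl g => ncl_conj g.2 hl⟩
    refine Subgroup.normalClosure_le_normal fun s hs => ?_
    exact Subgroup.subset_closure ⟨1, H.one_mem, s, hs, by simp⟩

omit [Fintype F] in
theorem Tz_zcM {z : GLn} (hz : z ∈ Zn) (k : Mn) : (z : Mn) * k = k * (z : Mn) := by
  obtain ⟨c, hc⟩ := (mem_scalars_iff z).1 hz
  rw [hc, smul_mul_assoc, mul_smul_comm, one_mul, mul_one]

omit [Fintype F] in
theorem Tz_zc {z : GLn} (hz : z ∈ Zn) (g : GLn) : z * g = g * z :=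
  Units.ext (Tz_zcM hz g)

omit [Fintype F] in
theorem Tz_normal : (Zn ⊓ SLn).Normal :=
  ⟨fun z hz g => by rw [← Tz_zc hz.1 g, mul_inv_cancel_right]; exact hz⟩

theorem Sing.le {K : Subalgebra F Mn} {S : Subgroup GLn} {m : ℕ} (h : Sing K S m) :
    S ⊔ (Zn ⊓ SLn) ≤ subalgebraNormalizer K ⊓ SLn := by
  refine sup_le (fun s hs => ?_) fun z hz => ⟨fun k => ?_, hz.2⟩
  · have hs' := (h.mem s).1 hs
    have hi := ((h.mem _).1 (S.inv_mem hs)).1
    refine ⟨fun k => ⟨fun hk => K.mul_mem (K.mul_mem hs'.1 hk) hi, fun hk => ?_⟩, h.sl hs⟩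
    simpa [mul_assoc] using K.mul_mem (K.mul_mem hi hk) hs'.1
  · rw [Tz_zcM hz.1 k, mul_assoc, Units.mul_inv, mul_one]

theorem Sing.tz {K : Subalgebra F Mn} {S M : Subgroup GLn} {m : ℕ} (h : Sing K S m) (hm : 1 < m)
    (h1 : subalgebraNormalizer K ⊓ SLn ≤ M) (h2 : M ≤ SLn) :
    TZ nn m (S.subgroupOf M) ((Zn ⊓ SLn).subgroupOf M) ∧
      Nat.card ((Zn ⊓ SLn).subgroupOf M) = Nat.gcd nn (qq - 1) ∧
      Subgroup.normalizer (S.subgroupOf M : Set M) = (subalgebraNormalizer K).subgroupOf M := by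
  have cs : ∀ {H : Subgroup GLn}, H ≤ M → Nat.card (H.subgroupOf M) = Nat.card H := fun k =>
    Nat.card_congr (Subgroup.subgroupOfEquivOfLe k).toEquiv
  have hSM : S ≤ M := le_sup_left.trans (h.le.trans h1)
  have hZM : Zn ⊓ SLn ≤ M := le_sup_right.trans (h.le.trans h1)
  have hZ : Nat.card ((Zn ⊓ SLn).subgroupOf M) = Nat.gcd nn (qq - 1) := by rw [cs hZM, h.cardZ]
  have hN : Subgroup.normalizer (S.subgroupOf M : Set M) = (subalgebraNormalizer K).subgroupOf M := by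
    refine le_antisymm (fun g hg => ?_) fun g hg => ?_
    · obtain ⟨s, hs, s1⟩ := (Subgroup.nontrivial_iff_exists_ne_one S).1
        (Finite.one_lt_card_iff_nontrivial.1 (h.card ▸ hm))
      exact h.norm s hs s1 g ((Subgroup.mem_normalizer_iff.1 hg ⟨s, hSM hs⟩).1 hs)
    · refine Subgroup.mem_normalizer_iff.2 fun s => ⟨fun hs => h.norm' g hg s hs, fun hs => ?_⟩
      have k := h.norm' (g : GLn)⁻¹ ((subalgebraNormalizer K).inv_mem hg) ((g * s * g⁻¹ : M) : GLn) hs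
      have e : ((g : GLn))⁻¹ * ((g * s * g⁻¹ : M) : GLn) * ((g : GLn))⁻¹⁻¹ = s := by
        simp only [Subgroup.coe_mul, Subgroup.coe_inv]
        group
      rw [e] at k
      exact k
  refine ⟨⟨h.pr, ?_, by rw [cs hSM, h.card], ?_, ?_, h.cop, ?_, ?_⟩, hZ, hN⟩
  · exact fun a ha b hb =>
      Subtype.ext (Units.ext (h.fld.comm _ ((h.mem _).1 ha).1 _ ((h.mem _).1 hb).1))
  · exact fun z hz g => Subtype.ext (Tz_zc hz.1 g)
  · rw [hZ]
    exact h.cop.coprime_dvd_right (Nat.gcd_dvd_left _ _)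
  · intro s hs s1 g hg
    rw [← Subgroup.subgroupOf_sup hSM hZM]
    exact h.tt g (h2 g.2) (h.cent s hs (fun e => s1 (Subtype.ext e)) g (congrArg Subtype.val hg))
  · have e : (subalgebraNormalizer K).subgroupOf M = (subalgebraNormalizer K ⊓ SLn).subgroupOf M :=
      Subgroup.ext fun g => ⟨fun k => ⟨k, h2 g.2⟩, fun k => k.1⟩
    rw [hN, e, cs h1, h.cardN, hZ]

omit [Fintype F] in
theorem Tz_ne (g : GLn) {v : Fin nn → F} (hv : v ≠ 0) : (g : Mn) *ᵥ v ≠ 0 := fun e => hv (by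
  have : ((g⁻¹ : GLn) : Mn) *ᵥ ((g : Mn) *ᵥ v) = v := by
    rw [mulVec_mulVec, Units.inv_mul, one_mulVec]
  rw [← this, e, mulVec_zero])

theorem Sing.semireg {K : Subalgebra F Mn} {S : Subgroup GLn} {m : ℕ} (h : Sing K S m) :
    (∀ u ∈ S ⊔ (Zn ⊓ SLn), u ≠ 1 → ∀ v : Fin nn → F, v ≠ 0 → (u : Mn) *ᵥ v ≠ v) ∧
      (∀ s ∈ S, s ≠ 1 → ∀ (v : Fin nn → F) (c : F), v ≠ 0 → (s : Mn) *ᵥ v ≠ c • v) ∧
      ∀ v : Fin nn → F, v ≠ 0 →
        {w | ∃ s ∈ S, ∃ c : F, c ≠ 0 ∧ w = c • (s : Mn) *ᵥ v}.ncard = (qq - 1) * m := by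
  have two : ∀ s ∈ S, s ≠ 1 → ∀ (v : Fin nn → F) (c : F), v ≠ 0 → (s : Mn) *ᵥ v ≠ c • v := by
    intro s hs s1 v c hv e
    have c0 : c ≠ 0 := fun k => Tz_ne s hv (by rw [e, k, zero_smul])
    exact s1 (h.nz s hs ((mem_scalars_iff s).2
      ⟨Units.mk0 c c0, h.free _ ((h.mem s).1 hs).1 v c hv e⟩))
  refine ⟨fun u hu u1 v hv e => u1 ?_, two, fun v hv => ?_⟩
  · haveI := Tz_normal (nn := nn) (F := F)
    obtain ⟨s, hs, z, hz, rfl⟩ := Subgroup.mem_sup_of_normal_right.1 hu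
    obtain ⟨c, hc⟩ := (mem_scalars_iff z).1 hz.1
    have hK : ((s * z : GLn) : Mn) ∈ K := by
      rw [Units.val_mul, hc]
      exact K.mul_mem ((h.mem s).1 hs).1 (K.smul_mem K.one_mem _)
    have k := h.free _ hK v 1 hv (by rw [e, one_smul])
    exact Units.ext (by rw [k, one_smul, Units.val_one])
  · classical
    let f : Fˣ × S → Fin nn → F := fun p => (p.1 : F) • ((p.2 : GLn) : Mn) *ᵥ v
    have e : {w | ∃ s ∈ S, ∃ c : F, c ≠ 0 ∧ w = c • (s : Mn) *ᵥ v} = Set.range f := by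
      ext w
      constructor
      · rintro ⟨s, hs, c, c0, rfl⟩
        exact ⟨(Units.mk0 c c0, ⟨s, hs⟩), rfl⟩
      · rintro ⟨⟨c, s⟩, rfl⟩
        exact ⟨s, s.2, c, c.ne_zero, rfl⟩
    have inj : Function.Injective f := by
      rintro ⟨c, s⟩ ⟨c', s'⟩ k
      have k1 : (c : F) • ((s : GLn) : Mn) *ᵥ v = (c' : F) • ((s' : GLn) : Mn) *ᵥ v := k
      have k2 : (((s' : GLn)⁻¹ * s : GLn) : Mn) *ᵥ v = ((c : F)⁻¹ * c') • v := by
        have k3 : ((s : GLn) : Mn) *ᵥ v = ((c : F)⁻¹ * c') • ((s' : GLn) : Mn) *ᵥ v := by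
          rw [mul_smul, ← k1, smul_smul, inv_mul_cancel₀ c.ne_zero, one_smul]
        rw [Units.val_mul, ← mulVec_mulVec, k3, mulVec_smul, mulVec_mulVec, Units.inv_mul, one_mulVec]
      have k4 : (s' : GLn)⁻¹ * s = 1 :=
        by_contra fun n => two _ (S.mul_mem (S.inv_mem s'.2) s.2) n v _ hv k2
      have k5 : s' = s := Subtype.ext (inv_mul_eq_one.1 k4)
      subst k5
      have k6 : c = c' := Units.ext (smul_left_injective F (Tz_ne _ hv) k1)
      rw [k6]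
    rw [e, ← Nat.card_coe_set_eq, Nat.card_range_of_injective inj, Nat.card_prod, h.card,
      Nat.card_units, Nat.card_eq_fintype_card]

theorem Sit.top {K : Subalgebra F Mn} {S H : Subgroup GLn} {m : ℕ} (h : Sit K S H m) :
    Subgroup.normalClosure (S.subgroupOf H : Set H) ⊔ (Zn ⊓ SLn).subgroupOf H = ⊤ ∧
      ∀ g ∈ H, ∃ l ∈ ncl H S, ∃ c : F, c ^ nn = 1 ∧ (g : Mn) = c • (l : Mn) := by
  have hSM : S ≤ H := le_sup_left.trans (h.sing.le.trans h.nle)
  have hZM : Zn ⊓ SLn ≤ H := le_sup_right.trans (h.sing.le.trans h.nle)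
  obtain ⟨k1, k2⟩ := ncl_subgroupOf hSM
  refine ⟨?_, fun g hg => ?_⟩
  · rw [← k2, ← Subgroup.subgroupOf_sup k1 hZM]
    exact Subgroup.subgroupOf_eq_top.2 h.gen
  · haveI := Tz_normal (nn := nn) (F := F)
    obtain ⟨l, hl, z, hz, rfl⟩ := Subgroup.mem_sup_of_normal_right.1 (h.gen hg)
    obtain ⟨c, hc⟩ := (mem_scalars_iff z).1 hz.1
    refine ⟨l, hl, c, ?_, by rw [Units.val_mul, hc, mul_smul_comm, mul_one]⟩
    have hd : (z : Mn).det = 1 := congrArg Units.val (MonoidHom.mem_ker.1 hz.2)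
    rwa [hc, det_smul, det_one, mul_one, Fintype.card_fin] at hd

end Cfsg.Agent.SG
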