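import Mathlib
import Cfsg.Agent.SG.Defs
import Cfsg.Agent.SG.Est
import Cfsg.Agent.SG.Tz
import Cfsg.Agent.SG.Fixp
import Cfsg.Agent.SG.Num

set_option autoImplicit false
set_option linter.unusedVariables false

namespace Cfsg.Agent.SG

open Matrix Cfsg.Geo Module
open scoped MatrixGroups ComplexConjugate commutatorElement

theorem D1_abs {G Ω : Type*} [Group G] [Finite G] [Finite Ω] [Nonempty Ω] [MulAction G Ω]
    {S Z : Subgroup G} {n m : ℕ} (h : TZ n m S Z) (hm : n * (1 + n + 3) < m)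
    (hL : Subgroup.normalClosure (S : Set G) ⊔ Z = ⊤)
    (hs : ∀ s ∈ S, s ≠ 1 → ∀ z ∈ Z, ∀ x : Ω, (s * z) • x ≠ x) (hj : Nat.card Ω = m) :
    ∀ p p' r r' : Ω, p ≠ p' → r ≠ r' → ∃ g : G, g • p = r ∧ g • p' = r' := by
  have reg : ∀ x y : Ω, ∃ s ∈ S, s • x = y := by
    intro x y
    have inj : Function.Injective fun s : S => (s : G) • x := by
      intro a b e
      by_contra k
      refine hs ((b : G)⁻¹ * a) (S.mul_mem (S.inv_mem b.2) a.2) (fun e' => k (Subtype.ext ?_)) 1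
        Z.one_mem x ?_
      · exact (inv_mul_eq_one.1 e').symm
      · rw [mul_one, mul_smul, inv_smul_eq_iff]; exact e
    obtain ⟨s, e⟩ := ((Nat.bijective_iff_injective_and_card _).2 ⟨inj, h.card.trans hj.symm⟩).2 y
    exact ⟨s, s.2, e⟩
  intro p p' r r' hp hr
  let R : Ω → Ω → Prop := fun x y => ∃ g : G, g • p = x ∧ g • p' = y
  have hR : ∀ (g : G) x y, R x y → R (g • x) (g • y) := by
    rintro g _ _ ⟨k, rfl, rfl⟩
    exact ⟨g * k, mul_smul _ _ _, mul_smul _ _ _⟩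
  have irr : ∀ x, ¬ R x x := by
    rintro x ⟨k, e1, e2⟩
    exact hp (MulAction.injective k (e1.trans e2.symm))
  have hγ : ∀ x, {y | R x y}.ncard = {y | R p y}.ncard := by
    intro x
    obtain ⟨u, -, rfl⟩ := reg p x
    have : {y | R (u • p) y} = (fun y => u • y) '' {y | R p y} := by
      ext y
      refine ⟨fun hy => ⟨u⁻¹ • y, ?_, smul_inv_smul u y⟩, ?_⟩
      · have k := hR u⁻¹ _ _ hy
        rw [inv_smul_smul] at k
        exact k
      · rintro ⟨z, hz, rfl⟩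
        exact hR u _ _ hz
    rw [this, Set.ncard_image_of_injective _ (MulAction.injective u)]
  obtain ⟨f, hf, -⟩ := h.est (j := 1) hm hL (fun x y => by
    obtain ⟨s, hs', e⟩ := reg x y
    exact ⟨s, Subgroup.subset_normalClosure hs', e⟩) hs (by rw [hj, one_mul]) R hR irr hγ
  obtain ⟨s0, h0, e0⟩ := reg p p'
  obtain ⟨s, h1, e1⟩ := reg r r'
  have f0 : f ≠ 0 := by
    rw [← hf s0 h0 (fun k => hp (by rw [← e0, k, one_smul]))]
    exact Set.ncard_ne_zero_of_mem (a := p) ⟨1, one_smul _ _, by rw [one_smul, e0]⟩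
  rw [← hf s h1 (fun k => hr (by rw [← e1, k, one_smul]))] at f0
  obtain ⟨x, hx⟩ := Set.nonempty_of_ncard_ne_zero f0
  obtain ⟨u, hu, rfl⟩ := reg x r
  have k := hR u _ _ hx
  rw [smul_smul, h.comm u hu s h1, mul_smul, e1] at k
  exact k

variable {nn : ℕ} {F : Type*} [Field F] [Fintype F]

local notation "Mn" => Matrix (Fin nn) (Fin nn) F
local notation "SLn" => specialLinear (Fin nn) F
local notation "Zn" => scalars (Fin nn) F
local notation "GLn" => GL (Fin nn) F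
local notation "qq" => Fintype.card F
local notation "ΩΩ" => Projectivization F (Fin nn → F)

omit [Fintype F] in
theorem D1_smul_mk {g : GLn} {v w : Fin nn → F} (hv : v ≠ 0) (hw : w ≠ 0) :
    g • Projectivization.mk F v hv = Projectivization.mk F w hw ↔ ∃ c : F, (g : Mn) *ᵥ v = c • w := by
  rw [Projectivization.smul_mk, Projectivization.mk_eq_mk_iff']
  exact exists_congr fun c => eq_comm

omit [Fintype F] in
theorem D1_fix {g : GLn} {p : ΩΩ} : g • p = p ↔ ∃ c : F, (g : Mn) *ᵥ p.rep = c • p.rep := by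
  rw [← D1_smul_mk p.rep_nonzero p.rep_nonzero, Projectivization.mk_rep]

omit [Fintype F] in
theorem D1_ind {a b : Fin nn → F} (h : Ind2 a b) :
    ∃ (ha : a ≠ 0) (hb : b ≠ 0), Projectivization.mk F a ha ≠ Projectivization.mk F b hb := by
  refine ⟨fun e => one_ne_zero (h 1 0 (by simp [e])).1, fun e => one_ne_zero (h 0 1 (by simp [e])).2,
    fun e => ?_⟩
  obtain ⟨c, hc⟩ := (Projectivization.mk_eq_mk_iff' F _ _ _ _).1 e
  exact one_ne_zero (h 1 (-c) (by simp [← hc])).1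

theorem Sit.twoT_one {K : Subalgebra F Mn} {S H : Subgroup GLn} {m : ℕ} (h : Sit K S H m)
    (hd : ¬ nn ∣ qq - 1) : TwoT H := by
  classical
  have d1 : Nat.gcd nn (qq - 1) = 1 := (Nat.Prime.coprime_iff_not_dvd h.sing.pr).2 hd
  obtain ⟨n1, -, -, n4⟩ := num_m h.big Fintype.one_lt_card h.sing.pr rfl h.sing.th
  rw [d1, one_mul] at n1
  have hb := h.big
  have m1 : 1 < m := by nlinarith
  have hc : Nat.card ΩΩ = m := card_proj.trans n1
  have : Finite ΩΩ := Nat.finite_of_card_ne_zero (by omega)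
  intro a b a' b' h1 h2
  obtain ⟨ha, hb, k1⟩ := D1_ind h1
  obtain ⟨ha', hb', k2⟩ := D1_ind h2
  have : Nonempty ΩΩ := ⟨Projectivization.mk F a ha⟩
  obtain ⟨g, e1, e2⟩ := D1_abs (Ω := ΩΩ) (h.sing.tz m1 h.nle h.le).1 n4 h.top.1 (by
    intro s hs s1 z hz x e
    have ez : (z : GLn) • x = x := by
      obtain ⟨c, hc⟩ := (mem_scalars_iff (z : GLn)).1 (Subgroup.mem_subgroupOf.1 hz).1
      exact D1_fix.2 ⟨c, by rw [hc, smul_mulVec, one_mulVec]⟩
    have e' : (s : GLn) • (z : GLn) • x = x := by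
      rw [← mul_smul]; exact e
    rw [ez] at e'
    obtain ⟨c, hc⟩ := D1_fix.1 e'
    exact h.sing.semireg.2.1 s (Subgroup.mem_subgroupOf.1 hs) (fun k => s1 (Subtype.ext k)) _ c
      x.rep_nonzero hc) hc _ _ _ _ k1 k2
  obtain ⟨s, hs⟩ := (D1_smul_mk (g := (g : GLn)) ha ha').1 e1
  obtain ⟨t, ht⟩ := (D1_smul_mk (g := (g : GLn)) hb hb').1 e2
  exact ⟨g, g.2, s, t, hs, ht⟩

end Cfsg.Agent.SG
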