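import Mathlib
import Cfsg.Agent.SG.Defs
import Cfsg.Agent.Cl.MxLin3

/-! The Frobenius element of the Singer normaliser and its eigenvectors. -/

set_option autoImplicit false
set_option linter.unusedVariables false

namespace Cfsg.Agent.SG

open Matrix Cfsg.Geo Module
open scoped MatrixGroups ComplexConjugate commutatorElement

variable {nn : ℕ} {F : Type*} [Field F] [Fintype F]

local notation "Mn" => Matrix (Fin nn) (Fin nn) F
local notation "SLn" => specialLinear (Fin nn) F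
local notation "Zn" => scalars (Fin nn) F
local notation "GLn" => GL (Fin nn) F
local notation "qq" => Fintype.card F

theorem Eig_sum (r k : ℕ) : ∑ i ∈ Finset.range k, (r + 1) ^ i ≡ k [MOD r] := by
  induction k with
  | zero => rfl
  | succ k ih =>
    rw [Finset.sum_range_succ]
    refine ih.add ?_
    have : r + 1 ≡ 1 [MOD r] := by simp [Nat.ModEq]
    simpa using this.pow k

theorem Eig_cop {q n m : ℕ} (hq : 2 ≤ q) (th : n * m * (q - 1) = q ^ n - 1) (cop : Nat.Coprime m n) :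
    Nat.Coprime m (n * (q - 1)) := by
  refine cop.mul_right ?_
  have h1 := Nat.geomSum_eq hq n
  rw [← th, Nat.mul_div_cancel _ (by omega)] at h1
  obtain ⟨r, rfl⟩ := Nat.exists_eq_add_of_le' (show 1 ≤ q by omega)
  rw [Nat.add_sub_cancel]
  have h2 := (Eig_sum r n).of_dvd (Nat.gcd_dvd_right m r)
  rw [h1] at h2
  exact Nat.eq_one_of_dvd_coprimes cop (Nat.gcd_dvd_left m r)
    ((h2.dvd_iff dvd_rfl).1 ((Nat.gcd_dvd_left m r).mul_left n))

theorem Eig_fld {E : Type*} [Field E] [Finite E] [Algebra F E] {n m : ℕ} (hn : 0 < n)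
    (hE : n * m * (qq - 1) = Nat.card E - 1) (cop : Nat.Coprime m (n * (qq - 1)))
    (sc : ∀ x : E, x ^ qq = x → ∃ c : F, x = algebraMap F E c) (hd : n ∣ qq - 1) :
    ∃ (y : E) (ζ : F), y ≠ 0 ∧ IsPrimitiveRoot ζ n ∧ y ^ qq = ζ • y ∧
      ∀ k : E, k ≠ 0 → ∃ i < n, ∃ s : E, ∃ c : F, s ^ m = 1 ∧ k = c • (s * y ^ i) := by
  haveI : NeZero n := ⟨hn.ne'⟩
  have hq : qq = qq - 1 + 1 := by have := Fintype.card_pos (α := F); omega
  have sc' : ∀ x : E, x ^ (qq - 1) = 1 → ∃ c : F, x = algebraMap F E c := fun x hx =>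
    sc x (by rw [hq, pow_succ, hx, one_mul])
  obtain ⟨w, hw⟩ := IsCyclic.exists_ofOrder_eq_natCard (α := Eˣ)
  have hc : Nat.card Eˣ = n * m * (qq - 1) := by rw [Nat.card_units, hE]
  have h1 : IsPrimitiveRoot (w : E) (n * m * (qq - 1)) := by
    rw [← hc, ← hw]
    exact IsPrimitiveRoot.coe_units_iff.2 (IsPrimitiveRoot.orderOf w)
  have h2 : IsPrimitiveRoot (((w : E) ^ m) ^ (qq - 1)) n := by
    rw [← pow_mul]
    exact h1.pow (hc ▸ Nat.card_pos) (by ring)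
  have y0 : (w : E) ^ m ≠ 0 := pow_ne_zero _ w.ne_zero
  generalize (w : E) ^ m = y at h2 y0
  obtain ⟨ζ, hζ⟩ := sc' _ ((h2.pow_eq_one_iff_dvd _).2 hd)
  refine ⟨y, ζ, y0, ?_, ?_, fun k hk => ?_⟩
  · rw [hζ] at h2
    exact h2.of_map_of_injective (algebraMap F E).injective
  · rw [Algebra.smul_def, ← hζ, ← pow_succ, ← hq]
  have hN : k ^ (n * m * (qq - 1)) = 1 := by
    have := pow_card_eq_one' (x := Units.mk0 k hk)
    rw [hc] at this
    exact congrArg Units.val this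
  have h3 : ∀ (a b : ℕ) (z : ℤ), a * b = n * m * (qq - 1) → ((k ^ a) ^ z) ^ b = 1 := fun a b z e => by
    rw [← zpow_natCast, ← _root_.zpow_mul, mul_comm, _root_.zpow_mul, zpow_natCast, ← pow_mul, e, hN, _root_.one_zpow]
  obtain ⟨u, v, huv⟩ := Nat.isCoprime_iff_coprime.2 cop
  have h4 : k = (k ^ m) ^ u * (k ^ (n * (qq - 1))) ^ v := by
    rw [← zpow_natCast, ← zpow_natCast, ← _root_.zpow_mul, ← _root_.zpow_mul, ← zpow_add₀ hk, mul_comm _ u, mul_comm _ v,
      huv, zpow_one]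
  have h5 := h3 m ((qq - 1) * n) u (by ring)
  have h6 := h3 (n * (qq - 1)) m v (by ring)
  generalize (k ^ m) ^ u = t at h4 h5
  generalize (k ^ (n * (qq - 1))) ^ v = s at h4 h6
  rw [pow_mul] at h5
  obtain ⟨i, hi, e⟩ := h2.eq_pow_of_pow_eq_one h5
  obtain ⟨c, hc⟩ := sc' (t / y ^ i) (by
    rw [div_pow, ← e, ← pow_mul, ← pow_mul, mul_comm, div_self (pow_ne_zero _ y0)])
  refine ⟨i, hi, s, c, h6, ?_⟩
  rw [Algebra.smul_def, ← hc, h4]
  field_simp

theorem Eig_det {A : Mn} {ζ : F} (hζ : IsPrimitiveRoot ζ nn) (ho : Odd nn) {x : ℕ → Fin nn → F}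
    (x0 : ∀ i, x i ≠ 0) (hx : ∀ i, A *ᵥ x i = ζ ^ i • x i) : A.det = 1 := by
  have li : LinearIndependent F fun i : Fin nn => x i :=
    Module.End.eigenvectors_linearIndependent' (Matrix.toLin' A) (fun i : Fin nn => ζ ^ (i : ℕ))
      (fun i j e => Fin.ext (hζ.pow_inj i.2 j.2 e)) _
      fun i => ⟨Module.End.mem_eigenspace_iff.2 (hx i), x0 i⟩
  let P : Mn := Matrix.of fun a i => x i a
  have hP : IsUnit P := Matrix.linearIndependent_cols_iff_isUnit.1 li
  have e : A * P = P * Matrix.diagonal fun i : Fin nn => ζ ^ (i : ℕ) := by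
    ext a i
    rw [Matrix.mul_diagonal, mul_comm]
    exact congrFun (hx i) a
  have h1 := congrArg Matrix.det e
  rw [Matrix.det_mul, Matrix.det_mul, Matrix.det_diagonal, mul_comm,
    Fin.prod_univ_eq_prod_range (fun i => ζ ^ i) nn, Finset.prod_pow_eq_pow_sum] at h1
  rw [((Matrix.isUnit_iff_isUnit_det P).1 hP).mul_left_cancel h1, hζ.pow_eq_one_iff_dvd]
  exact (Nat.coprime_two_right.2 ho).dvd_of_dvd_mul_right (by
    rw [Finset.sum_range_id_mul_two]; exact dvd_mul_right _ _)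

open Cfsg.Agent.Cl.Max Cfsg.Agent.Cl.Mx in
theorem Sing.eig {K : Subalgebra F Mn} {S : Subgroup GLn} {m : ℕ} (h : Sing K S m) (h3 : 3 ≤ nn)
    (hd : nn ∣ qq - 1) : ∃ g ∈ subalgebraNormalizer K ⊓ SLn, ∃ ζ : F, IsPrimitiveRoot ζ nn ∧
      ∃ x : ℕ → Fin nn → F, (∀ i, (g : Mn) *ᵥ x i = ζ ^ i • x i) ∧
        ∀ v : Fin nn → F, ∃ i < nn, ∃ s ∈ S, ∃ c : F, v = c • (s : Mn) *ᵥ x i := by
  haveI : Nonempty (Fin nn) := ⟨⟨0, by omega⟩⟩
  have hK := h.fld
  letI := (IsFieldSubalgebra.isField hK).toField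
  haveI : Finite K := Subtype.finite
  have th := h.th
  rw [Nat.gcd_eq_left hd] at th
  have m0 : m ≠ 0 := h.card ▸ Nat.card_pos.ne'
  obtain ⟨y, ζ, y0, hζ, hy, hk⟩ := Eig_fld (F := F) (E := K) (n := nn) (m := m) (by omega)
    (by rw [card_fieldSubalgebra hK, th]) (Eig_cop Fintype.one_lt_card th h.cop)
    (fun x hx => by
      obtain ⟨c, e⟩ := scalar_of_pow_card hK x.2 (congrArg Subtype.val hx)
      exact ⟨c, Subtype.ext (e.trans (Algebra.algebraMap_eq_smul_one c).symm)⟩) hd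
  have hv : (Pi.single ⟨0, by omega⟩ 1 : Fin nn → F) ≠ 0 := by simp
  generalize (Pi.single ⟨0, by omega⟩ 1 : Fin nn → F) = v0 at hv
  let L := LinearEquiv.ofBijective _ (evAt_bijective hK (by simp) hv)
  have hL : ∀ a b : K, (a : Mn) *ᵥ L b = L (a * b) := fun a b => mulVec_mulVec v0 (a : Mn) (b : Mn)
  let A : Mn := LinearMap.toMatrix'
    (L.toLinearMap ∘ₗ (FiniteField.frobeniusAlgHom F K).toLinearMap ∘ₗ L.symm.toLinearMap)
  have hA : ∀ a : K, A *ᵥ L a = L (a ^ qq) := fun a => by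
    rw [← Matrix.toLin'_apply, Matrix.toLin'_toMatrix']
    change L (L.symm (L a) ^ qq) = _
    rw [L.symm_apply_apply]
  have hx : ∀ i : ℕ, A *ᵥ L (y ^ i) = ζ ^ i • L (y ^ i) := fun i => by
    rw [hA, ← pow_mul, mul_comm, pow_mul, hy, _root_.smul_pow, map_smul]
  have hdet : A.det = 1 := Eig_det (x := fun i => L (y ^ i)) hζ (h.pr.odd_of_ne_two (by omega))
    (fun i => (map_ne_zero_iff L L.injective).2 (pow_ne_zero i y0)) hx
  refine ⟨Matrix.GeneralLinearGroup.mkOfDetNeZero A (by rw [hdet]; exact one_ne_zero),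
    ⟨mem_subalgebraNormalizer_of_maps fun k hk => ?_, Units.ext hdet⟩, ζ, hζ, fun i => L (y ^ i), hx, fun v => ?_⟩
  · rw [(cj_eq_iff _ k ((⟨k, hk⟩ : K) ^ qq : K)).2 ?_]
    · exact Subtype.property _
    · refine Matrix.ext_iff_mulVec.2 fun w => ?_
      obtain ⟨b, rfl⟩ := L.surjective w
      change (A * ((⟨k, hk⟩ : K) : Mn)) *ᵥ L b = (_ * A) *ᵥ L b
      rw [← mulVec_mulVec, ← mulVec_mulVec, hL, hA, hA, hL, mul_pow]
  · obtain ⟨b, rfl⟩ := L.surjective v
    by_cases b0 : b = 0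
    · exact ⟨0, by omega, 1, one_mem _, 0, by rw [b0, map_zero, zero_smul]⟩
    obtain ⟨i, hi, s, c, hs, e⟩ := hk b b0
    have s0 : s ≠ 0 := fun e => by simp [e, m0] at hs
    obtain ⟨u, hu⟩ := IsFieldSubalgebra.isUnit hK s.2 fun e => s0 (Subtype.ext e)
    refine ⟨i, hi, u, (h.mem u).2 ⟨hu ▸ s.2, Units.ext ?_⟩, c, ?_⟩
    · rw [Units.val_pow_eq_pow_val, hu]
      exact congrArg Subtype.val hs
    · rw [hu, hL, ← map_smul, ← e]

end Cfsg.Agent.SG
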