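/-
Overgroups of the Singer normaliser: the gap in the sizes of invariant sets.
-/
import Mathlib
import Cfsg.Agent.SG.Defs
import Cfsg.Agent.SG.Est

set_option autoImplicit false
set_option linter.unusedVariables false

namespace Cfsg.Agent.SG

open Matrix Cfsg.Geo Module
open scoped MatrixGroups ComplexConjugate commutatorElement

theorem gap_free_dvd {G Ω : Type*} [Group G] [MulAction G Ω] (U : Subgroup G) (T : Set Ω)
    (hT : ∀ u ∈ U, ∀ x ∈ T, u • x ∈ T) (hf : ∀ u ∈ U, u ≠ 1 → ∀ x : Ω, u • x ≠ x) :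
    Nat.card U ∣ T.ncard := by
  let T' : SubMulAction U Ω :=
    { carrier := T
      smul_mem' := fun u x hx => hT u u.2 x hx }
  have hst : ∀ b : T', MulAction.stabilizer U b = ⊥ := by
    intro b
    rw [Subgroup.eq_bot_iff_forall]
    intro u hu
    by_contra hne
    refine hf u u.2 (fun h1 => hne (Subtype.ext h1)) (b : Ω) ?_
    exact congrArg Subtype.val (MulAction.mem_stabilizer_iff.1 hu)
  have e := MulAction.selfEquivOrbitsQuotientProd hst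
  have h1 : T.ncard = Nat.card T' := rfl
  rw [h1, Nat.card_congr e, Nat.card_prod]
  exact Dvd.intro_left _ rfl

theorem gap_arith {m j B z f γ : ℕ} (hm : 1 < m) (hd : z * m ∣ f) (hB : B ≤ z * (m - 1))
    (hB' : 2 * j ^ 3 * B < (z * (m - 1) - B) ^ 2)
    (he : (((m : ℤ) - 1) * f - m * γ) ^ 2 ≤ 2 * j ^ 3 * γ * m ^ 2) :
    γ ≤ 2 * j ^ 3 ∨ B < γ := by
  have hm0 : (0 : ℤ) < (m : ℤ) ^ 2 := by positivity
  rcases Nat.eq_zero_or_pos f with rfl | hf
  · left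
    have h1 : (γ : ℤ) * γ * (m : ℤ) ^ 2 ≤ 2 * j ^ 3 * γ * m ^ 2 := by
      have : (((m : ℤ) - 1) * ((0 : ℕ) : ℤ) - m * γ) ^ 2 = (γ : ℤ) * γ * (m : ℤ) ^ 2 := by
        push_cast; ring
      rwa [this] at he
    have h2 : (γ : ℤ) * γ ≤ 2 * j ^ 3 * γ := le_of_mul_le_mul_right h1 hm0
    have h3 : γ * γ ≤ 2 * j ^ 3 * γ := by exact_mod_cast h2
    rcases Nat.eq_zero_or_pos γ with rfl | hγ
    · exact Nat.zero_le _
    · exact Nat.le_of_mul_le_mul_right h3 hγ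
  · right
    by_contra hlt
    have hγ : γ ≤ B := not_lt.1 hlt
    have hzf : z * m ≤ f := Nat.le_of_dvd hf hd
    obtain ⟨D, hD⟩ : ∃ D, z * (m - 1) = B + D := Nat.exists_eq_add_of_le hB
    obtain ⟨k, rfl⟩ : ∃ k, m = k + 1 := ⟨m - 1, by omega⟩
    rw [hD, Nat.add_sub_cancel_left] at hB'
    rw [Nat.add_sub_cancel] at hD
    have hD' : (z : ℤ) * k = B + D := by exact_mod_cast hD
    have hzf' : (z : ℤ) * (k + 1) ≤ f := by exact_mod_cast hzf
    have hγ' : (γ : ℤ) ≤ B := by exact_mod_cast hγ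
    have hB2 : (2 : ℤ) * j ^ 3 * B < (D : ℤ) ^ 2 := by exact_mod_cast hB'
    push_cast at he hm0
    have hk0 : (0 : ℤ) ≤ k := Int.natCast_nonneg k
    have hD0 : (0 : ℤ) ≤ D := Int.natCast_nonneg D
    have h1 : (D : ℤ) * (k + 1) ≤ ((k : ℤ) + 1 - 1) * f - (k + 1) * γ := by
      have a1 : (k : ℤ) * (z * (k + 1)) ≤ k * f := mul_le_mul_of_nonneg_left hzf' hk0
      have a2 : ((k : ℤ) + 1) * γ ≤ (k + 1) * B := mul_le_mul_of_nonneg_left hγ' (by linarith)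
      have a3 : (k : ℤ) * (z * (k + 1)) = (B + D) * (k + 1) := by rw [← hD']; ring
      nlinarith
    have h2 : ((D : ℤ) * (k + 1)) ^ 2 ≤ (((k : ℤ) + 1 - 1) * f - (k + 1) * γ) ^ 2 :=
      pow_le_pow_left₀ (by positivity) h1 2
    have h3 : (2 : ℤ) * j ^ 3 * γ * (k + 1) ^ 2 ≤ 2 * j ^ 3 * B * (k + 1) ^ 2 := by
      apply mul_le_mul_of_nonneg_right _ hm0.le
      exact mul_le_mul_of_nonneg_left hγ' (by positivity)
    have h4 : (2 : ℤ) * j ^ 3 * B * (k + 1) ^ 2 < (D : ℤ) ^ 2 * (k + 1) ^ 2 :=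
      mul_lt_mul_of_pos_right hB2 hm0
    have h5 : ((D : ℤ) * (k + 1)) ^ 2 = (D : ℤ) ^ 2 * (k + 1) ^ 2 := by ring
    linarith

theorem TZ.gap {G Ω : Type*} [Group G] [Finite G] [Finite Ω] [MulAction G Ω] {S Z : Subgroup G}
    {n m j B : ℕ} (h : TZ n m S Z) (hm : n * (j + n + 3) < m)
    (hL : Subgroup.normalClosure (S : Set G) ⊔ Z = ⊤)
    (htr : ∀ x y : Ω, ∃ l ∈ Subgroup.normalClosure (S : Set G), l • x = y)
    (hs : ∀ u ∈ S ⊔ Z, u ≠ 1 → ∀ x : Ω, u • x ≠ x) (hj : Nat.card Ω = j * m)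
    (hB : B ≤ Nat.card Z * (m - 1)) (hB' : 2 * j ^ 3 * B < (Nat.card Z * (m - 1) - B) ^ 2)
    (x : Ω) (Y : Set Ω) (hx : x ∉ Y) (hY : ∀ g : G, g • x = x → ∀ y ∈ Y, g • y ∈ Y) :
    Y.ncard ≤ 2 * j ^ 3 ∨ B < Y.ncard := by
  haveI : Nonempty Ω := ⟨x⟩
  have hm1 : 1 < m := by
    have h2 := h.pr.two_le
    have : 2 * 3 ≤ n * (j + n + 3) := Nat.mul_le_mul h2 (by omega)
    omega
  have hSZ : Disjoint S Z := by
    rw [disjoint_iff]
    exact Subgroup.inf_eq_bot_of_coprime (by rw [h.card]; exact h.cop)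
  have hs' : ∀ s ∈ S, s ≠ 1 → ∀ z ∈ Z, ∀ x : Ω, (s * z) • x ≠ x := by
    intro s hsS hs1 z hz
    refine hs _ (Subgroup.mul_mem_sup hsS hz) fun h1 => hs1 ?_
    have : s = z⁻¹ := eq_inv_of_mul_eq_one_left h1
    exact Subgroup.disjoint_def.1 hSZ hsS (this ▸ Z.inv_mem hz)
  let R : Ω → Ω → Prop := fun x' y => ∃ g : G, x' = g • x ∧ ∃ y0 ∈ Y, y = g • y0
  have hR : ∀ (g : G) x' y, R x' y → R (g • x') (g • y) := by
    rintro g x' y ⟨g', rfl, y0, hy0, rfl⟩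
    exact ⟨g * g', (mul_smul _ _ _).symm, y0, hy0, (mul_smul _ _ _).symm⟩
  have irr : ∀ x', ¬ R x' x' := by
    rintro x' ⟨g, h1, y0, hy0, h2⟩
    have : x = y0 := MulAction.injective g (h1.symm.trans h2)
    exact hx (this ▸ hy0)
  have hγ : ∀ x', {y | R x' y}.ncard = Y.ncard := by
    intro x'
    obtain ⟨l, -, rfl⟩ := htr x x'
    have : {y | R (l • x) y} = (fun y => l • y) '' Y := by
      ext y
      constructor
      · rintro ⟨g, h1, y0, hy0, rfl⟩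
        refine ⟨(l⁻¹ * g) • y0, hY _ ?_ _ hy0, ?_⟩
        · rw [mul_smul, ← h1, inv_smul_smul]
        · simp only [mul_smul, smul_inv_smul]
      · rintro ⟨y0, hy0, rfl⟩
        exact ⟨l, rfl, y0, hy0, rfl⟩
    rw [this, Set.ncard_image_of_injective _ (MulAction.injective l)]
  obtain ⟨f, hf, he⟩ := h.est hm hL htr hs' hj R hR irr hγ
  obtain ⟨s, hsS, hs1⟩ : ∃ s ∈ S, s ≠ 1 := by
    by_contra hne
    push Not at hne
    have : S = ⊥ := (Subgroup.eq_bot_iff_forall S).2 hne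
    have h1 := h.card
    rw [this, Subgroup.card_bot] at h1
    omega
  have hinv : ∀ u : G, u * s = s * u → ∀ x' ∈ {x' : Ω | R x' (s • x')},
      u • x' ∈ {x' : Ω | R x' (s • x')} := by
    intro u hu x' hx'
    have h1 := hR u _ _ hx'
    rw [← mul_smul, hu, mul_smul] at h1
    exact h1
  have d1 : m ∣ f := by
    rw [← h.card, ← hf s hsS hs1]
    exact gap_free_dvd S _ (fun u hu => hinv u (h.comm u hu s hsS))
      (fun u hu => hs u (Subgroup.mem_sup_left hu))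
  have d2 : Nat.card Z ∣ f := by
    rw [← hf s hsS hs1]
    exact gap_free_dvd Z _ (fun u hu => hinv u (h.zc u hu s))
      (fun u hu => hs u (Subgroup.mem_sup_right hu))
  exact gap_arith hm1 (h.cop.symm.mul_dvd_of_dvd_of_dvd d2 d1) hB hB' he

end Cfsg.Agent.SG
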