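import Mathlib
import Cfsg.Agent.SG.Defs
import Cfsg.Agent.SG.Gap
import Cfsg.Agent.SG.Tz
import Cfsg.Agent.SG.Num

set_option autoImplicit false
set_option linter.unusedVariables false

namespace Cfsg.Agent.SG

open Matrix Cfsg.Geo Module
open scoped MatrixGroups ComplexConjugate commutatorElement

variable {nn : ℕ} {F : Type*} [Field F] [Fintype F]

local notation "Mn" => Matrix (Fin nn) (Fin nn) F
local notation "SLn" => specialLinear (Fin nn) F
local notation "Zn" => scalars (Fin nn) F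
local notation "GLn" => GL (Fin nn) F
local notation "qq" => Fintype.card F

/-- The orbit of `x` under `H`. -/
abbrev GapVOm (H : Subgroup GLn) (x : Fin nn → F) : Type _ := {w : Fin nn → F // ∃ g ∈ H, (g : Mn) *ᵥ x = w}

/-- The action of `H` on the orbit. -/
instance GapVAct (H : Subgroup GLn) (x : Fin nn → F) : MulAction H (GapVOm H x) where
  smul g w := ⟨((g : GLn) : Mn) *ᵥ w.1, by
    obtain ⟨a, ha, e⟩ := w.2
    exact ⟨g * a, mul_mem g.2 ha, by rw [Units.val_mul, ← mulVec_mulVec, e]⟩⟩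
  one_smul w := Subtype.ext (one_mulVec _)
  mul_smul a b w := Subtype.ext (mulVec_mulVec w.1 ((a : GLn) : Mn) ((b : GLn) : Mn)).symm

omit [Fintype F] in
theorem GapV_smul {H : Subgroup GLn} {x : Fin nn → F} (g : H) (w : GapVOm H x) :
    (g • w).1 = ((g : GLn) : Mn) *ᵥ w.1 := rfl

theorem GapV_dvd {G Ω : Type*} [Group G] [MulAction G Ω] (S : Subgroup G)
    (h : ∀ s ∈ S, s ≠ 1 → ∀ x : Ω, s • x ≠ x) : Nat.card S ∣ Nat.card Ω := by
  rw [Nat.card_congr (MulAction.selfEquivOrbitsQuotientProd (G := S) (X := Ω) fun b => eq_bot_iff.2 fun s hs =>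
    by_contra fun k => h s s.2 (fun e => k (Subtype.ext e)) b hs), Nat.card_prod]
  exact dvd_mul_left _ _

theorem Sit.gapV {K : Subalgebra F Mn} {S H : Subgroup GLn} {m : ℕ} (h : Sit K S H m) (hd : nn ∣ qq - 1)
    {x : Fin nn → F} (hx : x ≠ 0) (hl : LTr H S x) (Y : Set (Fin nn → F))
    (h1 : ∀ y ∈ Y, ∃ g ∈ H, (g : Mn) *ᵥ x = y) (h2 : x ∉ Y)
    (h3 : ∀ g ∈ H, (g : Mn) *ᵥ x = x → ∀ y ∈ Y, (g : Mn) *ᵥ y ∈ Y) :
    Y.ncard ≤ 2 * (nn * qq) ^ 3 ∨ qq ^ (nn - 1) ≤ Y.ncard := by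
  have fin : Finite (GapVOm H x) := Subtype.finite
  have q1 : 1 < qq := Fintype.one_lt_card
  have nq : nn < qq := by
    have := Nat.le_of_dvd (by omega) hd
    omega
  have g1 : Nat.gcd nn (qq - 1) = nn := Nat.gcd_eq_left hd
  have th := h.sing.th
  rw [g1] at th
  have m1 : 1 < m := by
    have k := (num_gap h.big nq th (Nat.zero_le _)).1
    have := h.big
    nlinarith
  obtain ⟨tz, cz, -⟩ := h.sing.tz m1 h.nle h.le
  rw [g1] at cz
  have SH : S ≤ H := (le_sup_left.trans h.sing.le).trans h.nle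
  obtain ⟨n1, n2⟩ := ncl_subgroupOf SH
  have nz : ∀ w : GapVOm H x, w.1 ≠ 0 := fun ⟨w, g, _, e⟩ e0 => hx (by
    have k : ((g⁻¹ : GLn) : Mn) *ᵥ ((g : Mn) *ᵥ x) = x := by rw [mulVec_mulVec, Units.inv_mul, one_mulVec]
    rw [← k, e, show w = 0 from e0, mulVec_zero])
  have hs : ∀ u ∈ S.subgroupOf H ⊔ (Zn ⊓ SLn).subgroupOf H, u ≠ 1 → ∀ w : GapVOm H x, u • w ≠ w :=
    fun u hu u1 w e => h.sing.semireg.1 u
      ((sup_le (Subgroup.comap_mono le_sup_left) (Subgroup.comap_mono le_sup_right) :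
        _ ≤ (S ⊔ (Zn ⊓ SLn)).subgroupOf H) hu)
      (fun k => u1 (Subtype.ext k)) w.1 (nz w) ((GapV_smul u w).symm.trans (congrArg Subtype.val e))
  obtain ⟨j, hj⟩ := GapV_dvd (Ω := GapVOm H x) (S.subgroupOf H) fun s k => hs s (Subgroup.mem_sup_left k)
  rw [tz.card, mul_comm] at hj
  have jn : j ≤ nn * qq := by
    have k : Nat.card (GapVOm H x) ≤ Nat.card (Fin nn → F) := Nat.card_le_card_of_injective _ Subtype.val_injective
    rw [hj, Nat.card_fun, Nat.card_eq_fintype_card (α := Fin nn), Fintype.card_fin, Nat.card_eq_fintype_card] at k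
    have k1 : qq ^ nn ≤ nn * qq * m := by
      obtain ⟨r, hr⟩ : ∃ r, qq = r + 1 := ⟨qq - 1, by omega⟩
      have k2 : 0 < qq ^ nn := by positivity
      have k3 : 0 < nn * m := Nat.mul_pos h.sing.pr.pos (by omega)
      have k4 : nn * qq * m = nn * m * (qq - 1) + nn * m := by rw [hr, Nat.add_sub_cancel]; ring
      omega
    exact Nat.le_of_mul_le_mul_right (k.trans k1) (by omega)
  obtain ⟨a1, a2, a3⟩ := num_gap h.big nq th jn
  have k := tz.gap (Ω := GapVOm H x) (B := qq ^ (nn - 1) - 1) a1 h.top.1 (fun ⟨w, g, hg, e⟩ ⟨w', g', hg', e'⟩ => by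
      obtain ⟨l, l1, l2⟩ := hl g hg
      obtain ⟨l', l3, l4⟩ := hl g' hg'
      have k := mul_mem l3 (inv_mem l1)
      refine ⟨⟨_, n1 k⟩, n2 ▸ k, Subtype.ext ?_⟩
      rw [GapV_smul]
      dsimp only
      rw [← e, ← l2, mulVec_mulVec, ← Units.val_mul, inv_mul_cancel_right, l4, e']) hs hj
    (by rwa [cz]) (by rwa [cz]) ⟨x, 1, one_mem _, one_mulVec x⟩ {w | w.1 ∈ Y} h2
    fun g e y hy => h3 g g.2 ((GapV_smul g _).symm.trans (congrArg Subtype.val e)) y.1 hy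
  have e : Y.ncard = {w : GapVOm H x | w.1 ∈ Y}.ncard := by
    rw [← Set.ncard_image_of_injective _ Subtype.val_injective]
    exact congrArg _ (Set.ext fun y => ⟨fun hy => ⟨⟨y, h1 y hy⟩, hy, rfl⟩, fun ⟨w, hw, e⟩ => e ▸ hw⟩)
  rw [← e] at k
  refine k.imp (fun k => k.trans (Nat.mul_le_mul_left _ (Nat.pow_le_pow_left jn _))) fun k => ?_
  omega

end Cfsg.Agent.SG
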