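import Mathlib
import Cfsg.Agent.SG.KDefs
import Cfsg.Agent.Cl.LinearBasic

set_option autoImplicit false
set_option linter.unusedSectionVars false

namespace Cfsg.Agent.SG

open Matrix Cfsg.Geo Cfsg.Agent.Cl.D5 Module
open scoped MatrixGroups ComplexConjugate commutatorElement

variable {nn : ℕ} {F : Type*} [Field F] [Fintype F]

local notation "Mn" => Matrix (Fin nn) (Fin nn) F
local notation "SLn" => specialLinear (Fin nn) F
local notation "Zn" => scalars (Fin nn) F
local notation "GLn" => GL (Fin nn) F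

/-- An additive subgroup of the plane meeting all points in the same nontrivial way is the plane. -/
theorem all_plane (B : AddSubgroup (F × F)) {u0 : F × F} (h0 : u0 ≠ 0) {c0 : F} (hc : c0 ≠ 0) (h1 : c0 • u0 ∈ B)
    (hm : ∀ u u' : F × F, u ≠ 0 → u' ≠ 0 → ∃ s : F, s ≠ 0 ∧ ∀ c : F, c • u ∈ B → (c * s) • u' ∈ B) : B = ⊤ := by
  classical
  let r : F × F → F → Prop := fun u c => c • u ∈ B
  let m : F × F → ℕ := fun u => ((Finset.univ.erase (0 : F)).bipartiteAbove r u).card
  have mle : ∀ u u' : F × F, u ≠ 0 → u' ≠ 0 → m u ≤ m u' := fun u u' hu hu' => by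
    obtain ⟨s, hs, k⟩ := hm u u' hu hu'
    refine Finset.card_le_card_of_injOn (· * s) (fun c hc => ?_) (mul_left_injective₀ hs).injOn
    simp only [Finset.mem_coe, Finset.mem_bipartiteAbove, Finset.mem_erase, Finset.mem_univ, and_true] at hc ⊢
    exact ⟨mul_ne_zero hc.1 hs, k c hc.2⟩
  have m0 : 0 < m u0 := Finset.card_pos.2 ⟨c0, by simpa [Finset.mem_bipartiteAbove, r, hc] using h1⟩
  have hB : 0 < Nat.card B := Nat.card_pos
  have cnt := Finset.card_mul_eq_card_mul (s := Finset.univ.erase (0 : F × F)) (t := Finset.univ.erase (0 : F)) r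
    (m := m u0) (n := Nat.card B - 1)
    (fun u hu => le_antisymm (mle u u0 (Finset.ne_of_mem_erase hu) h0) (mle u0 u h0 (Finset.ne_of_mem_erase hu)))
    fun c hc => by
      have c0 := Finset.ne_of_mem_erase hc
      have e : Nat.card B = (Finset.univ.filter (· ∈ B)).card := by
        rw [Nat.card_eq_fintype_card, Fintype.card_subtype]
      rw [e, ← Finset.card_erase_of_mem (a := 0) (by simp)]
      refine Finset.card_bij (fun u _ => c • u) (fun u hu => ?_)
        (fun u _ u' _ k => smul_right_injective _ c0 k) fun w hw => ⟨c⁻¹ • w, ?_, smul_inv_smul₀ c0 w⟩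
      · simp only [Finset.mem_bipartiteBelow, Finset.mem_erase, Finset.mem_univ, and_true, Finset.mem_filter,
          true_and] at hu ⊢
        exact ⟨smul_ne_zero c0 hu.1, hu.2⟩
      · simp only [Finset.mem_bipartiteBelow, Finset.mem_erase, Finset.mem_univ, and_true, Finset.mem_filter,
          true_and] at hw ⊢
        exact ⟨smul_ne_zero (inv_ne_zero c0) hw.1, by simpa [r, smul_inv_smul₀ c0] using hw.2⟩
  rw [Finset.card_erase_of_mem (Finset.mem_univ _), Finset.card_erase_of_mem (Finset.mem_univ _), Finset.card_univ,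
    Finset.card_univ, Fintype.card_prod] at cnt
  obtain ⟨p, hp, f, pp, hq⟩ := FiniteField.card' F
  have dv : Nat.card B ∣ p ^ (2 * (f : ℕ)) := by
    have := B.card_addSubgroup_dvd_card
    rwa [Nat.card_eq_fintype_card (α := F × F), Fintype.card_prod, hq, ← pow_add, ← two_mul] at this
  obtain ⟨j, -, hj⟩ := (Nat.dvd_prime_pow pp).1 dv
  have q2 : 1 < Fintype.card F := Fintype.one_lt_card
  refine AddSubgroup.eq_top_of_le_card B ?_
  rw [Nat.card_eq_fintype_card (α := F × F), Fintype.card_prod]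
  obtain ⟨n, hn⟩ : ∃ n, Fintype.card F = n + 1 := ⟨Fintype.card F - 1, by omega⟩
  obtain ⟨b, hb⟩ : ∃ b, Nat.card B = b + 1 := ⟨Nat.card B - 1, by omega⟩
  have e1 : b = (n + 2) * m u0 := by
    rw [hn, hb, show (n + 1) * (n + 1) - 1 = n * (n + 2) by
      rw [show (n + 1) * (n + 1) = n * (n + 2) + 1 by ring]; rfl, Nat.add_sub_cancel, Nat.add_sub_cancel,
      mul_assoc] at cnt
    exact (Nat.eq_of_mul_eq_mul_left (by omega) cnt).symm
  have e2 : n + 1 ∣ b + 1 := by
    rw [← hn, ← hb, hq, hj]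
    refine pow_dvd_pow _ ((Nat.pow_le_pow_iff_right pp.one_lt).1 ?_)
    rw [← hq, ← hj, hn, hb, e1]
    nlinarith
  have e3 : n + 1 ∣ m u0 + 1 := by
    rw [e1, show (n + 2) * m u0 + 1 = (n + 1) * m u0 + (m u0 + 1) by ring] at e2
    exact (Nat.dvd_add_right (dvd_mul_right _ _)).1 e2
  have e4 := Nat.le_of_dvd (by omega) e3
  rw [hn, hb, e1]
  nlinarith

theorem all_move {G : Subgroup GLn} (h : Flag G) {η u u' : Fin nn → F} (hη : η ≠ 0) (hu : u ≠ 0) (hu' : u' ≠ 0)
    (e : η ⬝ᵥ u = 0) (e' : η ⬝ᵥ u' = 0) : ∃ s : F, s ≠ 0 ∧ ∀ c : F, MT G (c • u) η → MT G ((c * s) • u') η := by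
  obtain ⟨g, hg, k1, s, k2⟩ := h.on η u u' hη hu hu' e e'
  refine ⟨s, fun s0 => hu (Cl.Max.mulVec_injective g (by simp [k2, s0])), fun c k => ?_⟩
  have := k.conj hg
  rwa [mulVec_smul, k2, smul_smul, ← k1, vecMul_vecMul, Units.mul_inv, vecMul_one, ← k1, k1] at this

theorem all_tv (hn : 3 ≤ nn) {G : Subgroup GLn} (h : Flag G) {v η : Fin nn → F} (hv : v ≠ 0) (hη : η ≠ 0) (ht : MT G v η)
    {i j : Fin nn} (hij : i ≠ j) (c : F) : MT G (c • Pi.single i 1) (Pi.single j 1) := by
  have hζ : (Pi.single j 1 : Fin nn → F) ≠ 0 := by simp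
  obtain ⟨g, hg, e⟩ := h.dual η _ hη hζ
  have t1 := ht.conj (G.inv_mem hg)
  rw [inv_inv, e] at t1
  have hv' : ((g⁻¹ : GLn) : Mn) *ᵥ v ≠ 0 := fun k => hv (Cl.Max.mulVec_injective g⁻¹ (by simpa using k))
  obtain ⟨l, l1, l2⟩ := Fin.exists_ne_and_ne_of_two_lt i j hn
  let φ : F × F → Fin nn → F := fun u => u.1 • Pi.single i 1 + u.2 • Pi.single l 1
  have φs : ∀ (c : F) u, φ (c • u) = c • φ u := fun c u => by simp [φ, smul_smul]
  have φ0 : ∀ u, u ≠ 0 → φ u ≠ 0 := fun u hu k => hu (Prod.ext (by simpa [φ, l1, l1.symm] using congrFun k i)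
    (by simpa [φ, l1, l1.symm] using congrFun k l))
  have φj : ∀ u, Pi.single j 1 ⬝ᵥ φ u = 0 := fun u => by simp [φ, hij.symm, l2.symm]
  let B : AddSubgroup (F × F) :=
    { carrier := {u | MT G (φ u) (Pi.single j 1)}
      zero_mem' := by simpa [φ] using MT.zero_left G _
      add_mem' := fun {a b} ha hb => by
        have e : φ (a + b) = φ a + φ b := by
          simp only [φ, Prod.fst_add, Prod.snd_add]
          module
        exact show MT G (φ (a + b)) _ from e ▸ MT.add_left ha hb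
      neg_mem' := fun {a} ha => by
        have := (MT.smul_iff (-1 : F)).2 (by simpa using MT.neg ha)
        rwa [← φs, neg_one_smul] at this }
  have n1 : ((1, 0) : F × F) ≠ 0 := by simp
  obtain ⟨s, s0, k⟩ := all_move h hζ hv' (φ0 _ n1) t1.1 (φj _)
  have hB : B = ⊤ := all_plane B n1 (c0 := 1 * s) (by simpa using s0)
    (show MT G (φ _) _ by rw [φs]; exact k 1 (by rwa [one_smul])) fun u u' hu hu' => by
      obtain ⟨s, s0, k⟩ := all_move h hζ (φ0 _ hu) (φ0 _ hu') (φj _) (φj _)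
      exact ⟨s, s0, fun c hc => show MT G (φ _) _ by rw [φs]; exact k c (φs c u ▸ hc)⟩
  have : ((c, 0) : F × F) ∈ B := hB ▸ AddSubgroup.mem_top _
  simpa [φ] using (show MT G (φ (c, 0)) _ from this)

theorem Flag.sl_le {G : Subgroup GLn} (h : Flag G) (hn : 3 ≤ nn) {v η : Fin nn → F} (hv : v ≠ 0) (hη : η ≠ 0)
    (ht : MT G v η) : SLn ≤ G := by
  have key : G.comap (SpecialLinearGroup.toGL : SL(nn, F) →* GLn) = ⊤ := by
    rw [eq_top_iff, ← Cl.sl_closure_transvections, Subgroup.closure_le]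
    rintro _ ⟨i, j, hij, c, rfl⟩
    obtain ⟨-, g, hg, e⟩ := all_tv hn h hv hη ht hij c
    have : SpecialLinearGroup.toGL (SpecialLinearGroup.transvection hij c) = g := by
      ext a b
      have := congrFun (e (Pi.single b 1)) a
      rw [mulVec_single_one] at this
      change (transvection i j c) a b = (g : Mn) a b
      rw [show (g : Mn) a b = _ from this]
      simp [transvection, one_apply, Matrix.single_apply, Pi.single_apply, eq_comm]
      split_ifs <;> simp_all
    exact SetLike.mem_coe.2 (Subgroup.mem_comap.2 (this ▸ hg))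
  intro g hg
  have hd : (g : Mn).det = 1 := by
    rw [← GeneralLinearGroup.val_det_apply, MonoidHom.mem_ker.1 hg, Units.val_one]
  obtain ⟨A, e⟩ : ∃ A : SL(nn, F), SpecialLinearGroup.toGL A = g := ⟨⟨g, hd⟩, Units.ext rfl⟩
  have : A ∈ G.comap (SpecialLinearGroup.toGL : SL(nn, F) →* GLn) := key ▸ Subgroup.mem_top _
  exact e ▸ Subgroup.mem_comap.1 this

end Cfsg.Agent.SG
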