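import Mathlib
import Cfsg.Agent.SG.KDefs

set_option autoImplicit false
set_option linter.unusedSectionVars false

namespace Cfsg.Agent.SG

open Matrix Cfsg.Geo Cfsg.Agent.Cl.D5 Module
open scoped MatrixGroups ComplexConjugate commutatorElement

variable {nn : ℕ} {F : Type*} [Field F] [Fintype F]

local notation "Mn" => Matrix (Fin nn) (Fin nn) F
local notation "SLn" => specialLinear (Fin nn) F
local notation "Zn" => scalars (Fin nn) F
local notation "GLn" => GL (Fin nn) F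

variable {G : Subgroup (GL (Fin nn) F)} {a b x y a' b' : Fin nn → F} {g : GL (Fin nn) F}

theorem WB_left (a b : Fin nn → F) : a ∈ sp a b := Submodule.subset_span (by simp)

theorem WB_right (a b : Fin nn → F) : b ∈ sp a b := Submodule.subset_span (by simp)

theorem WB_inv (g : GLn) (x : Fin nn → F) : ((g⁻¹ : GLn) : Mn) *ᵥ ((g : Mn) *ᵥ x) = x := by
  rw [mulVec_mulVec, Units.inv_mul, one_mulVec]

theorem WB_inj (g : GLn) : Function.Injective fun x : Fin nn → F => (g : Mn) *ᵥ x :=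
  Function.LeftInverse.injective (WB_inv g)

theorem WB_fix (hg : g ∈ fix2 G a b) (hx : x ∈ sp a b) : (g : Mn) *ᵥ x = x := by
  obtain ⟨s, t, rfl⟩ := Submodule.mem_span_pair.1 hx
  rw [mulVec_add, mulVec_smul, mulVec_smul, hg.2.1, hg.2.2]

theorem WB_conj {k : GLn} (hg : g ∈ G) (hk : k ∈ fix2 G a b) :
    g * k * g⁻¹ ∈ fix2 G ((g : Mn) *ᵥ a) ((g : Mn) *ᵥ b) :=
  ⟨G.mul_mem (G.mul_mem hg hk.1) (G.inv_mem hg),
    by rw [Units.val_mul, Units.val_mul, ← mulVec_mulVec, WB_inv, ← mulVec_mulVec, hk.2.1],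
    by rw [Units.val_mul, Units.val_mul, ← mulVec_mulVec, WB_inv, ← mulVec_mulVec, hk.2.2]⟩

theorem WB_pull {η : Fin nn → F} (hg : g ∈ G) (h : Sp G ((g : Mn) *ᵥ a) ((g : Mn) *ᵥ b) η) :
    Sp G a b (η ᵥ* (g : Mn)) := by
  refine ⟨fun e => h.1 ?_, by rw [← dotProduct_mulVec, h.2.1], by rw [← dotProduct_mulVec, h.2.2.1],
    fun x y hx hy => ?_⟩
  · have := congrArg (· ᵥ* ((g⁻¹ : GLn) : Mn)) e
    simpa only [vecMul_vecMul, Units.mul_inv, vecMul_one, zero_vecMul] using this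
  · obtain ⟨k, h1, h2⟩ := h.2.2.2 _ _ ((dotProduct_mulVec _ _ _).trans hx) ((dotProduct_mulVec _ _ _).trans hy)
    have h3 := WB_conj (G.inv_mem hg) h1
    rw [WB_inv, WB_inv, inv_inv] at h3
    exact ⟨_, h3, by rw [Units.val_mul, Units.val_mul, ← mulVec_mulVec, ← mulVec_mulVec, h2, WB_inv]⟩

theorem fix2_congr (h : sp a b = sp a' b') : fix2 G a b = fix2 G a' b' := by
  exact le_antisymm (fun g hg => ⟨hg.1, WB_fix hg (h.ge (WB_left _ _)), WB_fix hg (h.ge (WB_right _ _))⟩)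
    fun g hg => ⟨hg.1, WB_fix hg (h.le (WB_left _ _)), WB_fix hg (h.le (WB_right _ _))⟩

theorem W_congr (h : sp a b = sp a' b') : W G a b = W G a' b' := by
  have key : ∀ {a b a' b' : Fin nn → F}, sp a b = sp a' b' → W G a b ≤ W G a' b' := fun {a b a' b'} h x hx η hη => by
    have k : ∀ v ∈ sp a' b', η ⬝ᵥ v = 0 := fun v hv => by
      obtain ⟨s, t, rfl⟩ := Submodule.mem_span_pair.1 hv
      rw [dotProduct_add, dotProduct_smul, dotProduct_smul, hη.2.1, hη.2.2.1, smul_zero, smul_zero, add_zero]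
    exact hx η ⟨hη.1, k _ (h.le (WB_left _ _)), k _ (h.le (WB_right _ _)), fix2_congr (G := G) h ▸ hη.2.2.2⟩
  exact le_antisymm (key h) (key h.symm)

theorem sp_le_W : sp a b ≤ W G a b := by
  refine Submodule.span_le.2 ?_
  rintro x (rfl | rfl)
  exacts [fun _ h => h.2.1, fun _ h => h.2.2.1]

theorem smul_mem_W (hg : g ∈ G) :
    (g : Mn) *ᵥ x ∈ W G ((g : Mn) *ᵥ a) ((g : Mn) *ᵥ b) ↔ x ∈ W G a b := by
  have key : ∀ {g : GLn} {a b x : Fin nn → F}, g ∈ G → x ∈ W G a b →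
      (g : Mn) *ᵥ x ∈ W G ((g : Mn) *ᵥ a) ((g : Mn) *ᵥ b) := fun hg h η hη =>
    (dotProduct_mulVec _ _ _).trans (h _ (WB_pull hg hη))
  exact ⟨fun h => by simpa only [WB_inv] using key (G.inv_mem hg) h, key hg⟩

theorem Ind2.mulVec (i : Ind2 a b) (g : GLn) : Ind2 ((g : Mn) *ᵥ a) ((g : Mn) *ᵥ b) := by
  refine fun s t e => i s t (WB_inj g ?_)
  simp only [mulVec_add, mulVec_smul, e, mulVec_zero]

theorem Ind2.finrank (i : Ind2 a b) : finrank F (sp a b) = 2 := by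
  have := finrank_span_eq_card (LinearIndependent.pair_iff.2 i)
  rwa [Matrix.range_cons_cons_empty] at this

theorem CK.good_symm (h : CK G) :
    ((Ind2 a b ∧ x ∉ W G a b) ↔ (Ind2 b a ∧ x ∉ W G b a)) ∧
    ((Ind2 a b ∧ x ∉ W G a b) ↔ (Ind2 a x ∧ b ∉ W G a x)) := by
  have k1 : ∀ a b : Fin nn → F, Ind2 a b ∧ x ∉ W G a b → Ind2 b a ∧ x ∉ W G b a := fun a b k =>
    ⟨fun s t e => (k.1 t s (by rwa [add_comm])).symm,
      W_congr (G := G) (show sp a b = sp b a by rw [sp, Set.pair_comm]) ▸ k.2⟩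
  have k2 : ∀ b x : Fin nn → F, Ind2 a b ∧ x ∉ W G a b → Ind2 a x ∧ b ∉ W G a x := fun b x k => by
    have hx : x ∉ sp a b := fun e => k.2 (sp_le_W e)
    have i3 : ∀ r s t : F, r • a + s • b + t • x = 0 → r = 0 ∧ s = 0 ∧ t = 0 := fun r s t e => by
      obtain rfl : t = 0 := by
        by_contra ht
        refine hx ((Submodule.smul_mem_iff _ ht).1 ?_)
        rw [← neg_eq_of_add_eq_zero_right e]
        exact neg_mem (Submodule.mem_span_pair.2 ⟨r, s, rfl⟩)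
      rw [zero_smul, add_zero] at e
      exact ⟨(k.1 r s e).1, (k.1 r s e).2, rfl⟩
    have i : Ind2 a x := fun r t e => by
      have := i3 r 0 t (by rwa [zero_smul, add_zero])
      exact ⟨this.1, this.2.2⟩
    have hb : b ∉ sp a x := fun e => by
      obtain ⟨r, t, e⟩ := Submodule.mem_span_pair.1 e
      have := i3 r (-1) t (by rw [add_right_comm, e, neg_one_smul, add_neg_cancel])
      exact neg_ne_zero.2 one_ne_zero this.2.1
    refine ⟨i, fun e => k.2 ?_⟩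
    obtain ⟨g, g0, g1, g2, g3⟩ := h.tr a x b i hb x (WB_right _ _)
    obtain ⟨l, l0, l1, l2, l3⟩ := h.tr a b x k.1 hx b (WB_right _ _)
    rw [← smul_mem_W l0, l1, l2, l3, add_comm] at e
    rw [← smul_mem_W g0, g1, g2, g3]
    exact (Submodule.add_mem_iff_right _ e).1 (sp_le_W (WB_right _ _))
  exact ⟨⟨k1 a b, k1 b a⟩, k2 b x, k2 x b⟩

theorem CK.WB_two (h : CK G) (i : Ind2 a b) (i' : Ind2 a' b') :
    ∃ g ∈ G, sp ((g : Mn) *ᵥ a) ((g : Mn) *ᵥ b) = sp a' b' := by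
  obtain ⟨g, hg, s, t, e1, e2⟩ := h.two a b a' b' i i'
  refine ⟨g, hg, Submodule.eq_of_le_of_finrank_eq (Submodule.span_le.2 ?_) ((i.mulVec g).finrank.trans i'.finrank.symm)⟩
  rintro x (rfl | rfl)
  exacts [e1 ▸ Submodule.smul_mem _ s (WB_left _ _), e2 ▸ Submodule.smul_mem _ t (WB_right _ _)]

theorem CK.finrank_W (h : CK G) (i : Ind2 a b) (i' : Ind2 a' b') :
    finrank F (W G a b) = finrank F (W G a' b') := by
  have key : ∀ {a b a' b' : Fin nn → F}, Ind2 a b → Ind2 a' b' → finrank F (W G a b) ≤ finrank F (W G a' b') :=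
    fun i i' => by
      obtain ⟨g, hg, e⟩ := h.WB_two i i'
      rw [← W_congr e]
      exact LinearMap.finrank_le_finrank_of_injective
        (f := (Matrix.mulVecLin (g : Mn)).restrict fun x hx => (smul_mem_W hg).2 hx)
        fun x y k => Subtype.ext (WB_inj g (congrArg Subtype.val k))
  exact le_antisymm (key i i') (key i' i)

theorem CK.card_fix2 (h : CK G) (i : Ind2 a b) (i' : Ind2 a' b') :
    Nat.card (fix2 G a b) = Nat.card (fix2 G a' b') := by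
  have key : ∀ {a b a' b' : Fin nn → F}, Ind2 a b → Ind2 a' b' → Nat.card (fix2 G a b) ≤ Nat.card (fix2 G a' b') :=
    fun i i' => by
      obtain ⟨g, hg, e⟩ := h.WB_two i i'
      rw [← fix2_congr e]
      exact Nat.card_le_card_of_injective (fun k => ⟨_, WB_conj hg k.2⟩)
        fun x y k => Subtype.ext (mul_left_cancel (mul_right_cancel (congrArg Subtype.val k)))
  exact le_antisymm (key i i') (key i' i)

theorem trans_W (h : finrank F (W G a b) + 2 ≤ nn) (hx : x ∉ W G a b) (hy : y ∉ W G a b) :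
    ∃ g ∈ fix2 G a b, (g : Mn) *ᵥ x = y := by
  have k1 : ∀ {η x y : Fin nn → F}, Sp G a b η → η ⬝ᵥ x ≠ 0 → η ⬝ᵥ y = η ⬝ᵥ x →
      ∃ g ∈ fix2 G a b, (g : Mn) *ᵥ x = y := fun {η x y} h1 h2 h3 => by
    obtain ⟨g, hg, e⟩ := h1.2.2.2 ((η ⬝ᵥ x)⁻¹ • x) ((η ⬝ᵥ x)⁻¹ • y)
      (by rw [dotProduct_smul, smul_eq_mul, inv_mul_cancel₀ h2])
      (by rw [dotProduct_smul, smul_eq_mul, h3, inv_mul_cancel₀ h2])
    rw [mulVec_smul] at e
    exact ⟨g, hg, smul_right_injective _ (inv_ne_zero h2) e⟩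
  have k2 : ∀ {η ζ v x y : Fin nn → F}, Sp G a b η → Sp G a b ζ → η ⬝ᵥ v = 0 → ζ ⬝ᵥ v ≠ 0 → η ⬝ᵥ x ≠ 0 → ζ ⬝ᵥ y ≠ 0 →
      ∃ g ∈ fix2 G a b, (g : Mn) *ᵥ x = y := fun {η ζ v x y} h1 h2 h3 h4 h5 h6 => by
    have e : ζ ⬝ᵥ (x + ((ζ ⬝ᵥ y - ζ ⬝ᵥ x) / (ζ ⬝ᵥ v)) • v) = ζ ⬝ᵥ y := by
      rw [dotProduct_add, dotProduct_smul, smul_eq_mul, div_mul_cancel₀ _ h4, add_sub_cancel]
    obtain ⟨g, hg, e1⟩ := k1 (y := x + ((ζ ⬝ᵥ y - ζ ⬝ᵥ x) / (ζ ⬝ᵥ v)) • v) h1 h5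
      (by rw [dotProduct_add, dotProduct_smul, h3, smul_zero, add_zero])
    obtain ⟨k, hk, e2⟩ := k1 h2 (e.trans_ne h6) e.symm
    exact ⟨k * g, mul_mem hk hg, by rw [Units.val_mul, ← mulVec_mulVec, e1, e2]⟩
  obtain ⟨η, h1, h2⟩ : ∃ η, Sp G a b η ∧ η ⬝ᵥ x ≠ 0 := by
    by_contra! k
    exact hx k
  obtain ⟨ζ, h3, h4⟩ : ∃ η, Sp G a b η ∧ η ⬝ᵥ y ≠ 0 := by
    by_contra! k
    exact hy k
  obtain ⟨θ, v, h5, h6, h7⟩ : ∃ θ v, Sp G a b θ ∧ η ⬝ᵥ v = 0 ∧ θ ⬝ᵥ v ≠ 0 := by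
    by_contra! k
    have e1 := Submodule.finrank_mono (show LinearMap.ker (dotProductBilin F F η) ≤ W G a b from
      fun v hv θ hθ => k θ v hθ hv)
    have e2 := LinearMap.finrank_range_add_finrank_ker (dotProductBilin F F η)
    have e3 := (Submodule.finrank_le (LinearMap.range (dotProductBilin F F η))).trans (finrank_self F).le
    rw [Module.finrank_fin_fun] at e2
    omega
  by_cases h8 : ζ ⬝ᵥ v = 0
  · obtain ⟨g, hg, e1⟩ := k2 h1 h5 h6 h7 h2 h7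
    obtain ⟨k, hk, e2⟩ := k2 h3 h5 h8 h7 h4 h7
    exact ⟨k⁻¹ * g, mul_mem (inv_mem hk) hg, by rw [Units.val_mul, ← mulVec_mulVec, e1, ← e2, WB_inv]⟩
  · exact k2 h1 h3 h6 h8 h2 h4

end Cfsg.Agent.SG
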