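import Mathlib
import Cfsg.Agent.SG.KDefs
import Cfsg.Agent.SG.KWB
import Cfsg.Agent.NT.Zsigmondy
import Cfsg.Agent.Loc.MssSyl

/-! Sylow subgroups for a primitive prime divisor in the stabiliser of two vectors. -/

set_option autoImplicit false

namespace Cfsg.Agent.SG

open Matrix Cfsg.Geo Cfsg.Agent.Cl.D5 Module
open scoped MatrixGroups ComplexConjugate commutatorElement

variable {nn : ℕ} {F : Type*} [Field F] [Fintype F]

local notation "Mn" => Matrix (Fin nn) (Fin nn) F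
local notation "SLn" => specialLinear (Fin nn) F
local notation "Zn" => scalars (Fin nn) F
local notation "GLn" => GL (Fin nn) F

theorem exists_ppd {c : ℕ} (h3 : 3 ≤ c) (h6 : ¬ (Fintype.card F = 2 ∧ c = 6)) :
    ∃ l : ℕ, l.Prime ∧ orderOf (Fintype.card F : ZMod l) = c :=
  NT.zsigmondy_orderOf Fintype.one_lt_card (by omega) h6 (by omega)

theorem exists_syl (l : ℕ) (hl : l.Prime) (H : Subgroup GLn) : ∃ X, Syl l X H := by
  have : Fact l.Prime := ⟨hl⟩
  classical
  obtain ⟨X, h⟩ := Loc.Mss.Syl.exists l H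
  exact ⟨X, h.le, h.pg, h.nd⟩

theorem Syl.conj {l : ℕ} (hl : l.Prime) {X Y H : Subgroup GLn} (h1 : Syl l X H) (h2 : Syl l Y H) :
    ∃ g ∈ H, ∀ a, a ∈ Y ↔ g * a * g⁻¹ ∈ X := by
  have : Fact l.Prime := ⟨hl⟩
  classical
  obtain ⟨g, hg, e⟩ := Loc.Mss.Syl.conj_eq (⟨h1.le, h1.pg, h1.nd⟩ : Loc.Mss.Syl l X H)
    (⟨h2.le, h2.pg, h2.nd⟩ : Loc.Mss.Syl l Y H)
  refine ⟨g⁻¹, inv_mem hg, fun a => ?_⟩
  rw [← e, Loc.Mss.mem_cj, inv_inv]

theorem PP_card (A : Submodule F (Fin nn → F)) : Nat.card A = Fintype.card F ^ finrank F A := by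
  rw [Module.natCard_eq_pow_finrank (K := F), Nat.card_eq_fintype_card]

omit [Field F] in
theorem PP_card_top : Nat.card (Fin nn → F) = Fintype.card F ^ nn := by
  rw [Nat.card_fun, Nat.card_eq_fintype_card, Nat.card_eq_fintype_card, Fintype.card_fin]

theorem PP_dvd {q l c d m : ℕ} (hl : l.Prime) (hq : 1 ≤ q) (ho : orderOf (q : ZMod l) = c)
    (hc : 0 < c) (hd : d ≤ m) : l ∣ q ^ m - q ^ d ↔ c ∣ m - d := by
  have : Fact l.Prime := ⟨hl⟩
  obtain ⟨e, he⟩ := Nat.exists_eq_add_of_le hd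
  have h1 : ¬ l ∣ q ^ d := fun h => by
    have h2 : (q : ZMod l) = 0 := (ZMod.natCast_eq_zero_iff q l).2 (hl.dvd_of_dvd_pow h)
    have h3 := pow_orderOf_eq_one (q : ZMod l)
    rw [ho, h2, zero_pow hc.ne'] at h3
    exact zero_ne_one h3
  rw [he, Nat.add_sub_cancel_left, pow_add, ← Nat.mul_sub_one, hl.dvd_mul, or_iff_right h1,
    NT.dvd_pow_sub_one_iff_orderOf_dvd hq, ho]

theorem Syl.fx_le {G X : Subgroup GLn} {a b : Fin nn → F} {l c : ℕ} (hl : l.Prime)
    (ho : orderOf (Fintype.card F : ZMod l) = c) (h3 : 3 ≤ c)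
    (hc : finrank F (W G a b) + c = nn) (hX : Syl l X (fix2 G a b)) :
    sp a b ≤ Fx X ∧ Fx X ≤ W G a b ∧ c ∣ nn - finrank F (Fx X) := by
  have : Fact l.Prime := ⟨hl⟩
  classical
  have hq : 1 ≤ Fintype.card F := Fintype.card_pos
  have hle : Fx X ≤ W G a b := fun y hy => by
    by_contra hyW
    have h1 : MulAction.orbit (fix2 G a b) y = (W G a b : Set (Fin nn → F))ᶜ := by
      ext z
      constructor
      · rintro ⟨g, rfl⟩ hz
        apply hyW
        rw [← smul_mem_W g.2.1, g.2.2.1, g.2.2.2]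
        exact hz
      · intro hz
        obtain ⟨g, hg, e⟩ := trans_W (by omega) hyW hz
        exact ⟨⟨g, hg⟩, e⟩
    have h2 : (MulAction.stabilizer (fix2 G a b) y).index ∣ X.relIndex (fix2 G a b) :=
      Subgroup.index_dvd_of_le fun g hg => hy g hg
    have h4 := Set.ncard_add_ncard_compl (W G a b : Set (Fin nn → F))
    rw [PP_card_top, ← h1, ← MulAction.index_stabilizer, ← Nat.card_coe_set_eq] at h4
    have h5 : Nat.card (W G a b : Set (Fin nn → F)) = Fintype.card F ^ finrank F (W G a b) :=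
      PP_card _
    have h6 := (PP_dvd hl hq ho (by omega) (show finrank F (W G a b) ≤ nn by omega)).2
      (by rw [show nn - finrank F (W G a b) = c by omega])
    rw [← h4, h5, Nat.add_sub_cancel_left] at h6
    exact hX.nd (h6.trans h2)
  have h1 := hX.pg.card_modEq_card_fixedPoints (Fin nn → F)
  have h2 : Nat.card (MulAction.fixedPoints X (Fin nn → F)) = Fintype.card F ^ finrank F (Fx X) := by
    rw [← PP_card]
    exact Nat.card_congr (Equiv.subtypeEquivRight fun v =>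
      ⟨fun h g hg => h ⟨g, hg⟩, fun h g => h g g.2⟩)
  have h4 := Submodule.finrank_mono hle
  have h5 : sp a b ≤ Fx X := Submodule.span_le.2 (by
    rintro v (rfl | rfl) g hg
    · exact (hX.le hg).2.1
    · exact (hX.le hg).2.2)
  rw [PP_card_top, h2] at h1
  exact ⟨h5, hle, (PP_dvd hl hq ho (by omega) (show finrank F (Fx X) ≤ nn by omega)).1
    ((Nat.modEq_iff_dvd' (Nat.pow_le_pow_right hq (by omega))).1 h1.symm)⟩

end Cfsg.Agent.SG
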