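import Mathlib
import Cfsg.Agent.SG.KTv

set_option autoImplicit false
set_option linter.unusedVariables false

namespace Cfsg.Agent.SG

open Matrix Cfsg.Geo Module
open scoped MatrixGroups commutatorElement

variable {nn : ℕ} {F : Type*} [Field F] [Fintype F]

local notation "Mn" => Matrix (Fin nn) (Fin nn) F
local notation "SLn" => specialLinear (Fin nn) F
local notation "Zn" => scalars (Fin nn) F
local notation "GLn" => GL (Fin nn) F

theorem CK.count_W {G : Subgroup GLn} (h : CK G) {y a b : Fin nn → F} (i : Ind2 y a) (hb : b ∉ W G y a)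
    (h2 : finrank F (W G y a) + 2 ≤ nn) :
    (Fintype.card F ^ nn - Fintype.card F ^ finrank F (W G y a)) *
        (Fintype.card F ^ finrank F ↥(W G y a ⊓ W G y b) - Fintype.card F) ≤
      (Fintype.card F ^ finrank F (W G y a) - Fintype.card F ^ 2) * Fintype.card F ^ finrank F (W G y a) := by
  classical
  have hc : ∀ A : Submodule F (Fin nn → F), (Finset.univ.filter (· ∈ A)).card = Fintype.card F ^ finrank F A :=
    fun A => by rw [← Fintype.card_subtype, ← Module.card_eq_pow_finrank]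
  have y0 : y ≠ 0 := fun e => one_ne_zero (i 1 0 (by simp [e])).1
  have hy : ∀ v, y ∈ W G y v := fun v => sp_le_W (WB_left _ _)
  obtain ⟨S, hS, cS⟩ : ∃ S : Finset (Fin nn → F), (∀ v, v ∈ S ↔ v ∉ W G y a) ∧
      S.card = Fintype.card F ^ nn - Fintype.card F ^ finrank F (W G y a) :=
    ⟨Finset.univ \ Finset.univ.filter (· ∈ W G y a), by simp, by
      rw [Finset.card_sdiff_of_subset (Finset.subset_univ _), hc, Finset.card_univ, Fintype.card_fun,
        Fintype.card_fin]⟩
  have sd : ∀ A B : Submodule F (Fin nn → F), A ≤ B → ∃ T : Finset (Fin nn → F), (∀ v, v ∈ T ↔ v ∈ B ∧ v ∉ A) ∧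
      T.card = Fintype.card F ^ finrank F B - Fintype.card F ^ finrank F A := fun A B hle =>
    ⟨Finset.univ.filter (· ∈ B) \ Finset.univ.filter (· ∈ A), by simp, by
      rw [Finset.card_sdiff_of_subset (Finset.monotone_filter_right _ fun _ _ k => hle k), hc, hc]⟩
  obtain ⟨T, hT, cT⟩ := sd _ _ (sp_le_W (G := G) (a := y) (b := a))
  obtain ⟨K, hK, cK⟩ := sd (Submodule.span F {y}) (W G y a ⊓ W G y b)
    ((Submodule.span_singleton_le_iff_mem _ _).2 ⟨hy _, hy _⟩)
  rw [i.finrank] at cT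
  rw [finrank_span_singleton y0, pow_one] at cK
  rw [← cS, ← cT, ← cK]
  refine Finset.card_mul_le_card_mul (fun a' v => v ∈ W G y a') (fun a' ha' => ?_) fun v hv => ?_
  · have h3 := (hS _).1 ha'
    have h4 : a ∉ W G y a' := (h.good_symm.2.1 ⟨i, h3⟩).2
    obtain ⟨g, ⟨g0, e1, e2⟩, e3⟩ := trans_W h2 hb h3
    refine Finset.card_le_card_of_injOn (fun v => (g : Mn) *ᵥ v) (fun v hv => ?_) (WB_inj g).injOn
    obtain ⟨⟨k1, k2⟩, k3⟩ := (hK v).1 hv
    have k4 := (smul_mem_W g0).2 k1
    have k5 := (smul_mem_W g0).2 k2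
    rw [e1, e2] at k4
    rw [e1, e3] at k5
    refine Finset.mem_coe.2 (Finset.mem_filter.2 ⟨(hT _).2 ⟨k4, fun e => ?_⟩, k5⟩)
    obtain ⟨s, t, e⟩ := Submodule.mem_span_pair.1 e
    by_cases ht : t = 0
    · refine k3 (Submodule.mem_span_singleton.2 ⟨s, WB_inj g ?_⟩)
      simpa only [mulVec_smul, e1, ht, zero_smul, add_zero] using e
    · rw [show (g : Mn) *ᵥ v = _ from e.symm] at k5
      exact h4 ((Submodule.smul_mem_iff _ ht).1
        ((Submodule.add_mem_iff_right _ (Submodule.smul_mem _ s (hy _))).1 k5))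
  · obtain ⟨h3, h4⟩ := (hT _).1 hv
    have i' : Ind2 y v := fun s t e => by
      obtain rfl : t = 0 := by
        by_contra ht
        refine h4 ((Submodule.smul_mem_iff _ ht).1 ?_)
        rw [← neg_eq_of_add_eq_zero_right e]
        exact neg_mem (Submodule.smul_mem _ s (WB_left _ _))
      rw [zero_smul, add_zero] at e
      exact ⟨(smul_eq_zero.1 e).resolve_right y0, rfl⟩
    rw [h.finrank_W i i', ← hc]
    refine Finset.card_le_card fun a' ha' => Finset.mem_filter.2 ⟨Finset.mem_univ _, ?_⟩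
    by_contra k
    exact (h.good_symm.2.1 ⟨i', k⟩).2 (Finset.mem_filter.1 ha').2

end Cfsg.Agent.SG
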