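import Mathlib
import Cfsg.Agent.SG.KCnt

set_option autoImplicit false
set_option linter.unusedVariables false

namespace Cfsg.Agent.SG

open Matrix Cfsg.Geo Module
open scoped MatrixGroups commutatorElement

theorem KKey_arith {q t N K : ℕ} (hq : 2 ≤ q) (ht : 1 ≤ t) (hN : q ^ 5 * t ≤ N) (hK : q ^ 2 * t ≤ K)
    (h : (N - q ^ 3 * t) * (K - q) ≤ (q ^ 3 * t - q ^ 2) * (q ^ 3 * t)) : False := by
  have h' : (q ^ 5 * t - q ^ 3 * t) * (q ^ 2 * t - q) ≤ (q ^ 3 * t - q ^ 2) * (q ^ 3 * t) :=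
    (Nat.mul_le_mul (Nat.sub_le_sub_right hN _) (Nat.sub_le_sub_right hK _)).trans h
  have l1 : q ^ 3 * t ≤ q ^ 5 * t := Nat.mul_le_mul_right _ (Nat.pow_le_pow_right (by omega) (by omega))
  have l2 : q ≤ q ^ 2 * t := by nlinarith
  have l3 : q ^ 2 ≤ q ^ 3 * t :=
    (Nat.pow_le_pow_right (by omega) (by omega)).trans (Nat.le_mul_of_pos_right _ ht)
  zify [l1, l2, l3] at h'
  have hq' : (2 : ℤ) ≤ q := by exact_mod_cast hq
  have ht' : (1 : ℤ) ≤ t := by exact_mod_cast ht
  have p1 : (0 : ℤ) < q * t - 1 := by nlinarith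
  have p2 : (0 : ℤ) < q ^ 2 - 1 - q := by nlinarith
  have p3 : (0 : ℤ) < q ^ 4 * t * (q * t - 1) * (q ^ 2 - 1 - q) := by positivity
  nlinarith

variable {nn : ℕ} {F : Type*} [Field F] [Fintype F]

local notation "Mn" => Matrix (Fin nn) (Fin nn) F
local notation "SLn" => specialLinear (Fin nn) F
local notation "Zn" => scalars (Fin nn) F
local notation "GLn" => GL (Fin nn) F

theorem CK.key {G : Subgroup GLn} (h : CK G) {A R : Submodule F (Fin nn → F)} {a b x : Fin nn → F}
    (ha : a ∈ A) (hb : b ∈ A) (hx : x ∈ A) (i : Ind2 a b) (hx' : x ∉ sp a b) (hA : A ≤ W G a b)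
    (hR : A ⊔ R = ⊤) (ht : TrO (fixS G R) A) : nn ≤ finrank F (W G a b) + 1 := by
  by_contra hc
  have i3 : TV.Ind3 a b x := TV.ind3_of i hx'
  have wc : ∀ u v : Fin nn → F, W G u v = W G v u := fun u v =>
    W_congr (by rw [sp, sp, Set.pair_comm])
  obtain ⟨y, hy, h1⟩ : ∃ y ∈ R, y ∉ W G a b := by
    by_contra e
    simp only [not_exists, not_and, not_not] at e
    rw [eq_top_iff.mpr (hR.ge.trans (sup_le hA e)), finrank_top, finrank_fin_fun] at hc
    omega
  have h2 : y ∉ W G a x := fun e => by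
    have j : TV.Ind3 a (x - b) b := fun s t r e => by
      have := i3 s (r - t) t (by rw [← e]; module)
      exact ⟨this.1, this.2.2, by simpa [this.2.2] using this.2.1⟩
    obtain ⟨g, g0, g1, -, g3⟩ := ht a ha _ (A.sub_mem hx hb) b hb j.ind2 j.notMem _ (WB_right _ _)
    refine h1 ((smul_mem_W g0.1).1 ?_)
    rwa [g1, g3, g0.2 y hy, add_sub_cancel]
  obtain ⟨i1, hby⟩ : Ind2 a y ∧ b ∉ W G a y := h.good_symm.2.1 ⟨i, h1⟩
  have i1' : Ind2 y a := fun s t e => (i1 t s (by rwa [add_comm])).symm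
  have h3 : W G a y ≤ (W G a y ⊓ R) ⊔ Submodule.span F {a} := fun v hv => by
    obtain ⟨f, hf, r, hr, rfl⟩ := Submodule.mem_sup.mp (hR.ge (trivial : v ∈ ⊤))
    have key : ∀ d ∈ A, y ∉ W G a d → TV.Ind3 a d f → False := fun d hd e1 e2 => by
      obtain ⟨g, g0, g1, -, g3⟩ := ht a ha d hd f hf e2.ind2 e2.notMem d (WB_right _ _)
      have e3 := (smul_mem_W g0.1).2 hv
      rw [g1, g0.2 y hy, mulVec_add, g3, g0.2 r hr, add_right_comm,
        Submodule.add_mem_iff_right _ hv] at e3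
      exact (h.good_symm.2.1 ⟨e2.ind2, e1⟩).2 e3
    by_cases e2 : f ∈ sp a b
    · obtain ⟨s, t, rfl⟩ := Submodule.mem_span_pair.1 e2
      by_cases e0 : t = 0
      · rw [e0, zero_smul, add_zero] at hv ⊢
        exact add_mem (Submodule.mem_sup_right (Submodule.smul_mem _ _ (Submodule.mem_span_singleton_self a)))
          (Submodule.mem_sup_left ⟨(Submodule.add_mem_iff_right _
            (Submodule.smul_mem _ _ (sp_le_W (WB_left _ _)))).mp hv, hr⟩)
      · refine (key x hx h2 fun s' t' r' e => ?_).elim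
        have := i3 (s' + r' * s) (r' * t) t' (by rw [← e]; module)
        have hr' : r' = 0 := (mul_eq_zero.1 this.2.1).resolve_right e0
        exact ⟨by simpa [hr'] using this.1, this.2.2, hr'⟩
    · exact (key b hb h1 (TV.ind3_of i e2)).elim
  have h4 : W G a y ⊓ R ≤ W G y a ⊓ W G y b := fun v hv => by
    have j : TV.Ind3 (b - a) x a := fun s t r e => by
      have := i3 (r - s) s t (by rw [← e]; module)
      exact ⟨this.2.1, this.2.2, by simpa [this.2.1] using this.1⟩
    obtain ⟨g, g0, -, -, g3⟩ := ht _ (A.sub_mem hb ha) x hx a ha j.ind2 j.notMem _ (WB_left _ _)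
    have := (smul_mem_W g0.1).2 hv.1
    rw [g3, g0.2 y hy, g0.2 v hv.2, add_sub_cancel] at this
    exact ⟨wc a y ▸ hv.1, wc b y ▸ this⟩
  have w1 : finrank F (W G a b) = finrank F (W G a y) := h.finrank_W i i1
  have w2 : finrank F (W G a b) = finrank F (W G y a) := h.finrank_W i i1'
  have h5 := h.count_W i1' (b := b) (wc a y ▸ hby) (by omega)
  have h6 := Submodule.finrank_mono h3
  have h7 := Submodule.finrank_add_le_finrank_add_finrank (W G a y ⊓ R) (Submodule.span F {a})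
  have h8 := Submodule.finrank_mono h4
  have h9 : 2 < finrank F (W G a b) := by
    rw [← i.finrank]
    exact Submodule.finrank_lt_finrank_of_lt (lt_of_le_of_ne sp_le_W fun e => hx' (e ▸ hA hx))
  have ha0 : a ≠ 0 := by
    rintro rfl
    exact one_ne_zero (i 1 0 (by simp)).1
  rw [finrank_span_singleton ha0] at h7
  rw [← w2] at h5
  obtain ⟨k, hk⟩ := Nat.exists_eq_add_of_le (show 3 ≤ finrank F (W G a b) from h9)
  have hq : 2 ≤ Fintype.card F := Fintype.one_lt_card
  have e1 := Nat.pow_le_pow_right (show 0 < Fintype.card F by omega) (show 5 + k ≤ nn by omega)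
  have e2 := Nat.pow_le_pow_right (show 0 < Fintype.card F by omega)
    (show 2 + k ≤ finrank F ↥(W G y a ⊓ W G y b) by omega)
  rw [hk] at h5
  rw [pow_add] at e1 e2 h5
  exact KKey_arith hq (Nat.one_le_pow _ _ (by omega)) e1 e2 h5

end Cfsg.Agent.SG
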