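import Mathlib
import Cfsg.Agent.S7.NX
import Cfsg.Agent.SG.KWA

set_option autoImplicit false
set_option linter.unusedVariables false
set_option linter.unusedSectionVars false

namespace Cfsg.Agent.SG

open Matrix Cfsg.Geo Module
open scoped MatrixGroups commutatorElement

variable {F : Type*} [Field F] [Fintype F] {Γ : Type*} [Group Γ] [Finite Γ] {U : Type*} [AddCommGroup U]
  [Module F U] [Finite U] {ρ : Representation F Γ U} {l c p : ℕ} [Fact l.Prime] [Fact p.Prime] [CharP F p]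

namespace KMa9

/-- Every invariant subspace has dimension divisible by `c`. -/
theorem dvd_dim {Y : Subgroup Γ} (hY : IsPGroup l Y) (ho : orderOf (Fintype.card F : ZMod l) = c)
    (h3 : 3 ≤ c) (fx : ∀ v, (∀ y ∈ Y, ρ y v = v) → v = 0) {A : Submodule F U}
    (hA : ∀ x ∈ Y, ∀ v ∈ A, ρ x v ∈ A) : c ∣ finrank F A := by
  let σ := Representation.subrepresentation (ρ.comp Y.subtype) A fun x v hv => hA x x.2 v hv
  have h1 := S7.NXH.dvd_inv σ hY ho (by omega)
  have h2 : σ.invariants = ⊥ := eq_bot_iff.2 fun v hv =>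
    Subtype.ext (fx v fun x hx => congrArg Subtype.val (hv ⟨x, hx⟩))
  rwa [h2, finrank_bot, Nat.sub_zero] at h1

/-- The vectors moved by `P` inside `A`. -/
def up (ρ : Representation F Γ U) (P : Subgroup Γ) (A : Submodule F U) : Submodule F U where
  carrier := {v | ∀ g ∈ P, ρ g v - v ∈ A}
  add_mem' {a b} h1 h2 g hg := by
    rw [map_add, add_sub_add_comm]
    exact add_mem (h1 g hg) (h2 g hg)
  zero_mem' g _ := by
    rw [map_zero, sub_zero]
    exact zero_mem _
  smul_mem' r v h g hg := by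
    rw [map_smul, ← smul_sub]
    exact A.smul_mem r (h g hg)

theorem mem_up {P : Subgroup Γ} {A : Submodule F U} {v : U} :
    v ∈ up ρ P A ↔ ∀ g ∈ P, ρ g v - v ∈ A := Iff.rfl

theorem up_inv {Y P : Subgroup Γ} (h : ∀ g ∈ P, ∀ y ∈ Y, ρ g * ρ y = ρ y * ρ g) {A : Submodule F U}
    (hA : ∀ x ∈ Y, ∀ v ∈ A, ρ x v ∈ A) : ∀ x ∈ Y, ∀ v ∈ up ρ P A, ρ x v ∈ up ρ P A := by
  intro x hx v hv g hg
  rw [← Module.End.mul_apply, h g hg x hx, Module.End.mul_apply, ← map_sub]
  exact hA x hx _ (hv g hg)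

theorem exists_up {P : Subgroup Γ} (hP : IsPGroup p P) {A : Submodule F U}
    (hA : ∀ g ∈ P, ∀ v ∈ A, ρ g v ∈ A) (h : A ≠ ⊤) : ∃ d, d ∉ A ∧ d ∈ up ρ P A := by
  let : DistribMulAction P U := DistribMulAction.compHom U ((ρ : Γ →* Module.End F U).comp P.subtype)
  have : SMulCommClass P F U := ⟨fun g r v => map_smul (ρ g) r v⟩
  have hq : p ∣ Fintype.card F := by
    obtain ⟨n, -, hn⟩ := FiniteField.card F p
    exact hn ▸ dvd_pow_self p n.ne_zero
  obtain ⟨d, -, d0, d1⟩ := WA.fixmod hP hq (A := A) (B := ⊤) (fun g v hv => hA g g.2 v hv)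
    (fun g v _ => Submodule.mem_top) fun e => h (top_le_iff.1 e)
  exact ⟨d, d0, fun g hg => d1 ⟨g, hg⟩⟩

end KMa9

open KMa9

theorem comm_of_cent {Y P : Subgroup Γ} (hY : IsPGroup l Y) (ho : orderOf (Fintype.card F : ZMod l) = c)
    (h3 : 3 ≤ c) (hd : finrank F U ≤ 2 * c) (fx : ∀ v, (∀ y ∈ Y, ρ y v = v) → v = 0) (hP : IsPGroup p P)
    (h : ∀ g ∈ P, ∀ y ∈ Y, ρ g * ρ y = ρ y * ρ g) : ∀ g ∈ P, ∀ k ∈ P, ρ g * ρ k = ρ k * ρ g := by
  have hb : ∀ x : Γ, ∀ v ∈ (⊥ : Submodule F U), ρ x v ∈ (⊥ : Submodule F U) := fun x v hv => by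
    rw [(Submodule.mem_bot F).1 hv, map_zero]
    exact zero_mem _
  have f1 : ∀ v ∈ up ρ P ⊥, ∀ g ∈ P, ρ g v = v := fun v hv g hg =>
    sub_eq_zero.1 ((Submodule.mem_bot F).1 (hv g hg))
  have i1 := up_inv h (A := ⊥) fun x _ => hb x
  have i2 := up_inv h i1
  have hB : up ρ P (up ρ P ⊥) = ⊤ := by
    by_cases e : up ρ P ⊥ = ⊤
    · rw [e]
      exact eq_top_iff.2 fun v _ g _ => Submodule.mem_top
    obtain ⟨d, d0, d1⟩ := exists_up hP (A := up ρ P ⊥) (fun g hg v hv => by rwa [f1 v hv g hg]) e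
    obtain ⟨d', e0, e1⟩ := exists_up hP (ρ := ρ) (A := ⊥) (fun g _ => hb g) fun k =>
      e (top_le_iff.1 (k ▸ bot_le))
    have hlt : up ρ P ⊥ < up ρ P (up ρ P ⊥) :=
      lt_of_le_of_ne (fun v hv g hg => by rw [f1 v hv g hg, sub_self]; exact zero_mem _)
        fun k => d0 (k ▸ d1)
    have a1 := Submodule.finrank_lt_finrank_of_lt hlt
    have a2 : finrank F (up ρ P ⊥) ≠ 0 := fun k => e0 (Submodule.finrank_eq_zero.1 k ▸ e1)
    obtain ⟨s, hs⟩ := dvd_dim hY ho h3 fx i1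
    obtain ⟨t, ht⟩ := dvd_dim hY ho h3 fx i2
    refine Submodule.eq_top_of_finrank_eq ((Submodule.finrank_le _).antisymm (hd.trans ?_))
    rw [hs] at a1 a2
    rw [ht] at a1 ⊢
    have a3 : s < t := lt_of_mul_lt_mul_left a1 (Nat.zero_le c)
    have a4 : s ≠ 0 := fun k => a2 (by rw [k, mul_zero])
    rw [mul_comm]
    exact Nat.mul_le_mul_left c (by omega)
  have key : ∀ g ∈ P, ∀ k ∈ P, ∀ v, ρ g (ρ k v) = ρ g v + ρ k v - v := fun g hg k hk v => by
    have := f1 _ (hB.ge (Submodule.mem_top (x := v)) k hk) g hg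
    rw [map_sub] at this
    rw [sub_eq_iff_eq_add.1 this]
    abel
  intro g hg k hk
  refine LinearMap.ext fun v => ?_
  rw [Module.End.mul_apply, Module.End.mul_apply, key g hg k hk, key k hk g hg, add_comm]

open Subgroup in
theorem comm_of_fpf {X : Subgroup Γ} [X.Normal] (hl : l ≠ 2) (hX : IsPGroup l X)
    (h : ∀ x ∈ X, ρ x = 1 ∨ ∀ v, ρ x v = v → v = 0) :
    ∀ g ∈ _root_.commutator Γ, ∀ x ∈ X, ρ g * ρ x = ρ x * ρ g := by
  intro g hg x hx
  rcases subsingleton_or_nontrivial U with _ | _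
  · exact Subsingleton.elim _ _
  let π := ρ.asGroupHom.rangeRestrict
  have hπ : Function.Surjective π := MonoidHom.rangeRestrict_surjective _
  let Y := X.map π
  have : Y.Normal := Normal.map inferInstance π hπ
  have : Finite ρ.asGroupHom.range := Finite.of_surjective _ hπ
  let : DistribMulAction Y U := DistribMulAction.compHom U
    ((Units.coeHom (Module.End F U)).comp (ρ.asGroupHom.range.subtype.comp Y.subtype))
  have h1 : GT.Frob.HasFpfAction Y := GT.Frob.hasFpfAction_of_distribMulAction U (by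
    rintro ⟨_, y, hy, rfl⟩ h2 v h3
    rcases h y hy with e | e
    · exact absurd (Subtype.ext (Subtype.ext (Units.ext e))) h2
    · exact e v h3)
  have h2 : IsCyclic (⊤ : Subgroup Y) :=
    h1.isCyclic_of_isPGroup hl ((hX.map π).to_subgroup ⊤)
  have h3 : IsCyclic Y := isCyclic_of_surjective _ topEquiv.surjective
  have h4 : _root_.commutator Γ ≤ ((MulAut.conjNormal (H := Y)).comp π).ker :=
    commutator_le.mpr fun a _ b _ => by
      rw [MonoidHom.mem_ker, map_commutatorElement, commutatorElement_eq_one_iff_mul_comm]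
      exact (IsCyclic.mulAutMulEquiv Y).injective (by rw [map_mul, map_mul, mul_comm])
  have h5 := congrArg (fun t : Y => ((t : ρ.asGroupHom.range) : (Module.End F U)ˣ))
    (DFunLike.congr_fun (h4 hg) ⟨π x, x, hx, rfl⟩)
  have h6 : ρ.asGroupHom g * ρ.asGroupHom x * (ρ.asGroupHom g)⁻¹ = ρ.asGroupHom x := h5
  exact congrArg Units.val (mul_inv_eq_iff_eq_mul.mp h6)

theorem pm_one {X : Subgroup Γ} [X.Normal] (h : S7.NXH.Hy ρ X l c) (hc : Odd c) (hq : Fintype.card F = 3)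
    {g : Γ} (hg : g ∈ _root_.commutator Γ) {k : ℕ} (hk : g ^ 2 ^ k = 1) : ρ g = 1 ∨ ρ g = -1 := by
  obtain ⟨K, m, h4, -, h2⟩ := h.theta
  have sq1 : ∀ ψ : Module.End F U, (∀ x ∈ X, ρ x * ψ = ψ * ρ x) → ψ * ψ = 1 → ψ = 1 ∨ ψ = -1 := by
    intro ψ hψ e
    rcases h.schur (φ := ψ - 1) (fun x hx => by rw [mul_sub, sub_mul, hψ x hx, mul_one, one_mul]) with i | i
    · exact .inl (sub_eq_zero.1 i)
    refine .inr (eq_neg_of_add_eq_zero_left (LinearMap.ext fun v => i ?_))
    have e2 : (ψ - 1) * (ψ + 1) = 0 := by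
      rw [sub_mul, mul_add, e, mul_one, one_mul, add_comm, sub_self]
    rw [← Module.End.mul_apply, e2, LinearMap.zero_apply, map_zero]
  have nsq : ∀ ψ : Module.End F U, ψ * ψ ≠ -1 := by
    intro ψ e
    have e1 := congrArg LinearMap.det e
    rw [map_mul, show (-1 : Module.End F U) = (-1 : F) • (1 : Module.End F U) by rw [neg_smul, one_smul],
      LinearMap.det_smul, map_one, mul_one, h.dim, hc.neg_one_pow] at e1
    have e2 := FiniteField.pow_card (LinearMap.det ψ)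
    have e3 : (3 : F) = 0 := by
      have := FiniteField.cast_card_eq_zero F
      rw [hq] at this
      exact_mod_cast this
    rw [hq] at e2
    have e4 : LinearMap.det ψ = 0 := by
      linear_combination e2 - (LinearMap.det ψ) * e1 + (LinearMap.det ψ) * e3
    rw [e4, mul_zero] at e1
    exact one_ne_zero (neg_eq_zero.1 e1.symm)
  have key : ∀ (k : ℕ) (ψ : Module.End F U), (∀ x ∈ X, ρ x * ψ = ψ * ρ x) → ψ ^ 2 ^ k = 1 →
      ψ = 1 ∨ ψ = -1 := by
    intro k
    induction k with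
    | zero => exact fun ψ _ e => .inl (by rwa [pow_zero, pow_one] at e)
    | succ k ih =>
      intro ψ hψ e
      refine sq1 ψ hψ ((ih (ψ * ψ) (fun x hx => ?_) ?_).resolve_right (nsq ψ))
      · rw [← mul_assoc, hψ x hx, mul_assoc, hψ x hx, mul_assoc]
      · rwa [← sq, ← pow_mul, ← pow_succ']
  exact key k (ρ g) (h2 g (h4 hg)) (by rw [← map_pow, hk, map_one])

end Cfsg.Agent.SG
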