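import Mathlib
import Cfsg.Agent.SG.KMa

set_option autoImplicit false
set_option linter.unusedVariables false
set_option linter.unusedSectionVars false

namespace Cfsg.Agent.SG

open Matrix Cfsg.Geo Module
open scoped MatrixGroups commutatorElement

variable {F : Type*} [Field F] [Fintype F] {Γ : Type*} [Group Γ] [Finite Γ] {U : Type*} [AddCommGroup U]
  [Module F U] [Finite U] {ρ : Representation F Γ U} {l c p : ℕ} [Fact l.Prime] [Fact p.Prime] [CharP F p]

namespace KMb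

open Subgroup S7.NXH

/-- The vectors fixed by one element. -/
def fz (ρ : Representation F Γ U) (z : Γ) : Submodule F U := LinearMap.eqLocus (ρ z) LinearMap.id

theorem mem_fz {z : Γ} {v : U} : v ∈ fz ρ z ↔ ρ z v = v := Iff.rfl

theorem rho_mul (g h : Γ) (v : U) : ρ (g * h) v = ρ g (ρ h v) := by rw [map_mul]; rfl

theorem rho_inv (g : Γ) (v : U) : ρ g⁻¹ (ρ g v) = v := by rw [← rho_mul, inv_mul_cancel, map_one]; rfl

theorem rho_inv' (g : Γ) (v : U) : ρ g (ρ g⁻¹ v) = v := by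
  rw [← rho_mul, mul_inv_cancel, map_one]; rfl

theorem dvd_sub {X : Subgroup Γ} (hX : IsPGroup l X) (ho : orderOf (Fintype.card F : ZMod l) = c) (h3 : 3 ≤ c)
    (fx : ∀ v, (∀ x ∈ X, ρ x v = v) → v = 0) {A : Submodule F U} (hA : ∀ x ∈ X, ∀ v ∈ A, ρ x v ∈ A) :
    c ∣ finrank F A := by
  let σ := Representation.subrepresentation (ρ.comp X.subtype) A fun x v hv => hA x x.2 v hv
  have h1 := dvd_inv σ hX ho (by omega)
  have h2 : σ.invariants = ⊥ := eq_bot_iff.2 fun v hv =>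
    Subtype.ext (fx v fun x hx => congrArg Subtype.val (hv ⟨x, hx⟩))
  rwa [h2, finrank_bot, Nat.sub_zero] at h1

theorem dvd_fz {X : Subgroup Γ} (hX : IsPGroup l X) (ho : orderOf (Fintype.card F : ZMod l) = c) (h3 : 3 ≤ c)
    {x : Γ} (hx : x ∈ X) : c ∣ finrank F U - finrank F (fz ρ x) := by
  let σ : Representation F (zpowers x) U := ρ.comp (zpowers x).subtype
  have h1 := dvd_inv σ (hX.to_le (zpowers_le.2 hx)) ho (by omega)
  have h2 : σ.invariants = fz ρ x := le_antisymm (fun v hv => hv ⟨x, mem_zpowers x⟩) fun v hv g => by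
    let _ : DistribMulAction Γ U := DistribMulAction.compHom U (ρ : Γ →* Module.End F U)
    exact (zpowers_le.2 (show x ∈ MulAction.stabilizer Γ v from hv) : zpowers x ≤ MulAction.stabilizer Γ v) g.2
  rwa [h2] at h1

theorem m2' {X P : Subgroup Γ} [hn : X.Normal] (hX : IsPGroup l X) (ho : orderOf (Fintype.card F : ZMod l) = c)
    (h3 : 3 ≤ c) (hd : finrank F U ≤ 2 * c) (fx : ∀ v, (∀ x ∈ X, ρ x v = v) → v = 0) (hP : IsPGroup p P)
    (hle : P ≤ derivedSeries Γ 3) (hi : Function.Injective ρ) :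
    ∀ g ∈ P, ∀ k ∈ P, ρ g * ρ k = ρ k * ρ g := by
  rcases subsingleton_or_nontrivial U with _ | _
  · exact fun _ _ _ _ => LinearMap.ext fun v => Subsingleton.elim _ _
  let Z := (center X).map X.subtype
  have hZ : Z ≤ X := map_subtype_le _
  have hZc : ∀ z ∈ Z, ∀ x ∈ X, x * z = z * x := by
    rintro _ ⟨z, hz, rfl⟩ x hx
    exact congrArg Subtype.val (mem_center_iff.mp hz ⟨x, hx⟩)
  have hinv : ∀ z ∈ Z, ∀ x ∈ X, ∀ v ∈ fz ρ z, ρ x v ∈ fz ρ z := fun z hz x hx v hv =>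
    mem_fz.mpr (by rw [← rho_mul, ← hZc z hz x hx, rho_mul, mem_fz.mp hv])
  have h1 : ∀ z, ρ z = 1 → z = 1 := fun z e => hi (e.trans (map_one ρ).symm)
  by_cases h2 : ∀ z ∈ Z, z = 1 ∨ fz ρ z = ⊥
  · have : Nontrivial X := (nontrivial_iff_ne_bot X).mpr fun e => by
      obtain ⟨v, hv⟩ := exists_ne (0 : U)
      exact hv (fx v fun x hx => by rw [e, mem_bot] at hx; rw [hx, map_one]; rfl)
    have := hX.center_nontrivial
    obtain ⟨z, hz⟩ := exists_ne (1 : center X)
    have h4 : ∀ v, (∀ y ∈ Z, ρ y v = v) → v = 0 := fun v hv =>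
      ((h2 _ ⟨z, z.2, rfl⟩).resolve_left fun e => hz (Subtype.ext (Subtype.ext e))).le
        (mem_fz.2 (hv _ ⟨z, z.2, rfl⟩))
    have h5 : derivedSeries Γ 3 ≤ _root_.commutator Γ := derivedSeries_one Γ ▸ derivedSeries_antitone Γ (by norm_num)
    exact comm_of_cent (hX.to_le hZ) ho h3 hd h4 hP fun g hg =>
      comm_of_fpf (l_ne_two ho h3) (hX.to_le hZ) (fun z hz => (h2 z hz).imp (fun e => by rw [e, map_one])
        fun e v hv => e.le (mem_fz.2 hv)) g (h5 (hle hg))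
  simp only [not_forall, not_or] at h2
  obtain ⟨z, hz, hz1, hz2⟩ := h2
  have h4 : ∀ z ∈ Z, z ≠ 1 → fz ρ z ≠ ⊥ → finrank F (fz ρ z) = c ∧ finrank F U = 2 * c := fun z hz e1 e2 => by
    obtain ⟨s, hs⟩ := dvd_fz (ρ := ρ) hX ho h3 (hZ hz)
    obtain ⟨t, ht⟩ := dvd_sub hX ho h3 fx (hinv z hz)
    have e3 := mt Submodule.finrank_eq_zero.mp e2
    have e4 : finrank F (fz ρ z) < finrank F U :=
      Submodule.finrank_lt fun e => e1 (h1 z (LinearMap.ext fun v => mem_fz.mp (e.ge trivial)))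
    have := Nat.le_of_dvd (by omega) ⟨s, hs⟩
    have := Nat.le_of_dvd (by omega) ⟨t, ht⟩
    omega
  let A : Γ → Submodule F U := fun γ => fz ρ (γ * z * γ⁻¹)
  have hA : ∀ γ v, v ∈ A γ ↔ ρ γ⁻¹ v ∈ fz ρ z := fun γ v => by
    rw [mem_fz, mem_fz, rho_mul, rho_mul]
    exact ⟨fun e => by rw [← rho_inv (ρ := ρ) γ (ρ z _), e], fun e => by rw [e, rho_inv']⟩
  have hz' : ∀ γ, γ * z * γ⁻¹ ∈ Z := fun γ => (inferInstance : Z.Normal).conj_mem z hz γ
  have h5 : ∀ γ, finrank F (A γ) = c := fun γ => (h4 _ (hz' γ) (by simpa using hz1)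
    fun e => hz2 (eq_bot_iff.mpr fun v hv => by
      have := (show A γ = ⊥ from e).le ((hA γ (ρ γ v)).mpr (by rwa [rho_inv]))
      rw [← rho_inv (ρ := ρ) γ v, (Submodule.mem_bot _).mp this, map_zero]
      exact zero_mem _)).1
  have h6 : ∀ γ δ, A γ ≠ A δ → A γ ⊓ A δ = ⊥ ∧ A γ ⊔ A δ = ⊤ := fun γ δ e => by
    have e1 := dvd_sub hX ho h3 fx (A := A γ ⊓ A δ) fun x hx v hv =>
      ⟨hinv _ (hz' γ) x hx v hv.1, hinv _ (hz' δ) x hx v hv.2⟩
    have e2 : finrank F ↥(A γ ⊓ A δ) < finrank F (A γ) :=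
      Submodule.finrank_lt_finrank_of_lt (lt_of_le_of_ne inf_le_left fun e' => e
        (Submodule.eq_of_le_of_finrank_eq (e'.ge.trans inf_le_right) (by rw [h5, h5])))
    have e3 := Nat.eq_zero_of_dvd_of_lt e1 (by rwa [h5] at e2)
    have e4 := Submodule.finrank_sup_add_finrank_inf_eq (A γ) (A δ)
    refine ⟨Submodule.finrank_eq_zero.mp e3, Submodule.eq_top_of_finrank_eq ?_⟩
    rw [h5, h5, e3] at e4
    rw [(h4 z hz hz1 hz2).2]
    omega
  have h7 : ∀ γ δ, A γ ≠ A 1 → A δ ≠ A 1 → A γ = A δ := fun γ δ e1 e2 =>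
    Submodule.eq_of_le_of_finrank_eq (fun v hv => mem_fz.mpr
      (sub_eq_zero.mp ((h6 γ 1 e1).1.le ⟨sub_mem (hinv _ (hz' γ) _ (hZ (hz' δ)) v hv) hv, by
        obtain ⟨a, ha, b, hb, rfl⟩ := Submodule.mem_sup.mp ((h6 δ 1 e2).2.ge (trivial : v ∈ ⊤))
        rw [map_add, mem_fz.mp ha, add_sub_add_left_eq_sub]
        exact sub_mem (hinv _ (hz' 1) _ (hZ (hz' δ)) b hb) hb⟩))) (by rw [h5, h5])
  have h8 : ∀ γ δ v, v ∈ A (γ * δ) ↔ ρ γ⁻¹ v ∈ A δ := fun γ δ v => by
    rw [hA, hA, _root_.mul_inv_rev, rho_mul]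
  let H : Subgroup Γ :=
    { carrier := {γ | A γ = A 1}
      one_mem' := rfl
      mul_mem' := fun {γ δ} e1 e2 => Submodule.ext fun v => by
        rw [h8, show A δ = A 1 from e2, ← h8, mul_one, show A γ = A 1 from e1]
      inv_mem' := fun {γ} e => Submodule.ext fun v => by
        have := h8 γ⁻¹ γ v
        rw [inv_mul_cancel, show A γ = A 1 from e, ← h8, mul_one] at this
        exact this.symm }
  have h9 : ∀ a b, a * b ∈ H ↔ (a ∈ H ↔ b ∈ H) := fun a b => by
    by_cases e1 : a ∈ H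
    · simp [e1, mul_mem_cancel_left e1]
    by_cases e2 : b ∈ H
    · simp [e1, e2, mul_mem_cancel_right e2]
    simp only [e1, e2, iff_true]
    exact Submodule.ext fun v => by
      rw [h8, h7 b a⁻¹ e2 fun e => e1 ((inv_mem_iff (H := H)).mp e), ← h8, mul_inv_cancel]
  have h10 : _root_.commutator Γ ≤ H := commutator_le.mpr fun a _ b _ => by
    rw [commutatorElement_def, mul_assoc, h9, h9, h9, inv_mem_iff, inv_mem_iff]
  have h11 : ∀ γ : H, A 1 ≤ (A 1).comap ((ρ.comp H.subtype) γ) := fun γ v hv =>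
    (show A γ = A 1 from γ.2).le (by rw [← mul_one (γ : Γ), h8]; exact (rho_inv (ρ := ρ) _ v).symm ▸ hv)
  have h12 : X ≤ H := fun x hx => show A x = A 1 by
    simp only [A]
    rw [show x * z * x⁻¹ = 1 * z * 1⁻¹ by rw [hZc z hz x hx]; group]
  have hX' : IsPGroup l (X.subgroupOf H) := hX.comap_subtype
  have h13 : Hy (Representation.subrepresentation _ (A 1) h11) (X.subgroupOf H) l c :=
    ⟨hX', ho, h3, h5 1, fun v hv => Subtype.ext (fx v fun x hx => congrArg Subtype.val (hv ⟨x, h12 hx⟩ hx))⟩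
  have : Finite (U ⧸ A 1) := Finite.of_surjective _ (A 1).mkQ_surjective
  have h14 : Hy (Representation.quotient _ (A 1) h11) (X.subgroupOf H) l c := ⟨hX', ho, h3, by
    have := (A 1).finrank_quotient_add_finrank
    rw [h5, (h4 z hz hz1 hz2).2] at this
    omega, fun v hv => by
    obtain ⟨v, rfl⟩ := (A 1).mkQ_surjective v
    by_contra e
    have e1 : v ∉ A 1 := fun e' => e ((Submodule.Quotient.mk_eq_zero _).mpr e')
    have e2 := dvd_sub hX ho h3 fx (A := A 1 ⊔ Submodule.span F {v}) fun x hx w hw => by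
      obtain ⟨a, ha, _, hb, rfl⟩ := Submodule.mem_sup.mp hw
      obtain ⟨r, rfl⟩ := Submodule.mem_span_singleton.mp hb
      have e3 := (Submodule.Quotient.eq _).mp (hv ⟨x, h12 hx⟩ hx)
      rw [map_add, map_smul, ← sub_add_cancel (ρ x v) v, smul_add, ← add_assoc]
      exact add_mem (Submodule.mem_sup_left (add_mem (hinv _ (hz' 1) x hx a ha)
        (Submodule.smul_mem _ _ e3))) (Submodule.mem_sup_right hb)
    rw [Submodule.finrank_sup_span_singleton e1, h5, Nat.dvd_add_right dvd_rfl, Nat.dvd_one] at e2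
    omega⟩
  have key : ∀ g ∈ P, (∀ v ∈ A 1, ρ g v = v) ∧ ∀ v, ρ g v - v ∈ A 1 := fun g hg => by
    obtain ⟨g, hg', rfl⟩ : g ∈ ⁅_root_.commutator H, _root_.commutator H⁆.map H.subtype := by
      rw [map_commutator, map_subtype_commutator]
      exact commutator_mono (commutator_mono h10 h10) (commutator_mono h10 h10) (hle hg)
    exact ⟨fun v hv => congrArg Subtype.val (LinearMap.congr_fun (congrArg Units.val (h13.two hg')) ⟨v, hv⟩),
      fun v => (Submodule.Quotient.eq _).mp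
        (LinearMap.congr_fun (congrArg Units.val (h14.two hg')) ((A 1).mkQ v))⟩
  have fin : ∀ g ∈ P, ∀ k ∈ P, ∀ v, ρ g (ρ k v) = ρ g v + ρ k v - v := fun g hg k hk v => by
    have := (key g hg).1 _ ((key k hk).2 v)
    rw [map_sub, sub_eq_iff_eq_add] at this
    rw [this]
    abel
  refine fun g hg k hk => LinearMap.ext fun v => ?_
  rw [Module.End.mul_apply, Module.End.mul_apply, fin g hg k hk, fin k hk g hg, add_comm]

end KMb

theorem m2 {X P : Subgroup Γ} [X.Normal] (hX : IsPGroup l X) (ho : orderOf (Fintype.card F : ZMod l) = c)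
    (h3 : 3 ≤ c) (hd : finrank F U ≤ 2 * c) (fx : ∀ v, (∀ x ∈ X, ρ x v = v) → v = 0) (hP : IsPGroup p P)
    (hle : P ≤ derivedSeries Γ 3) : ∀ g ∈ P, ∀ k ∈ P, ρ g * ρ k = ρ k * ρ g := by
  let π := ρ.asGroupHom.rangeRestrict
  have hπ : Function.Surjective π := MonoidHom.rangeRestrict_surjective _
  have : (X.map π).Normal := Subgroup.Normal.map inferInstance π hπ
  have : Finite ρ.asGroupHom.range := Finite.of_surjective _ hπ
  exact fun g hg k hk => KMb.m2' (ρ := (Units.coeHom (Module.End F U)).comp ρ.asGroupHom.range.subtype)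
    (hX.map π) ho h3 hd (fun v hv => fx v fun x hx => hv _ ⟨x, hx, rfl⟩) (hP.map π)
    ((Subgroup.map_mono hle).trans (map_derivedSeries_le_derivedSeries π 3))
    (Units.val_injective.comp Subtype.val_injective) (π g) ⟨g, hg, rfl⟩ (π k) ⟨k, hk, rfl⟩

end Cfsg.Agent.SG
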