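import Mathlib
import Cfsg.Agent.SG.KDefs
import Cfsg.Agent.SG.KMb

set_option autoImplicit false
set_option linter.unusedVariables false

namespace Cfsg.Agent.SG

open Matrix Cfsg.Geo Module
open scoped MatrixGroups commutatorElement

variable {nn : ℕ} {F : Type*} [Field F] [Fintype F]

local notation "Mn" => Matrix (Fin nn) (Fin nn) F
local notation "SLn" => specialLinear (Fin nn) F
local notation "Zn" => scalars (Fin nn) F
local notation "GLn" => GL (Fin nn) F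

theorem nx_compl {X : Subgroup GLn} (hX : (Nat.card X : F) ≠ 0) :
    ∃ R : Submodule F (Fin nn → F), Fx X ⊔ R = ⊤ ∧ Fx X ⊓ R = ⊥ ∧
      ∀ g ∈ Subgroup.normalizer (X : Set GLn), ∀ v ∈ R, (g : Mn) *ᵥ v ∈ R := by
  have := Fintype.ofFinite X
  let e : (Fin nn → F) →ₗ[F] Fin nn → F := ∑ x : X, Matrix.toLin' ((x : GLn) : Mn)
  have he : ∀ v, e v = ∑ x : X, ((x : GLn) : Mn) *ᵥ v := fun v => LinearMap.sum_apply _ _ _
  have h1 : ∀ v, e v ∈ Fx X := fun v y hy => by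
    rw [he, mulVec_sum, ← Equiv.sum_comp (Equiv.mulLeft (⟨y, hy⟩ : X)) fun x : X => ((x : GLn) : Mn) *ᵥ v]
    exact Finset.sum_congr rfl fun x _ => mulVec_mulVec _ _ _
  have h2 : ∀ v ∈ Fx X, e v = (Nat.card X : F) • v := fun v hv => by
    rw [he, Finset.sum_congr rfl fun (x : X) _ => hv x x.2, Finset.sum_const, Finset.card_univ,
      ← Nat.card_eq_fintype_card, Nat.cast_smul_eq_nsmul]
  refine ⟨LinearMap.ker e, eq_top_iff.mpr fun v _ => Submodule.mem_sup.mpr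
    ⟨_, Submodule.smul_mem _ (Nat.card X : F)⁻¹ (h1 v), v - (Nat.card X : F)⁻¹ • e v, ?_, add_sub_cancel _ _⟩,
    eq_bot_iff.mpr fun v hv => (smul_eq_zero.1 ((h2 v hv.1).symm.trans hv.2)).resolve_left hX,
    fun g hg v hv => ?_⟩
  · rw [LinearMap.mem_ker, map_sub, map_smul, h2 _ (h1 v), inv_smul_smul₀ hX, sub_self]
  rw [LinearMap.mem_ker, he, ← mulVec_zero (g : Mn), ← show e v = 0 from hv, he, mulVec_sum,
    ← Equiv.sum_comp (X.normalizerMonoidHom ⟨g, hg⟩).toEquiv]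
  exact Finset.sum_congr rfl fun x _ => by
    change ((g * x * g⁻¹ : GLn) : Mn) *ᵥ (g : Mn) *ᵥ v = _
    rw [mulVec_mulVec, mulVec_mulVec, ← Units.val_mul, ← Units.val_mul, inv_mul_cancel_right]

theorem exists_compl {X N : Subgroup GLn} {l c p : ℕ} (hl : l.Prime) (hp : p.Prime) [CharP F p]
    (hX : IsPGroup l X) (ho : orderOf (Fintype.card F : ZMod l) = c) (h3 : 3 ≤ c)
    (hc : nn ≤ finrank F (Fx X) + 2 * c) (hN : N ≤ Subgroup.normalizer (X : Set GLn)) :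
    ∃ R : Submodule F (Fin nn → F), Fx X ⊔ R = ⊤ ∧ (∀ g ∈ N, ∀ v ∈ R, (g : Mn) *ᵥ v ∈ R) ∧
      (∀ P ≤ ⁅⁅⁅N, N⁆, ⁅N, N⁆⁆, ⁅⁅N, N⁆, ⁅N, N⁆⁆⁆, IsPGroup p P → ⁅P, P⁆ ≤ fixS ⊤ R) ∧
      (finrank F (Fx X) + c = nn → ⁅⁅N, N⁆, ⁅N, N⁆⁆ ≤ fixS ⊤ R) ∧
      (finrank F (Fx X) + c = nn → Odd c → Fintype.card F = 3 → ∀ g ∈ ⁅N, N⁆, ∀ k : ℕ, g ^ 2 ^ k = 1 →
        (∀ v ∈ R, (g : Mn) *ᵥ v = v) ∨ ∀ v ∈ R, (g : Mn) *ᵥ v = -v) := by
  have := Fact.mk hl
  have := Fact.mk hp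
  obtain ⟨m, hm⟩ := IsPGroup.iff_card.1 hX
  obtain ⟨R, r1, r2, r3⟩ := nx_compl (X := X) (by
    rw [hm, Nat.cast_pow]; exact pow_ne_zero _ (S7.NXH.l_ne_zero ho h3))
  let M := Subgroup.normalizer (X : Set GLn)
  let τ : Representation F GLn (Fin nn → F) :=
    (Matrix.toLinAlgEquiv' (R := F) (n := Fin nn)).toMonoidHom.comp (Units.coeHom _)
  let ρ := Representation.subrepresentation (τ.comp M.subtype) R fun g v hv => r3 g g.2 v hv
  have h4 := Submodule.finrank_sup_add_finrank_inf_eq (Fx X) R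
  rw [r1, r2, finrank_top, finrank_bot, Module.finrank_fin_fun] at h4
  have fx : ∀ v, (∀ x ∈ X.subgroupOf M, ρ x v = v) → v = 0 := fun v hv =>
    Subtype.ext (r2.le ⟨fun x hx => congrArg Subtype.val (hv ⟨x, Subgroup.le_normalizer hx⟩ hx), v.2⟩)
  have hy : finrank F (Fx X) + c = nn → S7.NXH.Hy ρ (X.subgroupOf M) l c := fun e =>
    ⟨hX.comap_subtype, ho, h3, by omega, fx⟩
  have key : ∀ g : M, ρ g = 1 → ∀ v ∈ R, ((g : GLn) : Mn) *ᵥ v = v := fun g e v hv =>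
    congrArg Subtype.val (LinearMap.congr_fun e ⟨v, hv⟩)
  have c1 : ⁅N, N⁆ ≤ (_root_.commutator M).map M.subtype := by
    rw [Subgroup.map_subtype_commutator]
    exact Subgroup.commutator_mono hN hN
  have c2 : ⁅⁅N, N⁆, ⁅N, N⁆⁆ ≤ ⁅_root_.commutator M, _root_.commutator M⁆.map M.subtype := by
    rw [Subgroup.map_commutator]
    exact Subgroup.commutator_mono c1 c1
  have c3 : ⁅⁅⁅N, N⁆, ⁅N, N⁆⁆, ⁅⁅N, N⁆, ⁅N, N⁆⁆⁆ ≤ (derivedSeries M 3).map M.subtype := by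
    rw [derivedSeries_succ, Subgroup.map_commutator]
    exact Subgroup.commutator_mono c2 c2
  refine ⟨R, r1, fun g hg => r3 g (hN hg), fun P hP pP => Subgroup.commutator_le.2 fun a ha b hb => ?_,
    fun e g hg => ?_, fun e oc q3 g hg k hk => ?_⟩
  · have hle : P.subgroupOf M ≤ derivedSeries M 3 := fun g hg =>
      (Subgroup.mem_map_iff_mem M.subtype_injective).1 (c3 (hP hg))
    obtain ⟨a, -, rfl⟩ := c3 (hP ha)
    obtain ⟨b, -, rfl⟩ := c3 (hP hb)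
    have h := m2 (ρ := ρ) (X := X.subgroupOf M) (P := P.subgroupOf M) hX.comap_subtype ho h3 (by omega) fx
      pP.comap_subtype hle a ha b hb
    refine ⟨trivial, key ⁅a, b⁆ ?_⟩
    rw [commutatorElement_def, map_mul, map_mul, map_mul, h, mul_assoc (ρ b), ← map_mul, mul_inv_cancel,
      map_one, mul_one, ← map_mul, mul_inv_cancel, map_one]
  · obtain ⟨g, hg', rfl⟩ := c2 hg
    exact ⟨trivial, key g (congrArg Units.val ((hy e).two hg'))⟩
  · obtain ⟨g, hg', rfl⟩ := c1 hg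
    refine (pm_one (hy e) oc q3 hg' (k := k) (Subtype.ext hk)).imp (key g) fun h v hv => ?_
    exact congrArg Subtype.val (LinearMap.congr_fun h ⟨v, hv⟩)

end Cfsg.Agent.SG
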