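/-
The case `q = 3`, where the stabiliser induces only a quaternion group on the line.
-/
import Mathlib
import Cfsg.Agent.SG.KTv
import Cfsg.Agent.SG.KCK1

set_option autoImplicit false
set_option linter.unusedVariables false

namespace Cfsg.Agent.SG

open Matrix Cfsg.Geo Module
open scoped MatrixGroups commutatorElement

variable {nn : ℕ} {F : Type*} [Field F] [Fintype F]

local notation "Mn" => Matrix (Fin nn) (Fin nn) F
local notation "SLn" => specialLinear (Fin nn) F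
local notation "Zn" => scalars (Fin nn) F
local notation "GLn" => GL (Fin nn) F

namespace KQ8

open TV

/-- Conjugating an element that moves every vector inside `L` and fixes `L` pointwise. -/
theorem cj {L R : Submodule F (Fin nn → F)} (hR : L ⊔ R = ⊤) {m k : GLn}
    (hm : ∀ l ∈ L, (m : Mn) *ᵥ l = l) (hk : ∀ r ∈ R, (k : Mn) *ᵥ r = r)
    (hL : ∀ l ∈ L, (k : Mn) *ᵥ l ∈ L) {v l : Fin nn → F} (hv : (m : Mn) *ᵥ v = v + l) :
    ((k * m * k⁻¹ : GLn) : Mn) *ᵥ v = v + (k : Mn) *ᵥ l := by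
  obtain ⟨w, hw, r, hr, rfl⟩ := Submodule.mem_sup.1 (hR ▸ Submodule.mem_top : v ∈ L ⊔ R)
  have e1 : (m : Mn) *ᵥ r = r + l := by
    rw [mulVec_add, hm w hw, add_assoc] at hv
    exact add_left_cancel hv
  rw [mul_ap, mul_ap, mulVec_add, inv_ap (hk r hr), mulVec_add, hm _ (inv_mem hL hw), e1,
    mulVec_add, mulVec_add, ap_inv, hk r hr, add_assoc]

omit [Fintype F] in
theorem odd_pow {g : GLn} {a b : Fin nn → F} (h1 : (g : Mn) *ᵥ a = b) (h2 : (g : Mn) *ᵥ b = -a)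
    (j : ℕ) : (((g ^ (2 * j + 1) : GLn) : Mn) *ᵥ a = b ∧ ((g ^ (2 * j + 1) : GLn) : Mn) *ᵥ b = -a) ∨
      (((g ^ (2 * j + 1) : GLn) : Mn) *ᵥ a = -b ∧ ((g ^ (2 * j + 1) : GLn) : Mn) *ᵥ b = a) := by
  induction j with
  | zero => left; simpa using ⟨h1, h2⟩
  | succ j ih =>
    have e : g ^ (2 * (j + 1) + 1) = g * (g * g ^ (2 * j + 1)) := by
      rw [← pow_succ', ← pow_succ']; congr 1
    rw [e]
    rcases ih with ⟨i1, i2⟩ | ⟨i1, i2⟩
    · right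
      constructor <;> simp only [mul_ap, i1, i2, h1, h2, mulVec_neg, neg_neg]
    · left
      constructor <;> simp only [mul_ap, i1, i2, h1, h2, mulVec_neg, neg_neg]

end KQ8

open TV KQ8 in
theorem CK.q8 {G Γ : Subgroup GLn} (h : CK G) (hq : Fintype.card F = 3) {a b : Fin nn → F} (i : Ind2 a b)
    (hw : W G a b = sp a b) (h4 : 4 ≤ nn) {R : Submodule F (Fin nn → F)} (hR : sp a b ⊔ R = ⊤) (hΓ : Γ ≤ G)
    (hN : ∀ g ∈ Γ, ∀ v ∈ R, (g : Mn) *ᵥ v ∈ R) (hQ : TV.Q2 Γ (sp a b))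
    (h2 : ∀ g ∈ ⁅Γ, Γ⁆, ∀ k : ℕ, g ^ 2 ^ k = 1 →
      (∀ v ∈ R, (g : Mn) *ᵥ v = v) ∨ ∀ v ∈ R, (g : Mn) *ᵥ v = -v) : HasT G := by
  have h3 : (3 : F) = 0 := by
    have := FiniteField.cast_card_eq_zero F
    rw [hq] at this
    exact_mod_cast this
  have three : ∀ v : Fin nn → F, v + v + v = 0 := fun v => by
    rw [show v + v + v = (3 : F) • v by module, h3, zero_smul]
  have ha := WB_left a b
  have hb := WB_right a b
  have i' : Ind2 b a := fun s t e => (i t s (by rw [← e]; abel)).symm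
  obtain ⟨t, ht, t1, t2⟩ := hQ a ha b hb i 1
  obtain ⟨s, hs, s1, s2⟩ := hQ b hb a ha i' 1
  rw [one_smul] at t2 s2
  have t1' := inv_ap t1
  have t2' : ((t⁻¹ : GLn) : Mn) *ᵥ b = b - a := inv_ap (by rw [mulVec_sub, t1, t2]; abel)
  have s1' := inv_ap s1
  have s2' : ((s⁻¹ : GLn) : Mn) *ᵥ a = a - b := inv_ap (by rw [mulVec_sub, s1, s2]; abel)
  have g1 : ((⁅t, s⁆ : GLn) : Mn) *ᵥ a = b := by
    simp only [commutatorElement_def, mul_ap, mulVec_sub, mulVec_add, t1, t2, s1, s2, t1', t2',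
      s1', s2']
    linear_combination (exp := 1) three a
  have g2 : ((⁅t, s⁆ : GLn) : Mn) *ᵥ b = -a := by
    simp only [commutatorElement_def, mul_ap, mulVec_sub, mulVec_add, t1, t2, s1, s2, t1', t2',
      s1', s2']
    abel
  have hg : ⁅t, s⁆ ∈ ⁅Γ, Γ⁆ := Subgroup.commutator_mem_commutator ht hs
  have hgG : ⁅t, s⁆ ∈ G := by
    rw [commutatorElement_def]
    exact G.mul_mem (G.mul_mem (G.mul_mem (hΓ ht) (hΓ hs)) (G.inv_mem (hΓ ht))) (G.inv_mem (hΓ hs))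
  -- an element fixing `R` pointwise and acting as a rotation on the line
  obtain ⟨k, hk, k1, k2⟩ : ∃ k ∈ fixS G R, (k : Mn) *ᵥ a = b ∧ (k : Mn) *ᵥ b = -a := by
    obtain ⟨e, n, ⟨j, rfl⟩, hn⟩ := Nat.exists_eq_two_pow_mul_odd (orderOf_pos ⁅t, s⁆).ne'
    have p1 : (⁅t, s⁆ ^ (2 * j + 1)) ^ 2 ^ e = 1 := by
      rw [← pow_mul, mul_comm, ← hn, pow_orderOf_eq_one]
    obtain ⟨k, hk, hk'⟩ : ∃ k ∈ fixS G R, ((k : Mn) *ᵥ a = b ∧ (k : Mn) *ᵥ b = -a) ∨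
        ((k : Mn) *ᵥ a = -b ∧ (k : Mn) *ᵥ b = a) := by
      rcases h2 _ (Subgroup.pow_mem _ hg (2 * j + 1)) e p1 with c | c
      · exact ⟨_, ⟨G.pow_mem hgG _, c⟩, odd_pow g1 g2 j⟩
      · obtain ⟨z, hz, z1⟩ := CK1.exists_sc (nn := nn) (s := (-1 : F)) (neg_ne_zero.2 one_ne_zero)
        refine ⟨z * ⁅t, s⁆ ^ (2 * j + 1), ⟨G.mul_mem (h.sc hz) (G.pow_mem hgG _), fun v hv => by
          rw [mul_ap, c v hv, z1]; simp⟩, ?_⟩
        rcases odd_pow g1 g2 j with ⟨c1, c2⟩ | ⟨c1, c2⟩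
        · right
          constructor <;> simp only [mul_ap, c1, c2, z1] <;> simp
        · left
          constructor <;> simp only [mul_ap, c1, c2, z1] <;> simp
    rcases hk' with c | ⟨c1, c2⟩
    · exact ⟨k, hk, c⟩
    · exact ⟨k⁻¹, (fixS G R).inv_mem hk, inv_ap c2, inv_ap (by rw [mulVec_neg, c1, neg_neg])⟩
  have pres : ∀ g : GLn, (g : Mn) *ᵥ a ∈ sp a b → (g : Mn) *ᵥ b ∈ sp a b →
      ∀ l ∈ sp a b, (g : Mn) *ᵥ l ∈ sp a b := fun g e1 e2 l hl => by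
    obtain ⟨x, y, rfl⟩ := Submodule.mem_span_pair.1 hl
    rw [mulVec_add, mulVec_smul, mulVec_smul]
    exact add_mem (Submodule.smul_mem _ _ e1) (Submodule.smul_mem _ _ e2)
  have kL := pres k (k1 ▸ hb) (k2 ▸ neg_mem ha)
  obtain ⟨k', hk', l1, l2⟩ : ∃ k' ∈ fixS G R, (k' : Mn) *ᵥ a = a + b ∧ (k' : Mn) *ᵥ b = a - b := by
    refine ⟨t * k * t⁻¹, ⟨G.mul_mem (G.mul_mem (hΓ ht) hk.1) (G.inv_mem (hΓ ht)), fun v hv => ?_⟩,
      ?_, ?_⟩
    · rw [mul_ap, mul_ap, hk.2 _ (inv_mem (hN t ht) hv), ap_inv]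
    · rw [mul_ap, mul_ap, t1', k1, t2, add_comm]
    · simp only [mul_ap, t2', mulVec_sub, mulVec_neg, k1, k2, t1, t2]
      linear_combination (exp := 1) -three a
  have kL' := pres k' (l1 ▸ add_mem ha hb) (l2 ▸ sub_mem ha hb)
  obtain ⟨τ, hτ, τL, τR⟩ : ∃ τ ∈ G, (∀ l ∈ sp a b, (τ : Mn) *ᵥ l = -l) ∧
      ∀ r ∈ R, (τ : Mn) *ᵥ r = r := by
    refine ⟨k * k, G.mul_mem hk.1 hk.1, fun l hl => ?_, fun r hr => by
      rw [mul_ap, hk.2 r hr, hk.2 r hr]⟩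
    obtain ⟨x, y, rfl⟩ := Submodule.mem_span_pair.1 hl
    simp only [mul_ap, mulVec_add, mulVec_smul, mulVec_neg, k1, k2]
    module
  have τV : ∀ v, ∃ l ∈ sp a b, (τ : Mn) *ᵥ v = v + l := fun v => by
    obtain ⟨w, hw, r, hr, rfl⟩ := Submodule.mem_sup.1 (hR ▸ Submodule.mem_top : v ∈ sp a b ⊔ R)
    exact ⟨-w - w, sub_mem (neg_mem hw) hw, by rw [mulVec_add, τL w hw, τR r hr]; abel⟩
  obtain ⟨y, hyR, hy⟩ : ∃ y ∈ R, y ∉ sp a b := by
    by_contra hc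
    push Not at hc
    have e : sp a b = ⊤ := by rw [← hR]; exact (sup_eq_left.2 hc).symm
    have := i.finrank
    rw [e, finrank_top] at this
    simp at this
    omega
  obtain ⟨e, he, e1⟩ := trans_W (G := G) (a := a) (b := b) (x := y) (y := y + a)
    (by rw [hw, i.finrank]; omega) (hw ▸ hy) (by
      rw [hw]; intro c; exact hy (by simpa using sub_mem c ha))
  have he' := (fix2 G a b).inv_mem he
  obtain ⟨m, hm, m0, m1, m2⟩ : ∃ m ∈ G, (∀ l ∈ sp a b, (m : Mn) *ᵥ l = l) ∧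
      (∀ v, ∃ l ∈ sp a b, (m : Mn) *ᵥ v = v + l) ∧ (m : Mn) *ᵥ y = y + a := by
    have m0 : ∀ l ∈ sp a b, ((τ * (e * τ * e⁻¹) : GLn) : Mn) *ᵥ l = l := fun l hl => by
      rw [mul_ap, mul_ap, mul_ap, WB_fix he' hl, τL l hl, WB_fix he (neg_mem hl),
        τL _ (neg_mem hl), neg_neg]
    refine ⟨τ * (e * τ * e⁻¹), G.mul_mem hτ (G.mul_mem (G.mul_mem he.1 hτ) he'.1), m0, fun v => ?_, ?_⟩
    · obtain ⟨l, hl, c⟩ := τV (((e⁻¹ : GLn) : Mn) *ᵥ v)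
      obtain ⟨l', hl', c'⟩ := τV v
      refine ⟨l' - l, sub_mem hl' hl, ?_⟩
      rw [mul_ap, mul_ap, mul_ap, c, mulVec_add, ap_inv, WB_fix he hl, mulVec_add, c', τL l hl]
      abel
    · have c : ((τ * (e * τ * e⁻¹) : GLn) : Mn) *ᵥ (y + a) = y - a := by
        rw [mul_ap, mul_ap, mul_ap, inv_ap e1, τR y hyR, e1, mulVec_add, τR y hyR, τL a ha]
        abel
      rw [mulVec_add, m0 a ha] at c
      linear_combination (exp := 1) c - three a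
  have key : ∀ v, ∀ l ∈ sp a b, (m : Mn) *ᵥ v = v + l →
      ((m * (k * m * k⁻¹) * (k' * m * k'⁻¹) : GLn) : Mn) *ᵥ v =
        v + (l + (k : Mn) *ᵥ l + (k' : Mn) *ᵥ l) := fun v l hl c => by
    have c1 : (m : Mn) *ᵥ (v + (k' : Mn) *ᵥ l) = v + (k' : Mn) *ᵥ l + l := by
      rw [mulVec_add, c, m0 _ (kL' l hl)]; abel
    rw [mul_ap, mul_ap, cj hR m0 hk'.2 kL' c, cj hR m0 hk.2 kL c1, mulVec_add, c1, m0 _ (kL l hl)]
    abel
  have two : (2 : F) ≠ 0 := fun c => one_ne_zero (α := F) (by linear_combination h3 - c)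
  have hu : a + b + (a + b) ∈ sp a b := add_mem (add_mem ha hb) (add_mem ha hb)
  refine TV.fin (x := y) (u := a + b + (a + b)) (g := m * (k * m * k⁻¹) * (k' * m * k'⁻¹))
    (G.mul_mem (G.mul_mem hm (G.mul_mem (G.mul_mem hk.1 hm) (G.inv_mem hk.1)))
      (G.mul_mem (G.mul_mem hk'.1 hm) (G.inv_mem hk'.1)))
    (fun c => two (i 2 2 (by rw [← c]; module)).1) ?_ ?_ fun v => ?_
  · rw [key _ 0 (zero_mem _) (by rw [m0 _ hu, add_zero])]
    simp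
  · rw [key y a ha m2, k1, l1]
  · obtain ⟨l, hl, c⟩ := m1 v
    obtain ⟨α, β, rfl⟩ := Submodule.mem_span_pair.1 hl
    refine ⟨α, ?_⟩
    rw [key _ (β • b) (Submodule.smul_mem _ _ hb) (by
      rw [mulVec_sub, mulVec_smul, c, m2]; module), mulVec_smul, mulVec_smul, k2, l2]
    module

end Cfsg.Agent.SG
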