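import Mathlib
import Cfsg.Agent.SG.KDefs
import Cfsg.Agent.SG.KWA
import Cfsg.Agent.SG.KWB
import Cfsg.Agent.S7.Deg
import Cfsg.Agent.Cl.MxLin3

set_option autoImplicit false

namespace Cfsg.Agent.SG

open Matrix Cfsg.Geo Cfsg.Agent.Cl.D5 Module
open scoped MatrixGroups ComplexConjugate commutatorElement

variable {nn : ℕ} {F : Type*} [Field F] [Fintype F]

local notation "Mn" => Matrix (Fin nn) (Fin nn) F
local notation "SLn" => specialLinear (Fin nn) F
local notation "Zn" => scalars (Fin nn) F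
local notation "GLn" => GL (Fin nn) F

theorem SB_card {G : Subgroup GLn} (h : CK G) {a b : Fin nn → F} (i : Ind2 a b) (g : GLn)
    [DecidablePred fun x => (g : Mn) *ᵥ x ∉ W G a b] :
    Fintype.card F ^ nn ≤ (Finset.univ.filter fun x => (g : Mn) *ᵥ x ∉ W G a b).card + Fintype.card F ^ (nn - 1) := by
  classical
  obtain ⟨η, hη⟩ := h.exists_sp i
  have h1 : (W G a b).comap (toLin' (g : Mn)) ≠ ⊤ := fun e => hη.1 (dotProduct_eq_zero _ fun y => by
    have : ((g⁻¹ : GLn) : Mn) *ᵥ y ∈ (W G a b).comap (toLin' (g : Mn)) := e ▸ Submodule.mem_top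
    rw [Submodule.mem_comap, toLin'_apply, mulVec_mulVec, Units.mul_inv, one_mulVec] at this
    exact this η hη)
  have h2 := Submodule.finrank_lt h1
  rw [finrank_fin_fun] at h2
  have h3 : Fintype.card ((W G a b).comap (toLin' (g : Mn))) ≤ Fintype.card F ^ (nn - 1) := by
    rw [Module.card_eq_pow_finrank (K := F)]
    exact Nat.pow_le_pow_right Fintype.card_pos (by omega)
  have h4 := Finset.card_filter_add_card_filter_not (s := Finset.univ) fun x => (g : Mn) *ᵥ x ∉ W G a b
  rw [Finset.card_univ, Fintype.card_fun, Fintype.card_fin] at h4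
  rw [Fintype.card_subtype] at h3
  rw [← h4]
  refine Nat.add_le_add_left (le_trans (le_of_eq ?_) h3) _
  congr 1
  ext x
  simp

theorem SB_idx {G : Subgroup GLn} (h3 : 3 ≤ nn) {K : Subalgebra F Mn} (hK : IsFieldSubalgebra nn K)
    (hS : ∀ g ∈ SLn, (g : Mn) ∈ K → g ∈ G) : ∃ T ≤ G, (∀ g ∈ T, (g : Mn) ∈ K) ∧
      ∃ e ≤ Fintype.card F - 1, e * Nat.card T = Fintype.card F ^ nn - 1 := by
  have : NeZero nn := ⟨by omega⟩
  let _ := (Cl.Max.IsFieldSubalgebra.isField hK).toField
  let io : Kˣ →* GLn := Units.map K.val.toMonoidHom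
  have inj : Function.Injective io := Units.map_injective Subtype.val_injective
  refine ⟨(G.comap io).map io, Subgroup.map_comap_le _ _, ?_, (G.comap io).index, ?_, ?_⟩
  · rintro _ ⟨a, -, rfl⟩
    exact (a : K).2
  · have h1 : ((GeneralLinearGroup.det : GLn →* Fˣ).comp io).ker ≤ G.comap io := fun a ha => hS _ ha (a : K).2
    have h2 := Subgroup.index_dvd_of_le h1
    rw [Subgroup.index_ker] at h2
    have h4 := h2.trans (Subgroup.card_subgroup_dvd_card _)
    rw [Nat.card_units, Nat.card_eq_fintype_card] at h4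
    exact Nat.le_of_dvd (Nat.sub_pos_of_lt Fintype.one_lt_card) h4
  · rw [Subgroup.card_map_of_injective inj, Subgroup.index_mul_card, Nat.card_units, Cl.Mx.card_fieldSubalgebra hK]

theorem CK.singer {G : Subgroup GLn} (h : CK G) {K : Subalgebra F Mn} (hK : IsFieldSubalgebra nn K)
    (hS : ∀ g ∈ SLn, (g : Mn) ∈ K → g ∈ G) {a b : Fin nn → F} (i : Ind2 a b) {c : ℕ}
    (hc : finrank F (W G a b) + c = nn) : nn ≤ 3 * c := by
  classical
  by_contra hn
  obtain ⟨T, hT, tK, e, he, hi⟩ := SB_idx h.dim hK hS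
  obtain ⟨p, hp⟩ := CharP.exists F
  obtain ⟨n, pp, hq⟩ := FiniteField.card F p
  letI : Fintype K := Fintype.ofFinite K
  obtain ⟨P, hP⟩ : ∃ P : Mn → (Fin nn → F) → Prop,
      ∀ t x, P t x ↔ Ind2 (t *ᵥ a) (t *ᵥ b) ∧ t *ᵥ x ∉ W G (t *ᵥ a) (t *ᵥ b) := ⟨_, fun _ _ => Iff.rfl⟩
  have un : ∀ t ∈ K, t ≠ 0 → ∃ g : GLn, (g : Mn) = t := fun t ht t0 =>
    (hK.inv t ht t0).elim fun y hy => IsUnit.of_mul_eq_one y hy.2
  have p0 : ∀ x, ¬ P 0 x := fun x k => one_ne_zero (((hP _ _).1 k).1 1 1 (by simp)).1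
  have h1 : ∀ x, p ∣ (Finset.univ.filter fun t : K => P t x).card := fun x => by
    let f : (Fin nn → F) → K →ₗ[F] Fin nn → F := fun v => ((mulVecBilin F F).flip v).comp K.val.toLinearMap
    have := S7.deg_sum (c := c) (fun a b x => if Ind2 a b ∧ x ∉ W G a b then (1 : F) else 0)
      (fun a b x => if_congr h.good_symm.1 rfl rfl) (fun a b x => if_congr h.good_symm.2 rfl rfl) (fun a' b' => by
        by_cases k : Ind2 a' b'
        · refine ⟨W G a' b', by rw [finrank_fin_fun, h.finrank_W k i]; omega, fun u hu x => if_congr ?_ rfl rfl⟩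
          rw [(W G a' b').add_mem_iff_left hu]
        · exact ⟨⊤, by simp, fun u _ x => by simp [k]⟩) (f a) (f b) (f x) (by rw [hK.finrank_eq]; omega)
    rw [Finset.sum_boole, CharP.cast_eq_zero_iff F p] at this
    convert this using 3 with t
    exact hP _ _
  have h2 : ∀ x, Nat.card ↥T ∣ (Finset.univ.filter fun t : K => P t x).card := fun x => by
    let A : SubMulAction ↥T Mn :=
      { carrier := {t | t ∈ K ∧ P t x}
        smul_mem' := fun g t ht => ⟨mul_mem (tK g g.2) ht.1, by
          have k := (hP _ _).1 ht.2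
          change P (((g : GLn) : Mn) * t) x
          rw [hP, ← mulVec_mulVec, ← mulVec_mulVec, ← mulVec_mulVec, smul_mem_W (hT g.2)]
          exact ⟨k.1.mulVec _, k.2⟩⟩ }
    have e := MulAction.selfEquivOrbitsQuotientProd (G := ↥T) (X := A) fun t => eq_bot_iff.2 fun g hg => by
      obtain ⟨u, hu⟩ := un t t.2.1 fun k => p0 x (k ▸ t.2.2)
      have : ((g : GLn) : Mn) * t = t := congrArg Subtype.val hg
      rw [← hu, ← Units.val_mul, Units.val_inj, mul_eq_right] at this
      exact Subtype.ext this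
    rw [← Fintype.card_subtype, ← Nat.card_eq_fintype_card,
      Nat.card_congr ((Equiv.subtypeSubtypeEquivSubtypeInter (· ∈ K) (P · x)).trans e), Nat.card_prod]
    exact dvd_mul_left _ _
  have hK7 : (Finset.univ.erase (0 : K)).card = Fintype.card F ^ nn - 1 := by
    rw [Finset.card_erase_of_mem (Finset.mem_univ _), Finset.card_univ, Module.card_eq_pow_finrank (K := F),
      hK.finrank_eq]
  have q2 : 1 < Fintype.card F := Fintype.one_lt_card
  generalize Nat.card ↥T = m at hi h2
  have n0 : nn ≠ 0 := by omega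
  have q7 : 1 < Fintype.card F ^ nn := Nat.one_lt_pow n0 q2
  have np : ¬ p ∣ e * m := fun k => by
    have : p ∣ Fintype.card F ^ nn := dvd_pow (hq ▸ dvd_pow_self p n.ne_zero) n0
    exact pp.not_dvd_one ((Nat.dvd_sub_iff_right q7.le this).1 (hi ▸ k))
  have m0 : 0 < m := Nat.pos_of_ne_zero fun k => np (by simp [k])
  have h3 : ∀ x, (Finset.univ.filter fun t : K => P t x).card + m ≤ e * m := fun x => by
    obtain ⟨k, hk⟩ := h2 x
    have h4 : (Finset.univ.filter fun t : K => P t x).card ≤ e * m := by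
      rw [hi, ← hK7]
      exact Finset.card_le_card fun t ht => Finset.mem_erase.2
        ⟨fun k => p0 x (by simpa [k] using (Finset.mem_filter.1 ht).2), Finset.mem_univ _⟩
    have h5 := h4.lt_of_ne fun k => np (k ▸ h1 x)
    rw [hk, mul_comm m] at h5 ⊢
    exact (Nat.succ_mul k m).ge.trans (Nat.mul_le_mul_right m (lt_of_mul_lt_mul_right h5 m0.le))
  have h4 : ∀ t ∈ Finset.univ.erase (0 : K),
      Fintype.card F ^ nn ≤ (Finset.univ.filter fun x => P t x).card + Fintype.card F ^ (nn - 1) := fun t ht => by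
    obtain ⟨g, hg⟩ := un t t.2 fun k => (Finset.mem_erase.1 ht).1 (Subtype.ext k)
    convert SB_card h (i.mulVec g) g using 4 with x
    rw [hP, ← hg, and_iff_right (i.mulVec g)]
  have h5 := Finset.sum_le_sum h4
  have h6 := Finset.sum_le_sum fun x (_ : x ∈ Finset.univ) => h3 x
  have h7 : ∑ t ∈ Finset.univ.erase (0 : K), (Finset.univ.filter fun x => P t x).card ≤
      ∑ x, (Finset.univ.filter fun t : K => P t x).card := by
    refine (Finset.sum_le_sum_of_subset (Finset.erase_subset _ _)).trans (le_of_eq ?_)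
    simp only [Finset.card_filter]
    exact Finset.sum_comm
  simp only [Finset.sum_add_distrib, Finset.sum_const, smul_eq_mul, hK7, ← hi, Finset.card_univ, Fintype.card_fun,
    Fintype.card_fin] at h5 h6
  have h9 : Fintype.card F ^ nn = Fintype.card F ^ (nn - 1) * Fintype.card F := by
    rw [← pow_succ, Nat.sub_add_cancel (by omega)]
  rw [h9] at h5 h6
  have h8 : Fintype.card F ^ (nn - 1) * m * Fintype.card F ≤ Fintype.card F ^ (nn - 1) * m * e := by nlinarith
  have := Nat.le_of_mul_le_mul_left h8 (by positivity)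
  omega

end Cfsg.Agent.SG
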