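import Mathlib
import Cfsg.Agent.SG.KTv
import Cfsg.Agent.SG.KCK1

set_option autoImplicit false
set_option linter.unusedVariables false

namespace Cfsg.Agent.SG

open Matrix Cfsg.Geo Module
open scoped MatrixGroups commutatorElement

variable {nn : ℕ} {F : Type*} [Field F] [Fintype F]

local notation "Mn" => Matrix (Fin nn) (Fin nn) F
local notation "SLn" => specialLinear (Fin nn) F
local notation "Zn" => scalars (Fin nn) F
local notation "GLn" => GL (Fin nn) F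

open TV

theorem CK.trO_norm {G X : Subgroup GLn} (h : CK G) {a b : Fin nn → F} (i : Ind2 a b) {l : ℕ} (hl : l.Prime)
    (hX : Syl l X (fix2 G a b)) : TrO (Subgroup.normalizer (X : Set GLn) ⊓ G) (Fx X) := by
  intro c hc d hd x hx i' hn u hu
  obtain ⟨g, hg, g1, g2, g3⟩ := h.tr c d x i' hn u hu
  have l0 : X ≤ fix2 G c d := fun y hy => ⟨(hX.le hy).1, hc y hy, hd y hy⟩
  have s0 : ¬ l ∣ X.relIndex (fix2 G c d) := by
    have := (card_mul l0).trans ((h.card_fix2 i' i).trans (card_mul hX.le).symm)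
    rw [Nat.eq_of_mul_eq_mul_left Nat.card_pos this]
    exact hX.nd
  have l1 : X ≤ fix2 (fix2 G c d) (x + u) (x + u) := fun y hy =>
    have e : (y : Mn) *ᵥ (x + u) = x + u := by rw [mulVec_add, hx y hy, WB_fix (l0 hy) hu]
    ⟨l0 hy, e, e⟩
  have l2 : fix2 (fix2 G c d) (x + u) (x + u) ≤ fix2 G c d := fun y hy => hy.1
  have s1 : Syl l X (fix2 (fix2 G c d) (x + u) (x + u)) := ⟨l1, hX.pg, fun e => s0 (by
    rw [← Subgroup.relIndex_mul_relIndex _ _ _ l1 l2]; exact e.mul_right _)⟩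
  have hg' : g ∈ fix2 G c d := ⟨hg, g1, g2⟩
  let Y := X.map (MulAut.conj g).toMonoidHom
  have l3 : Y ≤ fix2 (fix2 G c d) (x + u) (x + u) := by
    rintro _ ⟨y, hy, rfl⟩
    have e : ((g * y * g⁻¹ : GLn) : Mn) *ᵥ (x + u) = x + u := by
      rw [mul_ap, mul_ap, inv_ap g3, hx y hy, g3]
    exact ⟨mul_mem (mul_mem hg' (l0 hy)) (inv_mem hg'), e, e⟩
  have e : Nat.card Y = Nat.card X := Subgroup.card_map_of_injective (MulAut.conj g).injective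
  have s2 : Syl l Y (fix2 (fix2 G c d) (x + u) (x + u)) := ⟨l3, hX.pg.map _, by
    have := (card_mul l3).trans (card_mul l1).symm
    rw [e] at this
    rw [Nat.eq_of_mul_eq_mul_left Nat.card_pos this]
    exact s1.nd⟩
  obtain ⟨k, hk, e⟩ := Syl.conj hl s1 s2
  refine ⟨k * g, ⟨Subgroup.mem_normalizer_iff.2 fun y => ?_, G.mul_mem hk.1.1 hg⟩,
    by rw [mul_ap, g1, hk.1.2.1], by rw [mul_ap, g2, hk.1.2.2], by rw [mul_ap, g3, hk.2.1]⟩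
  have e1 : k * g * y * (k * g)⁻¹ = k * (g * y * g⁻¹) * k⁻¹ := by group
  rw [e1]
  refine Iff.trans ⟨fun hx => ⟨y, hx, rfl⟩, ?_⟩ (e _)
  rintro ⟨z, hz, e2⟩
  have : z = y := (MulAut.conj g).injective e2
  exact this ▸ hz

theorem KTr_red {Γ Λ : Subgroup GLn} {A : Submodule F (Fin nn → F)} (h : TrO Γ A)
    (H : ∀ u b x : Fin nn → F, ∀ r ∈ Γ, ∀ s ∈ Γ, (r : Mn) *ᵥ u = u → (r : Mn) *ᵥ x = x → (r : Mn) *ᵥ b = b + u →
      (s : Mn) *ᵥ u = u → (s : Mn) *ᵥ b = b → (s : Mn) *ᵥ x = x + b →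
      ∃ g ∈ Λ, (g : Mn) *ᵥ u = u ∧ (g : Mn) *ᵥ b = b ∧ (g : Mn) *ᵥ x = x + u) : TrO Λ A := by
  intro a ha b hb x hx i hn u hu
  by_cases u0 : u = 0
  · exact ⟨1, one_mem _, by simp, by simp, by simp [u0]⟩
  have hA : sp a b ≤ A := Submodule.span_le.2 (by rintro _ (rfl | rfl); exacts [ha, hb])
  obtain ⟨d, hd, j⟩ : ∃ d ∈ sp a b, Ind2 u d := by
    by_contra k
    push Not at k
    have k' : ∀ d ∈ sp a b, ∃ s : F, d = s • u := fun d hd => by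
      by_contra e
      exact k d hd (CK1.ind_of u0 fun s e' => e ⟨s, e'⟩)
    obtain ⟨s, hs⟩ := k' a (WB_left a b)
    obtain ⟨t, ht⟩ := k' b (WB_right a b)
    have e := (i t (-s) (by rw [hs, ht]; module)).2
    rw [neg_eq_zero.1 e, zero_smul] at hs
    exact one_ne_zero (i 1 0 (by simp [hs])).1
  have e : sp u d = sp a b := Submodule.eq_of_le_of_finrank_eq
    (Submodule.span_le.2 (by rintro _ (rfl | rfl); exacts [hu, hd])) (j.finrank.trans i.finrank.symm)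
  have j3 : Ind3 u d x := ind3_of j (e ▸ hn)
  obtain ⟨r, hr, r1, r2, r3⟩ := h u (hA hu) x hx d (hA hd) j3.s23.ind2 j3.s23.notMem u (WB_left _ _)
  obtain ⟨s, hs, s1, s2, s3⟩ := h u (hA hu) d (hA hd) x hx j j3.notMem d (WB_right _ _)
  obtain ⟨g, hg, g1, g2, g3⟩ := H u d x r hr s hs r1 r2 r3 s1 s2 s3
  have hg' : g ∈ fix2 Λ u d := ⟨hg, g1, g2⟩
  exact ⟨g, hg, WB_fix hg' (e ▸ WB_left a b), WB_fix hg' (e ▸ WB_right a b), g3⟩

omit [Fintype F] in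
theorem KTr_comm {u b x : Fin nn → F} {r s : GLn} (r1 : (r : Mn) *ᵥ u = u) (r3 : (r : Mn) *ᵥ x = x)
    (r2 : (r : Mn) *ᵥ b = b + u) (s1 : (s : Mn) *ᵥ u = u) (s2 : (s : Mn) *ᵥ b = b) (s3 : (s : Mn) *ᵥ x = x + b) :
    ((⁅r, s⁆ : GLn) : Mn) *ᵥ u = u ∧ ((⁅r, s⁆ : GLn) : Mn) *ᵥ b = b ∧ ((⁅r, s⁆ : GLn) : Mn) *ᵥ x = x + u := by
  have s1' := inv_ap s1
  have s2' := inv_ap s2
  have r1' := inv_ap r1
  have r3' := inv_ap r3
  have s3' : ((s⁻¹ : GLn) : Mn) *ᵥ x = x - b := inv_ap (by rw [mulVec_sub, s3, s2]; abel)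
  have r2' : ((r⁻¹ : GLn) : Mn) *ᵥ b = b - u := inv_ap (by rw [mulVec_sub, r2, r1]; abel)
  refine ⟨?_, ?_, ?_⟩ <;>
    simp only [commutatorElement_def, mul_ap, mulVec_sub, s1, s2, s3, r1, r2, r3, s1', s2', s3',
      r1', r2', r3', mulVec_add] <;> abel

theorem TrO.comm {Γ : Subgroup GLn} {A : Submodule F (Fin nn → F)} (h : TrO Γ A) : TrO ⁅Γ, Γ⁆ A :=
  KTr_red h fun _ _ _ _ hr _ hs r1 r2 r3 s1 s2 s3 =>
    ⟨_, Subgroup.commutator_mem_commutator hr hs, KTr_comm r1 r2 r3 s1 s2 s3⟩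

/-- The members of `Γ` that are unitriangular on three vectors. -/
def KTrH (Γ : Subgroup GLn) (u b x : Fin nn → F) : Subgroup GLn where
  carrier := {g | g ∈ Γ ∧ (g : Mn) *ᵥ u = u ∧ (∃ c : F, (g : Mn) *ᵥ b = b + c • u) ∧
    ∃ d e : F, (g : Mn) *ᵥ x = x + (d • u + e • b)}
  one_mem' := ⟨Γ.one_mem, by simp, ⟨0, by simp⟩, 0, 0, by simp⟩
  mul_mem' := fun {g h} ⟨g0, g1, ⟨c, g2⟩, d, e, g3⟩ ⟨h0, h1, ⟨c', h2⟩, d', e', h3⟩ => ⟨Γ.mul_mem g0 h0,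
    by rw [mul_ap, h1, g1], ⟨c + c', by rw [mul_ap, h2, mulVec_add, mulVec_smul, g1, g2]; module⟩,
    d + d' + e' * c, e + e', by
      rw [mul_ap, h3, mulVec_add, mulVec_add, mulVec_smul, mulVec_smul, g1, g2, g3]; module⟩
  inv_mem' := fun {g} ⟨g0, g1, ⟨c, g2⟩, d, e, g3⟩ => ⟨Γ.inv_mem g0, inv_ap g1,
    ⟨-c, inv_ap (by rw [mulVec_add, mulVec_smul, g1, g2]; module)⟩, e * c - d, -e, inv_ap (by
      rw [mulVec_add, mulVec_add, mulVec_smul, mulVec_smul, g1, g2, g3]; module)⟩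

omit [Fintype F] in
theorem KTr_pow {p : ℕ} [CharP F p] {k : GLn} {w y : Fin nn → F} (h1 : (k : Mn) *ᵥ w = w)
    (h2 : (k : Mn) *ᵥ y = y + w) : ((k ^ p : GLn) : Mn) *ᵥ y = y := by
  have e : ∀ n : ℕ, ((k ^ n : GLn) : Mn) *ᵥ y = y + (n : F) • w := fun n => by
    induction n with
    | zero => simp
    | succ n ih => rw [pow_succ', mul_ap, ih, mulVec_add, mulVec_smul, h1, h2, Nat.cast_succ]; module
  rw [e, CharP.cast_eq_zero, zero_smul, add_zero]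

theorem TrO.syl {Γ Λ : Subgroup GLn} {A : Submodule F (Fin nn → F)} (h : TrO Γ A) {p : ℕ} (hp : p.Prime)
    [CharP F p] (hΛ : ∀ P ≤ Γ, IsPGroup p P → ⁅P, P⁆ ≤ Λ) : TrO Λ A := by
  refine KTr_red h fun u b x r hr s hs r1 r2 r3 s1 s2 s3 => ?_
  have : Fact p.Prime := ⟨hp⟩
  let N := (fix2 (fix2 ⊤ u b) x x).subgroupOf (KTrH Γ u b x)
  have hN : N.Normal := ⟨fun k hk g => by
    obtain ⟨⟨-, k1, k2⟩, k3, -⟩ := hk
    obtain ⟨-, g1, ⟨c, g2⟩, d, e, g3⟩ := (g⁻¹).2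
    have q : ∀ v, ((k : GLn) : Mn) *ᵥ (((g : GLn)⁻¹ : GLn) : Mn) *ᵥ v = (((g : GLn)⁻¹ : GLn) : Mn) *ᵥ v →
        (((g : GLn) * k * (g : GLn)⁻¹ : GLn) : Mn) *ᵥ v = v := fun v hv => by rw [mul_ap, mul_ap, hv, ap_inv]
    change ((k : GLn) : Mn) *ᵥ _ = _ at k1 k2 k3
    change (((g : GLn)⁻¹ : GLn) : Mn) *ᵥ _ = _ at g1 g2 g3
    have q3 := q x (by rw [g3, mulVec_add, mulVec_add, mulVec_smul, mulVec_smul, k1, k2, k3])
    exact ⟨⟨trivial, q u (by rw [g1, k1]), q b (by rw [g2, mulVec_add, mulVec_smul, k1, k2])⟩, q3, q3⟩⟩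
  have hQ : IsPGroup p (KTrH Γ u b x ⧸ N) := fun q => by
    obtain ⟨g, rfl⟩ := QuotientGroup.mk_surjective q
    refine ⟨2, (QuotientGroup.eq_one_iff (g ^ p ^ 2)).2 ?_⟩
    obtain ⟨-, g1, ⟨c, g2⟩, -⟩ := g.2
    obtain ⟨-, k1, -, d, e, k3⟩ := (g ^ p).2
    have k2 : (((g : GLn) ^ p : GLn) : Mn) *ᵥ b = b := KTr_pow (by rw [mulVec_smul, g1]) g2
    have m : (g : GLn) ^ p ∈ fix2 ⊤ u b := ⟨trivial, k1, k2⟩
    have k4 := KTr_pow (p := p) (WB_fix m (Submodule.mem_span_pair.2 ⟨d, e, rfl⟩)) k3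
    change (g : GLn) ^ p ^ 2 ∈ fix2 (fix2 ⊤ u b) x x
    rw [pow_two, pow_mul]
    exact ⟨pow_mem m p, k4, k4⟩
  obtain ⟨P⟩ : Nonempty (Sylow p (KTrH Γ u b x)) := inferInstance
  have key : ∀ g ∈ KTrH Γ u b x, ∃ k ∈ (P : Subgroup (KTrH Γ u b x)).map (KTrH Γ u b x).subtype,
      (k : Mn) *ᵥ u = (g : Mn) *ᵥ u ∧ (k : Mn) *ᵥ b = (g : Mn) *ᵥ b ∧ (k : Mn) *ᵥ x = (g : Mn) *ᵥ x := fun g hg => by
    have e := (P.mapSurjective (QuotientGroup.mk'_surjective N)).is_maximal' (hQ.to_subgroup ⊤) le_top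
    obtain ⟨k, hk, e'⟩ : QuotientGroup.mk' N ⟨g, hg⟩ ∈ (P : Subgroup (KTrH Γ u b x)).map (QuotientGroup.mk' N) :=
      e.le (Subgroup.mem_top _)
    obtain ⟨⟨-, k1, k2⟩, k3, -⟩ : (k : GLn)⁻¹ * g ∈ fix2 (fix2 ⊤ u b) x x :=
      (QuotientGroup.eq (s := N)).1 e'
    have q : ∀ v, (((k : GLn)⁻¹ * g : GLn) : Mn) *ᵥ v = v → ((k : GLn) : Mn) *ᵥ v = (g : Mn) *ᵥ v := fun v hv => by
      conv_lhs => rw [← hv, mul_ap, ap_inv]
    exact ⟨k, ⟨k, hk, rfl⟩, q u k1, q b k2, q x k3⟩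
  obtain ⟨r', hr', a1, a2, a3⟩ := key r ⟨hr, r1, ⟨1, by rw [r3, one_smul]⟩, 0, 0, by simp [r2]⟩
  obtain ⟨s', hs', b1, b2, b3⟩ := key s ⟨hs, s1, ⟨0, by simp [s2]⟩, 0, 1, by simp [s3]⟩
  exact ⟨_, hΛ _ ((Subgroup.map_subtype_le _).trans (show KTrH Γ u b x ≤ Γ from fun g hg => hg.1)) (P.isPGroup'.map _)
    (Subgroup.commutator_mem_commutator hr' hs'),
    KTr_comm (a1.trans r1) (a3.trans r2) (a2.trans r3) (b1.trans s1) (b2.trans s2) (b3.trans s3)⟩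

end Cfsg.Agent.SG
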