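import Mathlib
import Cfsg.Agent.SG.Defs
import Cfsg.Agent.SG.Eig
import Cfsg.Agent.SG.Tz

set_option autoImplicit false
set_option linter.unusedVariables false

namespace Cfsg.Agent.SG

open Matrix Cfsg.Geo Module
open scoped MatrixGroups ComplexConjugate commutatorElement

variable {nn : ℕ} {F : Type*} [Field F] [Fintype F]

local notation "Mn" => Matrix (Fin nn) (Fin nn) F
local notation "SLn" => specialLinear (Fin nn) F
local notation "Zn" => scalars (Fin nn) F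
local notation "GLn" => GL (Fin nn) F
local notation "qq" => Fintype.card F

omit [Fintype F] in
theorem Lt_mul (a b : GLn) (v : Fin nn → F) :
    ((a * b : GLn) : Mn) *ᵥ v = (a : Mn) *ᵥ ((b : Mn) *ᵥ v) := by
  rw [Units.val_mul, Matrix.mulVec_mulVec]

omit [Fintype F] in
theorem Lt_inv (a : GLn) (v : Fin nn → F) : ((a⁻¹ : GLn) : Mn) *ᵥ ((a : Mn) *ᵥ v) = v := by
  rw [← Lt_mul, inv_mul_cancel, Units.val_one, Matrix.one_mulVec]

omit [Fintype F] in
theorem Lt_inv' (a : GLn) (v : Fin nn → F) : (a : Mn) *ᵥ (((a⁻¹ : GLn) : Mn) *ᵥ v) = v := by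
  rw [← Lt_mul, mul_inv_cancel, Units.val_one, Matrix.one_mulVec]

omit [Fintype F] in
theorem Lt_pow {l : GLn} {v : Fin nn → F} {η : F} (h : (l : Mn) *ᵥ v = η • v) (r : ℕ) :
    ((l ^ r : GLn) : Mn) *ᵥ v = η ^ r • v := by
  induction r with
  | zero => simp
  | succ r ih => rw [pow_succ, Lt_mul, h, Matrix.mulVec_smul, ih, smul_smul, pow_succ']

omit [Fintype F] in
theorem LTr.move {S H : Subgroup GLn} {x : Fin nn → F} (h : LTr H S x) {g : GLn} (hg : g ∈ H) (c : F) :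
    LTr H S (c • (g : Mn) *ᵥ x) := by
  intro g' hg'
  obtain ⟨l, hl, e⟩ := h (g⁻¹ * g' * g) (H.mul_mem (H.mul_mem (H.inv_mem hg) hg') hg)
  refine ⟨g * l * g⁻¹, ncl_conj hg hl, ?_⟩
  rw [Matrix.mulVec_smul, Matrix.mulVec_smul, Lt_mul, Lt_mul, Lt_inv, e, Lt_mul, Lt_mul, Lt_inv']

theorem Sit.lt {K : Subalgebra F Mn} {S H : Subgroup GLn} {m : ℕ} (h : Sit K S H m) (hd : nn ∣ qq - 1) :
    ∃ x0 : Fin nn → F, ∀ x, LTr H S x ∨ ∃ s ∈ S, ∃ c : F, x = c • (s : Mn) *ᵥ x0 := by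
  have hb := h.big
  have hpr := h.sing.pr
  haveI : NeZero nn := ⟨by omega⟩
  obtain ⟨g, hg, ζ, hζ, x, hx, hv⟩ := h.sing.eig (by omega) hd
  obtain ⟨l, hl, c, hc, e⟩ := h.top.2 g (h.nle hg)
  obtain ⟨k, hk, rfl⟩ := hζ.eq_pow_of_pow_eq_one hc
  refine ⟨x k, fun v => ?_⟩
  obtain ⟨i, hi, s, hs, c, rfl⟩ := hv v
  by_cases hik : i = k
  · subst hik
    exact Or.inr ⟨s, hs, c, rfl⟩
  left
  have hsH : s ∈ H := h.nle (h.sing.le (Subgroup.mem_sup_left hs))
  refine LTr.move ?_ hsH c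
  have hcop : Nat.Coprime (nn - k + i) nn := by
    rw [Nat.coprime_comm, hpr.coprime_iff_not_dvd]
    rintro ⟨t, ht⟩
    rcases t with _ | _ | t
    · omega
    · omega
    · have : nn * (t + 1 + 1) = nn * t + nn + nn := by ring
      omega
  have hη := hζ.pow_of_coprime _ hcop
  have hlx : (l : Mn) *ᵥ x i = ζ ^ (nn - k + i) • x i := by
    have h1 := hx i
    rw [e, Matrix.smul_mulVec] at h1
    have h2 : ζ ^ (nn - k) * ζ ^ k = 1 := by
      rw [← pow_add, Nat.sub_add_cancel hk.le, hζ.pow_eq_one]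
    rw [pow_add, ← smul_smul, ← h1, smul_smul, h2, one_smul]
  intro g' hg'
  obtain ⟨l', hl', c', hc', e'⟩ := h.top.2 g' hg'
  obtain ⟨r, -, rfl⟩ := hη.eq_pow_of_pow_eq_one hc'
  refine ⟨l' * l ^ r, (ncl H S).mul_mem hl' ((ncl H S).pow_mem hl r), ?_⟩
  rw [Lt_mul, Lt_pow hlx, e', Matrix.smul_mulVec, Matrix.mulVec_smul]

theorem Sit.lt_all {K : Subalgebra F Mn} {S H : Subgroup GLn} {m : ℕ} (h : Sit K S H m) (hd : nn ∣ qq - 1)
    (hp : PT H) (x : Fin nn → F) : LTr H S x := by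
  classical
  by_cases hx : x = 0
  · subst hx
    intro g hg
    exact ⟨1, (ncl H S).one_mem, by simp⟩
  obtain ⟨x0, h0⟩ := h.lt hd
  by_cases hx0 : x0 = 0
  · rcases h0 x with h1 | ⟨s, hs, c, e⟩
    · exact h1
    · exact absurd (by rw [e, hx0]; simp) hx
  have hb := h.big
  have hT := h.sing.semireg.2.2 x0 hx0
  have hth := h.sing.th
  rw [Nat.gcd_eq_left hd] at hth
  have hq : 1 < qq := Fintype.one_lt_card
  have hm : 0 < m := by rw [← h.sing.card]; exact Nat.card_pos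
  have hU : ({(0 : Fin nn → F)}ᶜ : Set (Fin nn → F)).ncard = qq ^ nn - 1 := by
    rw [Set.ncard_compl, Set.ncard_singleton, Nat.card_eq_fintype_card, Fintype.card_fun,
      Fintype.card_fin]
  have hlt : {w | ∃ s ∈ S, ∃ c : F, c ≠ 0 ∧ w = c • (s : Mn) *ᵥ x0}.ncard <
      ({(0 : Fin nn → F)}ᶜ : Set (Fin nn → F)).ncard := by
    rw [hT, hU, ← hth]
    have h1 : 0 < (qq - 1) * m := Nat.mul_pos (by omega) hm
    have h2 : nn * m * (qq - 1) = nn * ((qq - 1) * m) := by ring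
    rw [h2]
    exact lt_mul_of_one_lt_left h1 (by omega)
  obtain ⟨x1, h1, h2⟩ := Set.exists_mem_notMem_of_ncard_lt_ncard hlt
  have h1' : x1 ≠ 0 := h1
  have hL : LTr H S x1 := by
    rcases h0 x1 with h3 | ⟨s, hs, c, e⟩
    · exact h3
    · refine absurd ⟨s, hs, c, ?_, e⟩ h2
      rintro rfl
      exact h1' (by rw [e, zero_smul])
  obtain ⟨g, hg, c, e⟩ := hp x1 x h1' hx
  have hc : c ≠ 0 := by
    rintro rfl
    exact Tz_ne g h1' (by rw [e, zero_smul])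
  have h4 := hL.move hg c⁻¹
  rwa [e, smul_smul, inv_mul_cancel₀ hc, one_smul] at h4

end Cfsg.Agent.SG
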