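import Mathlib
import Cfsg.Agent.SG.Defs
import Cfsg.Agent.SG.GapV

set_option autoImplicit false
set_option linter.unusedVariables false

namespace Cfsg.Agent.SG

open Matrix Cfsg.Geo Module
open scoped MatrixGroups ComplexConjugate commutatorElement

variable {nn : ℕ} {F : Type*} [Field F] [Fintype F]

local notation "Mn" => Matrix (Fin nn) (Fin nn) F
local notation "SLn" => specialLinear (Fin nn) F
local notation "Zn" => scalars (Fin nn) F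
local notation "GLn" => GL (Fin nn) F
local notation "qq" => Fintype.card F

omit [Fintype F] in
theorem Sm_mul (a b : GLn) (v : Fin nn → F) :
    ((a * b : GLn) : Mn) *ᵥ v = (a : Mn) *ᵥ ((b : Mn) *ᵥ v) := by
  rw [Units.val_mul, mulVec_mulVec]

omit [Fintype F] in
theorem Sm_inv {a : GLn} {v w : Fin nn → F} (h : (a : Mn) *ᵥ v = w) :
    ((a⁻¹ : GLn) : Mn) *ᵥ w = v := by
  rw [← h, ← Sm_mul, inv_mul_cancel, Units.val_one, one_mulVec]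

omit [Fintype F] in
theorem Sm_vo {H : Subgroup GLn} {x y : Fin nn → F} {g : GLn} (hg : g ∈ H)
    (hx : (g : Mn) *ᵥ x = x) : vo H x ((g : Mn) *ᵥ y) = vo H x y := by
  ext w
  constructor
  · rintro ⟨k, hk, kx, rfl⟩
    exact ⟨k * g, mul_mem hk hg, by rw [Sm_mul, hx, kx], Sm_mul _ _ _⟩
  · rintro ⟨k, hk, kx, rfl⟩
    refine ⟨k * g⁻¹, mul_mem hk (inv_mem hg), by rw [Sm_mul, Sm_inv hx, kx], ?_⟩
    rw [Sm_mul, Sm_inv rfl]

theorem Sit.small {K : Subalgebra F Mn} {S H : Subgroup GLn} {m : ℕ} (h : Sit K S H m) (hd : nn ∣ qq - 1)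
    {x : Fin nn → F} (hx : x ≠ 0) (hl : LTr H S x) :
    {y | (∃ g ∈ H, (g : Mn) *ᵥ x = y) ∧ y ≠ x ∧ ¬ Big H x y}.ncard ≤ 2 * (nn * qq) ^ 3 := by
  set A : Set (Fin nn → F) := {y | (∃ g ∈ H, (g : Mn) *ᵥ x = y) ∧ y ≠ x ∧ ¬ Big H x y} with hA
  obtain ⟨nq, hsq, -⟩ := num_sq h.big h.sing.pr (FiniteField.isPrimePow_card F) hd
  have hAinv : ∀ g ∈ H, (g : Mn) *ᵥ x = x → ∀ y ∈ A, (g : Mn) *ᵥ y ∈ A := by
    rintro g hg gx y ⟨⟨k, hk, rfl⟩, hy, hb⟩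
    refine ⟨⟨g * k, mul_mem hg hk, Sm_mul _ _ _⟩, fun e => hy ?_, ?_⟩
    · rw [← Sm_inv e, Sm_inv gx]
    · unfold Big at hb ⊢
      rwa [Sm_vo hg gx]
  have gap : ∀ Y ⊆ A, (∀ g ∈ H, (g : Mn) *ᵥ x = x → ∀ y ∈ Y, (g : Mn) *ᵥ y ∈ Y) →
      Y.ncard < qq ^ (nn - 1) → Y.ncard ≤ 2 * (nn * qq) ^ 3 := fun Y hY hi hlt =>
    (h.gapV hd hx hl Y (fun y hy => (hY hy).1) (fun hy => (hY hy).2.1 rfl) hi).resolve_right
      (not_le.2 hlt)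
  obtain ⟨Y, ⟨hYA, hYi, hYc⟩, hmax⟩ := Set.exists_max_image
    {Y : Set (Fin nn → F) | Y ⊆ A ∧ (∀ g ∈ H, (g : Mn) *ᵥ x = x → ∀ y ∈ Y, (g : Mn) *ᵥ y ∈ Y) ∧
      Y.ncard ≤ 2 * (nn * qq) ^ 3} Set.ncard (Set.toFinite _)
    ⟨∅, Set.empty_subset _, fun _ _ _ _ hy => hy.elim, by simp⟩
  by_cases hAY : A ⊆ Y
  · exact (Set.ncard_le_ncard hAY).trans hYc
  obtain ⟨y, hyA, hyY⟩ := Set.not_subset.1 hAY
  have hVA : vo H x y ⊆ A := by
    rintro w ⟨g, hg, gx, rfl⟩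
    exact hAinv g hg gx y hyA
  have hVi : ∀ g ∈ H, (g : Mn) *ᵥ x = x → ∀ w ∈ vo H x y, (g : Mn) *ᵥ w ∈ vo H x y := by
    rintro g hg gx w ⟨k, hk, kx, rfl⟩
    exact ⟨g * k, mul_mem hg hk, by rw [Sm_mul, kx, gx], Sm_mul _ _ _⟩
  have hVc := gap _ hVA hVi (not_le.1 hyA.2.2)
  have hUA : Y ∪ vo H x y ⊆ A := Set.union_subset hYA hVA
  have hUi : ∀ g ∈ H, (g : Mn) *ᵥ x = x → ∀ w ∈ Y ∪ vo H x y, (g : Mn) *ᵥ w ∈ Y ∪ vo H x y := by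
    rintro g hg gx w (hw | hw)
    · exact Or.inl (hYi g hg gx w hw)
    · exact Or.inr (hVi g hg gx w hw)
  have hβ : 2 ≤ 2 * (nn * qq) ^ 3 := by
    have : 0 < (nn * qq) ^ 3 := by
      have := h.big
      have : 0 < qq := Fintype.card_pos
      positivity
    omega
  have hUc : (Y ∪ vo H x y).ncard < qq ^ (nn - 1) := by
    refine lt_of_le_of_lt ?_ hsq
    have := Set.ncard_union_le Y (vo H x y)
    nlinarith
  have hle := hmax _ ⟨hUA, hUi, gap _ hUA hUi hUc⟩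
  have hyV : y ∈ vo H x y := ⟨1, one_mem _, by simp, by simp⟩
  have hlt : Y.ncard < (Y ∪ vo H x y).ncard :=
    Set.ncard_lt_ncard ⟨Set.subset_union_left, fun hs => hyY (hs (Or.inr hyV))⟩
  omega

end Cfsg.Agent.SG
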