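import Mathlib
import Cfsg.Agent.SG.Defs
import Cfsg.Agent.SG.Lt
import Cfsg.Agent.SG.Sm
import Cfsg.Agent.SG.Num

set_option autoImplicit false
set_option linter.unusedVariables false
set_option linter.unusedSectionVars false

namespace Cfsg.Agent.SG

open Matrix Cfsg.Geo Module
open scoped MatrixGroups ComplexConjugate commutatorElement

variable {nn : ℕ} {F : Type*} [Field F] [Fintype F]

local notation "Mn" => Matrix (Fin nn) (Fin nn) F
local notation "SLn" => specialLinear (Fin nn) F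
local notation "Zn" => scalars (Fin nn) F
local notation "GLn" => GL (Fin nn) F
local notation "qq" => Fintype.card F

namespace NoSm

open MulAction Subgroup

variable {H : Subgroup (GL (Fin nn) F)}

/-- The length of the orbit of `y` under the stabiliser of `x`. -/
noncomputable def r (H : Subgroup (GL (Fin nn) F)) (x y : Fin nn → F) : ℕ :=
  (stabilizer H y).relIndex (stabilizer H x)

theorem vo_eq (x y : Fin nn → F) : vo H x y = orbit (stabilizer H x) y :=
  Set.ext fun w => ⟨fun ⟨g, h1, h2, h3⟩ => ⟨⟨⟨g, h1⟩, h2⟩, h3⟩, fun ⟨g, e⟩ => ⟨g.1, g.1.2, g.2, e⟩⟩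

theorem ncard_vo (x y : Fin nn → F) : (vo H x y).ncard = r H x y := by
  rw [vo_eq, ← index_stabilizer]
  rfl

theorem r_ne (x y : Fin nn → F) : r H x y ≠ 0 := index_ne_zero_of_finite

theorem st_le (c : F) (y : Fin nn → F) : stabilizer H y ≤ stabilizer H (c • y) := fun g hg =>
  (mulVec_smul _ c y).trans (congrArg (c • ·) hg)

theorem st_eq {c : F} (hc : c ≠ 0) (y : Fin nn → F) : stabilizer H (c • y) = stabilizer H y :=
  le_antisymm (by simpa [inv_smul_smul₀ hc] using st_le (H := H) c⁻¹ (c • y)) (st_le c y)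

theorem r_smul (g : H) (x y : Fin nn → F) : r H (g • x) (g • y) = r H x y := by
  rw [r, stabilizer_smul_eq_stabilizer_map_conj, stabilizer_smul_eq_stabilizer_map_conj,
    relIndex_map_map_of_injective _ _ (MulAut.conj g).injective, r]

theorem pt_ne (hp : PT H) {x y : Fin nn → F} (hx : x ≠ 0) (hy : y ≠ 0) :
    ∃ g : H, stabilizer H (g • x) = stabilizer H y := by
  obtain ⟨g, hg, c, e⟩ := hp x y hx hy
  refine ⟨⟨g, hg⟩, (congrArg _ e).trans (st_eq (fun k => hx ?_) y)⟩
  rw [k, zero_smul] at e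
  exact (smul_eq_zero_iff_eq g).1 e

theorem card_ne {α : Type*} [Fintype α] (a : α) : Nat.card {b : α // b ≠ a} = Fintype.card α - 1 := by
  classical
  rw [Nat.card_eq_fintype_card, Fintype.card_subtype_compl, Fintype.card_subtype_eq]

variable {K : Subalgebra F (Matrix (Fin nn) (Fin nn) F)} {S : Subgroup (GL (Fin nn) F)} {m : ℕ}

theorem num (h : Sit K S H m) (hd : nn ∣ qq - 1) : nn < qq ∧ (2 * (nn * qq) ^ 3) ^ 2 < qq ^ (nn - 1) ∧
    nn * (nn + 1) * (2 * (nn * qq) ^ 3 * qq ^ 2) < qq ^ nn - 1 :=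
  num_sq h.big h.sing.pr (FiniteField.isPrimePow_card F) hd

theorem one_le (h : Sit K S H m) : 1 ≤ 2 * (nn * qq) ^ 3 :=
  Nat.mul_pos two_pos (pow_pos (Nat.mul_pos h.sing.pr.pos Fintype.card_pos) _)

theorem dich (h : Sit K S H m) (hd : nn ∣ qq - 1) (hp : PT H) {x : Fin nn → F} (hx : x ≠ 0) (y : Fin nn → F) :
    r H x y ≤ 2 * (nn * qq) ^ 3 ∨ qq ^ (nn - 1) ≤ r H x y := by
  by_cases hy : y = 0
  · exact .inl ((relIndex_eq_one.2 fun g _ => hy ▸ smul_zero g).le.trans (one_le h))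
  obtain ⟨g, e⟩ := pt_ne hp hx hy
  rw [show r H x y = r H x (g • x) by rw [r, r, e]]
  by_cases h1 : g • x = x
  · exact .inl ((relIndex_eq_one.2 (by rw [h1])).le.trans (one_le h))
  refine (le_or_gt _ _).symm.imp_left fun h2 => ?_
  rw [← ncard_vo]
  refine (Set.ncard_le_ncard ?_).trans (h.small hd hx (h.lt_all hd hp x))
  rw [vo_eq]
  rintro _ ⟨k, rfl⟩
  refine ⟨⟨(k : H) * g, ((k : H) * g).2, mul_smul (k : H) g x⟩,
    fun n => h1 (smul_left_cancel (k : H) (Eq.trans n k.2.symm)), fun n => h2.not_ge ?_⟩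
  have := r_smul (k : H) x (g • x)
  rw [show (k : H) • x = x from k.2] at this
  rw [← this, ← ncard_vo]
  exact n

theorem of_sq (h : Sit K S H m) (hd : nn ∣ qq - 1) (hp : PT H) {x y : Fin nn → F} (hx : x ≠ 0)
    (k : r H x y ≤ 2 * (nn * qq) ^ 3 * (2 * (nn * qq) ^ 3)) : r H x y ≤ 2 * (nn * qq) ^ 3 :=
  (dich h hd hp hx y).resolve_right (k.trans_lt (sq (2 * (nn * qq) ^ 3) ▸ (num h hd).2.1)).not_ge

/-- The vectors with a short orbit. -/
def U (h : Sit K S H m) (hd : nn ∣ qq - 1) (hp : PT H) {x : Fin nn → F} (hx : x ≠ 0) :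
    Submodule F (Fin nn → F) where
  carrier := {y | r H x y ≤ 2 * (nn * qq) ^ 3}
  zero_mem' := (relIndex_eq_one.2 fun g _ => smul_zero g).le.trans (one_le h)
  smul_mem' c y hy := (relIndex_le_of_le_left (st_le c y) (r_ne x y)).trans hy
  add_mem' {y z} hy hz := of_sq h hd hp hx (((relIndex_le_of_le_left
    (show stabilizer H y ⊓ stabilizer H z ≤ stabilizer H (y + z) from fun g hg =>
      (smul_add g y z).trans (congrArg₂ (· + ·) hg.1 hg.2)) index_ne_zero_of_finite).trans
    relIndex_inf_le).trans (Nat.mul_le_mul hy hz))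

theorem self_mem (h : Sit K S H m) (hd : nn ∣ qq - 1) (hp : PT H) {x : Fin nn → F} (hx : x ≠ 0) :
    x ∈ U h hd hp hx := (relIndex_self _).le.trans (one_le h)

theorem U_le (h : Sit K S H m) (hd : nn ∣ qq - 1) (hp : PT H) {x y : Fin nn → F} (hx : x ≠ 0) (hy : y ≠ 0)
    (k : y ∈ U h hd hp hx) : U h hd hp hx ≤ U h hd hp hy := fun z hz => by
  refine of_sq h hd hp hy ?_
  obtain ⟨g, e⟩ := pt_ne hp hx hy
  have h1 : (stabilizer H y).index = (stabilizer H x).index := by
    rw [← e, index_stabilizer, index_stabilizer, orbit_smul]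
  let L := (stabilizer H y ⊓ stabilizer H z) ⊓ stabilizer H x
  have h2 : L.relIndex (stabilizer H y) = L.relIndex (stabilizer H x) :=
    Nat.eq_of_mul_eq_mul_right (Nat.pos_of_ne_zero index_ne_zero_of_finite) (by
      rw [relIndex_mul_index (show L ≤ stabilizer H x from inf_le_right), ← h1,
        relIndex_mul_index (show L ≤ stabilizer H y from inf_le_left.trans inf_le_left)])
  refine (relIndex_le_of_le_left (show L ≤ _ from inf_le_left.trans inf_le_right) index_ne_zero_of_finite).trans ?_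
  rw [h2, inf_relIndex_right]
  exact relIndex_inf_le.trans (Nat.mul_le_mul k hz)

end NoSm

open NoSm in
theorem Sit.allBig {K : Subalgebra F Mn} {S H : Subgroup GLn} {m : ℕ} (h : Sit K S H m) (hd : nn ∣ qq - 1)
    (hp : PT H) {x y : Fin nn → F} (hxy : Ind2 x y) : Big H x y := by
  have hx : x ≠ 0 := fun e => one_ne_zero (hxy 1 0 (by simp [e])).1
  rw [Big, ncard_vo]
  refine (dich h hd hp hx y).resolve_left fun hy => ?_
  obtain ⟨n1, n2, n3⟩ := num h hd
  have b1 := one_le h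
  have SH : S ≤ H := le_sup_left.trans (h.sing.le.trans h.nle)
  have th := h.sing.th
  rw [Nat.gcd_eq_left hd] at th
  have m0 : 0 < m := h.sing.card ▸ Nat.card_pos
  have nt : U h hd hp hx ≠ ⊤ := fun e => by
    have h1 := h.small hd hx (h.lt_all hd hp x)
    have h2 : m ≤ 2 * (nn * qq) ^ 3 + 1 := by
      refine le_trans ?_ ((Set.ncard_insert_le x _).trans (Nat.add_le_add_right h1 1))
      rw [← h.sing.card, ← Set.ncard_univ]
      refine Set.ncard_le_ncard_of_injOn (fun s : S => (s : GLn) • x) (fun s _ => ?_) fun s _ t _ k => ?_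
      · refine or_iff_not_imp_left.2 fun n => ⟨⟨s, SH s.2, rfl⟩, n, fun k => ?_⟩
        rw [Big, ncard_vo] at k
        have := k.trans (e.ge (Submodule.mem_top (x := (s : GLn) • x)))
        nlinarith
      · by_contra n
        refine h.sing.semireg.1 ((t : GLn)⁻¹ * s) (Subgroup.mem_sup_left (mul_mem (inv_mem t.2) s.2))
          (fun k => n (Subtype.ext (inv_mul_eq_one.1 k).symm)) x hx ?_
        exact (mul_smul (t : GLn)⁻¹ s x).trans (inv_smul_eq_iff.2 k)
    rw [← th] at n3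
    refine n3.not_ge ?_
    calc nn * m * (qq - 1) ≤ nn * ((nn + 1) * (2 * (nn * qq) ^ 3)) * qq ^ 2 :=
          Nat.mul_le_mul (Nat.mul_le_mul_left _ (by have := h.big; nlinarith))
            ((Nat.sub_le _ _).trans (Nat.le_self_pow two_ne_zero _))
      _ = _ := by ring
  have free : ∀ s ∈ S, ∀ v ∈ U h hd hp hx, v ≠ 0 → s • v ∈ U h hd hp hx → s = 1 := fun s hs v hv v0 k => by
    by_contra n
    have s0 : s • v ≠ 0 := fun e => v0 ((smul_eq_zero_iff_eq s).1 e)
    refine (h.sing.irr s hs n (U h hd hp hx) fun w hw => ?_).elim (fun e => hx (e.le (self_mem h hd hp hx))) nt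
    refine U_le h hd hp s0 hx (U_le h hd hp hx s0 k (self_mem h hd hp hx)) ?_
    exact (r_smul (⟨s, SH hs⟩ : H) v w).le.trans (U_le h hd hp hx v0 hv hw)
  have mem : ∀ p : F × F, p.1 • x + p.2 • y ∈ U h hd hp hx := fun p =>
    add_mem (Submodule.smul_mem _ _ (self_mem h hd hp hx)) (Submodule.smul_mem _ _ hy)
  have ne : ∀ p : {p : F × F // p ≠ 0}, p.1.1 • x + p.1.2 • y ≠ 0 := fun p e =>
    p.2 (Prod.ext (hxy _ _ e).1 (hxy _ _ e).2)
  have cnt := Nat.card_le_card_of_injective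
    (fun a : S × {p : F × F // p ≠ 0} => (⟨(a.1 : GLn) • (a.2.1.1 • x + a.2.1.2 • y),
      fun e => ne a.2 ((smul_eq_zero_iff_eq (a.1 : GLn)).1 e)⟩ : {v : Fin nn → F // v ≠ 0})) (by
      rintro ⟨s, a⟩ ⟨t, b⟩ e
      have e1 : (s : GLn) • (a.1.1 • x + a.1.2 • y) = (t : GLn) • (b.1.1 • x + b.1.2 • y) :=
        congrArg Subtype.val e
      have e2 := free _ (mul_mem (inv_mem t.2) s.2) _ (mem a.1) (ne a) (by
        rw [mul_smul, e1, inv_smul_smul]; exact mem b.1)
      obtain rfl : t = s := Subtype.ext (inv_mul_eq_one.1 e2)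
      have e3 := hxy (a.1.1 - b.1.1) (a.1.2 - b.1.2) (by
        rw [sub_smul, sub_smul, sub_add_sub_comm, smul_left_cancel _ e1, sub_self])
      exact Prod.ext rfl (Subtype.ext (Prod.ext (sub_eq_zero.1 e3.1) (sub_eq_zero.1 e3.2))))
  rw [Nat.card_prod, card_ne, card_ne, h.sing.card, Fintype.card_prod, Fintype.card_fun, Fintype.card_fin, ← th,
    mul_comm nn m, mul_assoc] at cnt
  have := Nat.le_of_mul_le_mul_left cnt m0
  obtain ⟨k, hk⟩ : ∃ k, qq = k + 1 := ⟨qq - 1, by omega⟩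
  rw [hk, show (k + 1) * (k + 1) - 1 = (k + 2) * k by
    rw [show (k + 1) * (k + 1) = (k + 2) * k + 1 by ring]; rfl, Nat.add_sub_cancel] at this
  have := Nat.le_of_mul_le_mul_right this (by have := h.big; omega)
  omega

end Cfsg.Agent.SG
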