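import Mathlib
import Cfsg.Agent.SG.Defs
import Cfsg.Agent.SG.Abs
import Cfsg.Agent.SG.Tz
import Cfsg.Agent.SG.Fixp
import Cfsg.Agent.SG.Num

set_option autoImplicit false
set_option linter.unusedVariables false

namespace Cfsg.Agent.SG

open Matrix Cfsg.Geo Module
open scoped MatrixGroups ComplexConjugate commutatorElement

variable {nn : ℕ} {F : Type*} [Field F] [Fintype F]

local notation "Mn" => Matrix (Fin nn) (Fin nn) F
local notation "SLn" => specialLinear (Fin nn) F
local notation "Zn" => scalars (Fin nn) F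
local notation "GLn" => GL (Fin nn) F
local notation "qq" => Fintype.card F

omit [Fintype F] in
theorem Red.fix {g : GLn} {p : Projectivization F (Fin nn → F)} :
    g • p = p ↔ ∃ c : F, (g : Mn) *ᵥ p.rep = c • p.rep := by
  conv_lhs => rw [← Projectivization.mk_rep p, Projectivization.smul_mk, Projectivization.mk_eq_mk_iff']
  exact exists_congr fun c => eq_comm

theorem Red.map_ncl {G : Type*} [Group G] {M S : Subgroup G} (H : Subgroup M) :
    (ncl H (S.subgroupOf M)).map M.subtype ≤ ncl (H.map M.subtype) S := by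
  delta ncl
  rw [MonoidHom.map_closure]
  refine Subgroup.closure_mono ?_
  rintro _ ⟨_, ⟨h, hh, s, hs, rfl⟩, rfl⟩
  exact ⟨h, ⟨h, hh, rfl⟩, s, hs, rfl⟩

theorem Sing.red {K : Subalgebra F Mn} {S M : Subgroup GLn} {m : ℕ} (h : Sing K S m) (hn : 13 ≤ nn)
    (h1 : subalgebraNormalizer K ⊓ SLn ≤ M) (h2 : M ≤ SLn) :
    M ≤ subalgebraNormalizer K ∨ ∃ H ≤ M, Sit K S H m := by
  classical
  obtain ⟨n1, n2, n3, n4⟩ := num_m hn (Fintype.one_lt_card (α := F)) h.pr rfl h.th
  have hm : 1 < m := by omega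
  obtain ⟨tz, -, e⟩ := h.tz hm h1 h2
  have hc : Nat.card (Projectivization F (Fin nn → F)) = Nat.gcd nn (qq - 1) * m := card_proj.trans n1
  have hpos : 0 < Nat.card (Projectivization F (Fin nn → F)) := by
    rw [hc]; exact Nat.mul_pos (Nat.gcd_pos_of_pos_left _ (by omega)) (by omega)
  obtain ⟨_, _⟩ := Nat.card_pos_iff.1 hpos
  rcases tz.abs (Ω := Projectivization F (Fin nn → F)) (B := ∑ i ∈ Finset.range (nn - 1), qq ^ i + 1)
    (fun z hz p => by
      obtain ⟨c, hc⟩ := (mem_scalars_iff (z : GLn)).1 hz.1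
      exact Red.fix.2 ⟨c, by rw [hc, smul_mulVec, one_mulVec]⟩)
    (fun s hs s1 p hp => by
      obtain ⟨c, hc⟩ := Red.fix.1 (show (s : GLn) • p = p from hp)
      exact h.semireg.2.1 s hs (fun k => s1 (Subtype.ext k)) _ c p.rep_nonzero hc)
    (hc.trans_le (Nat.mul_le_mul_right _ n2))
    (fun g hg => by
      refine le_trans (le_of_eq (Nat.card_congr (Equiv.subtypeEquivRight fun p => ?_)))
        (card_fix_le (g := (g : GLn)) fun k => hg ⟨k, h2 g.2⟩)
      exact Red.fix (g := (g : GLn))) n3 with k | ⟨H, k1, k2⟩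
  · refine .inl fun g hg => ?_
    have : (⟨g, hg⟩ : M) ∈ (subalgebraNormalizer K).subgroupOf M := by rw [← e, k]; trivial
    exact this
  · refine .inr ⟨H.map M.subtype, Subgroup.map_subtype_le H, hn, h, (Subgroup.map_subtype_le H).trans h2,
      fun g hg => ⟨⟨g, h1 hg⟩, k1 (e ▸ hg.1), rfl⟩, (Subgroup.map_mono k2).trans ?_⟩
    rw [Subgroup.map_sup]
    exact sup_le_sup (Red.map_ncl H) (by rintro _ ⟨z, hz, rfl⟩; exact hz)

end Cfsg.Agent.SG
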