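import Mathlib
import Cfsg.Agent.SG.Defs
import Cfsg.Agent.Cl.MxLin3
import Cfsg.Agent.Cl.ClassSinger

set_option autoImplicit false
set_option linter.unusedSectionVars false

namespace Cfsg.Agent.SG

open Matrix Cfsg.Geo Cfsg.Agent.Cl.D5 Module
open scoped MatrixGroups ComplexConjugate commutatorElement

variable {nn : ℕ} {F : Type*} [Field F] [Fintype F]

local notation "Mn" => Matrix (Fin nn) (Fin nn) F
local notation "SLn" => specialLinear (Fin nn) F
local notation "Zn" => scalars (Fin nn) F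
local notation "GLn" => GL (Fin nn) F

namespace SingA

open Cfsg.Agent.Cl.Max Cfsg.Agent.Cl.Mx

theorem crd {G : Type*} [Group G] (H A : Subgroup G) :
    Nat.card ↥(H ⊓ A) * A.relIndex H = Nat.card H := by
  rw [← (A.subgroupOf H).card_mul_index, ← Subgroup.inf_subgroupOf_left,
    Nat.card_congr (Subgroup.subgroupOfEquivOfLe (inf_le_left : H ⊓ A ≤ H)).toEquiv,
    Subgroup.inf_subgroupOf_left]
  rfl

/-- The number of points. -/
def th (n q : ℕ) : ℕ := ∑ i ∈ Finset.range n, q ^ i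

theorem th_mul (n : ℕ) {q : ℕ} (hq : 1 ≤ q) : th n q * (q - 1) = q ^ n - 1 := by
  obtain ⟨k, rfl⟩ := Nat.exists_eq_add_of_le' hq
  rw [Nat.add_sub_cancel]
  exact (Nat.sub_eq_of_eq_add (geom_sum_mul_add k n).symm).symm

theorem th_num {n q : ℕ} (hn : n.Prime) (h2 : n ≠ 2) (hq : 2 ≤ q) :
    ∃ m, th n q = Nat.gcd n (q - 1) * m ∧ Nat.Coprime m n := by
  have := Fact.mk hn
  by_cases h : n ∣ q - 1
  · obtain ⟨k, hk⟩ := h
    have e : q = 1 + n * k := by omega
    have h1 := odd_sq_dvd_geom_sum₂_sub (R := ℤ) (p := n) 1 k (hn.odd_of_ne_two h2)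
    simp only [one_pow, mul_one] at h1
    obtain ⟨c, hc⟩ := h1
    have h3 : (th n q : ℤ) = n * (n * c + 1) := by
      rw [th, e]
      push_cast
      linear_combination hc
    obtain ⟨m, hm⟩ : n ∣ th n q := Int.natCast_dvd_natCast.1 ⟨_, h3⟩
    refine ⟨m, by rw [Nat.gcd_eq_left ⟨k, hk⟩, hm], ?_⟩
    have h4 : (m : ℤ) = n * c + 1 := by
      rw [hm, Nat.cast_mul] at h3
      exact mul_left_cancel₀ (Nat.cast_ne_zero.2 hn.ne_zero) h3
    exact Nat.isCoprime_iff_coprime.1 ⟨1, -c, by rw [h4]; ring⟩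
  · refine ⟨th n q, by rw [(hn.coprime_iff_not_dvd.2 h).gcd_eq_one, one_mul],
      (hn.coprime_iff_not_dvd.2 fun k => h ?_).symm⟩
    have h1 : n ∣ q ^ n - 1 := th_mul n (show 1 ≤ q by omega) ▸ k.mul_right _
    rw [← ZMod.natCast_eq_zero_iff, Nat.cast_sub (Nat.one_le_pow _ _ (by omega)), Nat.cast_pow, ZMod.pow_card] at h1
    rw [← ZMod.natCast_eq_zero_iff, Nat.cast_sub (by omega), h1]

variable {K : Subalgebra F (Matrix (Fin nn) (Fin nn) F)} {x y : Matrix (Fin nn) (Fin nn) F}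
  {s g : GL (Fin nn) F}

theorem q2 : 2 ≤ Fintype.card F := Fintype.one_lt_card

theorem span_pow (hn : nn.Prime) (hK : IsFieldSubalgebra nn K) (hx : x ∈ K) (hs : ∀ c : F, x ≠ c • 1)
    {v : Fin nn → F} (hv : v ≠ 0) (w : Fin nn → F) :
    ∃ a : Fin nn → F, ∑ i, a i • x ^ (i : ℕ) *ᵥ v = w := by
  have : NeZero nn := ⟨hn.ne_zero⟩
  have h := (linearIndependent_pow_of_prime hK (by simpa using hn) hx hs
    hv).span_eq_top_of_card_eq_finrank' (by simp)
  exact (Submodule.mem_span_range_iff_exists_fun F).1 (h ▸ Submodule.mem_top (x := w))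

theorem mem_of_comm (hn : nn.Prime) (hK : IsFieldSubalgebra nn K) (hx : x ∈ K) (hs : ∀ c : F, x ≠ c • 1)
    (h : y * x = x * y) : y ∈ K := by
  have : NeZero nn := ⟨hn.ne_zero⟩
  have hv : (Pi.single 0 1 : Fin nn → F) ≠ 0 := by simp
  generalize (Pi.single 0 1 : Fin nn → F) = v at hv
  obtain ⟨k, hk, e⟩ := singer_exists hK (by simp) hv (y *ᵥ v)
  suffices y = k from this ▸ hk
  refine Matrix.ext_iff_mulVec.2 fun w => ?_
  obtain ⟨a', rfl⟩ := span_pow hn hK hx hs hv w
  have h1 : ∀ i : ℕ, y *ᵥ x ^ i *ᵥ v = k *ᵥ x ^ i *ᵥ v := fun i => by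
    rw [mulVec_mulVec, (Commute.pow_right h i).eq, mulVec_mulVec, hK.comm k hk _ (pow_mem hx i),
      ← mulVec_mulVec, ← mulVec_mulVec, e]
  simp only [mulVec_sum, mulVec_smul, h1]

variable [NeZero nn]

theorem mem_Z {c : F} (e : (s : Mn) = c • 1) : s ∈ Zn := by
  have c0 : c ≠ 0 := by
    rintro rfl
    exact s.ne_zero (e.trans (zero_smul _ _))
  exact (mem_scalars_iff s).2 ⟨Units.mk0 c c0, e⟩

theorem ns (hs : s ∉ Zn) (c : F) : (s : Mn) ≠ c • 1 := fun e => hs (mem_Z e)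

/-- The units of `K` as invertible matrices. -/
def io (K : Subalgebra F (Matrix (Fin nn) (Fin nn) F)) : Kˣ →* GL (Fin nn) F :=
  Units.map K.val.toMonoidHom

theorem io_inj : Function.Injective (io K) := Units.map_injective Subtype.val_injective

theorem mem_io (hK : IsFieldSubalgebra nn K) : s ∈ (io K).range ↔ (s : Mn) ∈ K := by
  refine ⟨?_, fun h => ?_⟩
  · rintro ⟨a, rfl⟩
    exact (a : K).2
  · obtain ⟨y, hy, e⟩ := hK.inv _ h s.ne_zero
    exact ⟨⟨⟨s, h⟩, ⟨y, hy⟩, Subtype.ext e, Subtype.ext ((hK.comm _ hy _ h).trans e)⟩,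
      Units.ext rfl⟩

theorem card_io (hK : IsFieldSubalgebra nn K) : Nat.card (io K).range = Fintype.card F ^ nn - 1 := by
  let _ := (IsFieldSubalgebra.isField hK).toField
  rw [← Nat.card_congr (MonoidHom.ofInjective io_inj).toEquiv, Nat.card_units,
    card_fieldSubalgebra hK]

theorem det_iff (hK : IsFieldSubalgebra nn K) (hs : (s : Mn) ∈ K) :
    s ∈ SLn ↔ s ^ th nn (Fintype.card F) = 1 := by
  have h1 := singer_det hK (by simp) hs
  have := q2 (F := F)
  rw [← th_mul nn (by omega), Nat.mul_div_cancel _ (by omega), ← Units.val_pow_eq_pow_val] at h1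
  rw [mem_specialLinear_iff]
  refine ⟨fun e => Units.ext (by rw [← h1, e, one_smul, Units.val_one]), fun e => ?_⟩
  rw [e] at h1
  simpa using congrFun₂ h1 0 0

theorem card_S (hK : IsFieldSubalgebra nn K) :
    Nat.card ↥((io K).range ⊓ SLn) = th nn (Fintype.card F) := by
  let _ := (IsFieldSubalgebra.isField hK).toField
  have e : (io K).range ⊓ SLn =
      ((powMonoidHom (th nn (Fintype.card F)) : Kˣ →* Kˣ).ker).map (io K) := by
    ext s
    constructor
    · rintro ⟨⟨a, rfl⟩, h⟩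
      refine ⟨a, io_inj ?_, rfl⟩
      rw [powMonoidHom_apply, map_pow, map_one]
      exact (det_iff hK (a : K).2).1 h
    · rintro ⟨a, h, rfl⟩
      refine ⟨⟨a, rfl⟩, (det_iff hK (a : K).2).2 ?_⟩
      rw [← map_pow, show a ^ th nn (Fintype.card F) = 1 from h, map_one]
  have := q2 (F := F)
  rw [e, Subgroup.card_map_of_injective io_inj, IsCyclic.card_powMonoidHom_ker, Nat.card_units,
    card_fieldSubalgebra hK, ← th_mul nn (by omega), Nat.gcd_mul_right_left]

theorem det_top (hK : IsFieldSubalgebra nn K) :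
    (io K).range.map (Matrix.GeneralLinearGroup.det : GLn →* Fˣ) = ⊤ := by
  have h := crd (io K).range SLn
  have := q2 (F := F)
  rw [card_S hK, card_io hK, ← th_mul nn (by omega), specialLinear, Subgroup.relIndex_ker] at h
  refine Subgroup.eq_top_of_card_eq _ ?_
  rw [Nat.eq_of_mul_eq_mul_left (Nat.pos_of_ne_zero fun k => by
    have h1 := th_mul nn (show 1 ≤ Fintype.card F by omega)
    have h2 := Nat.one_lt_pow (NeZero.ne nn) (show 1 < Fintype.card F by omega)
    rw [k] at h1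
    omega) h, Nat.card_units, Nat.card_eq_fintype_card]

theorem normalizer_eq (hK : IsFieldSubalgebra nn K) :
    Subgroup.normalizer ((io K).range : Set GLn) = subalgebraNormalizer K := by
  ext g
  rw [Subgroup.mem_normalizer_iff]
  refine ⟨fun h => mem_subalgebraNormalizer_of_maps fun k hk => ?_, fun h s => ?_⟩
  · by_cases k0 : k = 0
    · rw [k0, map_zero]; exact zero_mem _
    · obtain ⟨u, rfl⟩ := IsFieldSubalgebra.isUnit hK hk k0
      rw [cj_coe]
      exact (mem_io hK).1 ((h u).1 ((mem_io hK).2 hk))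
  · rw [mem_io hK, mem_io hK, ← cj_coe]
    exact mem_subalgebraNormalizer.1 h _

theorem card_N (hK : IsFieldSubalgebra nn K) :
    Nat.card (subalgebraNormalizer K) = nn * (Fintype.card F ^ nn - 1) := by
  let _ := (IsFieldSubalgebra.isField hK).toField
  have hv : (Pi.single 0 1 : Fin nn → F) ≠ 0 := by simp
  let L := LinearEquiv.ofBijective _ (evAt_bijective hK (by simp) hv)
  let e : End F K ≃ₐ[F] Mn := (L.conjAlgEquiv F).trans LinearMap.toMatrixAlgEquiv'
  let u : (End F K)ˣ ≃* GLn := Units.mapEquiv e.toMulEquiv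
  have he : ∀ a : Kˣ, u (Cl.Cls.singerHom F K a) = io K a := fun a => by
    refine Units.ext (Matrix.ext_iff_mulVec.2 fun w => ?_)
    obtain ⟨b, rfl⟩ := L.surjective w
    change LinearMap.toMatrixAlgEquiv' (L.conjAlgEquiv F (Cl.Cls.singerHom F K a : End F K)) *ᵥ L b =
      ((a : K) : Mn) *ᵥ L b
    rw [← Matrix.toLinAlgEquiv'_apply, Matrix.toLinAlgEquiv'_toMatrixAlgEquiv']
    change L ((Cl.Cls.singerHom F K a : End F K) (L.symm (L b))) = _
    rw [L.symm_apply_apply]
    exact (mulVec_mulVec (Pi.single 0 1) ((a : K) : Mn) (b : Mn)).symm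
  have hr : (Cl.Cls.singerHom F K).range.map u.toMonoidHom = (io K).range := by
    rw [MonoidHom.map_range]
    exact congrArg _ (MonoidHom.ext he)
  have : Finite K := Subtype.finite
  rw [← normalizer_eq hK, ← hr, ← Subgroup.map_equiv_normalizer_eq,
    Subgroup.card_map_of_injective (f := u.toMonoidHom) u.injective, Cl.Cls.card_normalizer_singer,
    IsGalois.card_aut_eq_finrank, hK.finrank_eq, card_fieldSubalgebra hK]

theorem card_Z : Nat.card Zn = Fintype.card F - 1 ∧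
    Nat.card ↥(Zn ⊓ SLn) = Nat.gcd nn (Fintype.card F - 1) := by
  let j : Fˣ →* GLn := Units.map (Matrix.scalar (Fin nn) : F →+* Mn).toMonoidHom
  have ji : Function.Injective j := Units.map_injective fun _ _ h => Matrix.scalar_inj.1 h
  have hj : ∀ c : Fˣ, j c ∈ SLn ↔ c ^ nn = 1 := fun c => by
    rw [mem_specialLinear_iff, ← Units.val_inj]
    change (Matrix.scalar (Fin nn) (c : F)).det = 1 ↔ _
    simp
  refine ⟨?_, ?_⟩
  · rw [scalars, ← Nat.card_congr (MonoidHom.ofInjective ji).toEquiv, Nat.card_units,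
      Nat.card_eq_fintype_card]
  have e : Zn ⊓ SLn = ((powMonoidHom nn : Fˣ →* Fˣ).ker).map j := by
    ext s
    constructor
    · rintro ⟨⟨a, rfl⟩, h⟩
      exact ⟨a, (hj a).1 h, rfl⟩
    · rintro ⟨a, h, rfl⟩
      exact ⟨⟨a, rfl⟩, (hj a).2 h⟩
  rw [e, Subgroup.card_map_of_injective ji, IsCyclic.card_powMonoidHom_ker, Nat.card_units,
    Nat.card_eq_fintype_card, Nat.gcd_comm]

theorem Z_le (hK : IsFieldSubalgebra nn K) : Zn ≤ (io K).range := fun s hs => by
  obtain ⟨c, e⟩ := (mem_scalars_iff s).1 hs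
  rw [mem_io hK, e]
  exact K.smul_mem (one_mem K) _

theorem pow7 (hz : s ∈ Zn) (hs : s ∈ SLn) : s ^ nn = 1 := by
  obtain ⟨c, e⟩ := (mem_scalars_iff s).1 hz
  rw [mem_specialLinear_iff, e] at hs
  refine Units.ext ?_
  rw [Units.val_pow_eq_pow_val, e, _root_.smul_pow, show (c : F) ^ nn = 1 by simpa using hs]
  simp

theorem powq (hz : s ∈ Zn) : s ^ (Fintype.card F - 1) = 1 := by
  have := pow_card_eq_one' (G := Zn) (x := ⟨s, hz⟩)
  rw [card_Z.1] at this
  exact congrArg Subtype.val this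

theorem Z_comm (hz : s ∈ Zn) (g : GLn) : Commute s g := by
  obtain ⟨c, e⟩ := (mem_scalars_iff s).1 hz
  exact Units.ext (by simp [e])

end SingA

open SingA Cfsg.Agent.Cl.Max Cfsg.Agent.Cl.Mx in
theorem exists_sing (hp : nn.Prime) (h3 : 3 ≤ nn) {K : Subalgebra F Mn} (hK : IsFieldSubalgebra nn K) :
    ∃ S m, Sing K S m := by
  have hn := hp
  have h2 : nn ≠ 2 := by omega
  have : NeZero nn := ⟨hn.ne_zero⟩
  have hq := q2 (F := F)
  let _ := (IsFieldSubalgebra.isField hK).toField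
  obtain ⟨m, hm, cop⟩ := th_num hn h2 hq
  have hth := th_mul nn (show 1 ≤ Fintype.card F by omega)
  obtain ⟨S, hS, cS⟩ : ∃ S : Subgroup GLn, (∀ g, g ∈ S ↔ (g : Mn) ∈ K ∧ g ^ m = 1) ∧ Nat.card S = m := by
    refine ⟨((powMonoidHom m : Kˣ →* Kˣ).ker).map (io K), fun g => ⟨?_, fun h => ?_⟩, ?_⟩
    · rintro ⟨a, h, rfl⟩
      exact ⟨(a : K).2, by rw [← map_pow, show a ^ m = 1 from h, map_one]⟩
    · obtain ⟨a, rfl⟩ := (mem_io hK).2 h.1
      exact ⟨a, io_inj (by rw [powMonoidHom_apply, map_pow, map_one, h.2]), rfl⟩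
    · rw [Subgroup.card_map_of_injective io_inj, IsCyclic.card_powMonoidHom_ker, Nat.card_units,
        card_fieldSubalgebra hK, ← hth, hm, mul_comm _ m, mul_assoc, Nat.gcd_mul_right_left]
  have sl : S ≤ SLn := fun s hs => (det_iff hK ((hS s).1 hs).1).2 (by
    rw [hm, mul_comm, pow_mul, ((hS s).1 hs).2, one_pow])
  have nz : ∀ s ∈ S, s ∈ Zn → s = 1 := fun s hs hz => by
    rw [← orderOf_eq_one_iff]
    exact Nat.eq_one_of_dvd_coprimes cop (orderOf_dvd_of_pow_eq_one ((hS s).1 hs).2)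
      (orderOf_dvd_of_pow_eq_one (pow7 hz (sl hs)))
  refine ⟨S, m, hn, hK, hS, sl, cS, by rw [← hm, hth], cop, card_Z.2, fun g hg hk => ?_, ?_,
    fun s hs v c hv e => ?_, nz, fun s hs s1 g h => mem_of_comm hn hK ((hS s).1 hs).1
      (ns fun k => s1 (nz s hs k)) (congrArg Units.val h),
    fun s hs s1 g h => mem_subalgebraNormalizer_of_maps fun k hk => ?_, fun g hg s hs => (hS _).2 ⟨?_, ?_⟩,
    fun s hs s1 U hU => ?_⟩
  · have h1 := (det_iff hK hk).1 hg
    have h3 : g ^ Nat.gcd nn (Fintype.card F - 1) ∈ S :=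
      (hS _).2 ⟨by rw [Units.val_pow_eq_pow_val]; exact pow_mem hk _, by rw [← pow_mul, ← hm, h1]⟩
    have h4 : g ^ m ∈ Zn ⊓ SLn := by
      obtain ⟨k, e⟩ := Nat.gcd_dvd_right nn (Fintype.card F - 1)
      have h5 : (g ^ m) ^ (Fintype.card F - 1) = 1 := by
        rw [e, pow_mul, ← pow_mul g, mul_comm m, ← hm, h1, one_pow]
      obtain ⟨c, e⟩ := scalar_of_pow_card hK (x := ((g ^ m : GLn) : Mn))
        (by rw [Units.val_pow_eq_pow_val]; exact pow_mem hk _) (by
          rw [← Units.val_pow_eq_pow_val, show Fintype.card F = Fintype.card F - 1 + 1 by omega, pow_succ, h5,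
            one_mul])
      exact ⟨mem_Z e, pow_mem hg m⟩
    obtain ⟨a, b, e⟩ := Nat.isCoprime_iff_coprime.2 (cop.coprime_dvd_right (Nat.gcd_dvd_left nn (Fintype.card F - 1)))
    have := mul_mem (zpow_mem (Subgroup.mem_sup_right (S := S) h4) a)
      (zpow_mem (Subgroup.mem_sup_left (T := Zn ⊓ SLn) h3) b)
    rwa [← zpow_natCast, ← zpow_natCast, ← _root_.zpow_mul, ← _root_.zpow_mul, ← _root_.zpow_add, mul_comm _ a,
      mul_comm _ b, e, zpow_one] at this
  · have h := crd (subalgebraNormalizer K) SLn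
    have h1 : (subalgebraNormalizer K).map (Matrix.GeneralLinearGroup.det : GLn →* Fˣ) = ⊤ :=
      top_le_iff.1 ((det_top hK).ge.trans (Subgroup.map_mono
        ((normalizer_eq hK) ▸ Subgroup.le_normalizer)))
    rw [card_N hK, ← hth, ← mul_assoc] at h
    rw [specialLinear, Subgroup.relIndex_ker, h1, Subgroup.card_top, Nat.card_units,
      Nat.card_eq_fintype_card (α := F)] at h
    rw [← hm]
    exact Nat.eq_of_mul_eq_mul_right (by omega) h
  · by_contra h0
    exact IsFieldSubalgebra.mulVec_ne_zero hK (K.sub_mem hs (K.smul_mem (one_mem K) c))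
      (sub_ne_zero.2 h0) hv (by rw [sub_mulVec, e, smul_mulVec, one_mulVec, sub_self])
  · refine mem_of_comm hn hK ((hS _).1 h).1 (ns fun hz' => s1 (nz s hs ?_)) ?_
    · simpa [mul_assoc] using (scalars_normal.conj_mem _ hz' g⁻¹)
    · rw [← cj_coe, ← map_mul, ← map_mul, hK.comm k hk _ ((hS s).1 hs).1]
  · rw [← cj_coe]
    exact (mem_subalgebraNormalizer.1 hg _).1 ((hS s).1 hs).1
  · rw [conj_pow, ((hS s).1 hs).2, mul_one, mul_inv_cancel]
  · refine or_iff_not_imp_left.2 fun h0 => eq_top_iff.2 fun w _ => ?_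
    obtain ⟨v, hv, v0⟩ := (Submodule.ne_bot_iff U).1 h0
    obtain ⟨a, rfl⟩ := span_pow hn hK ((hS s).1 hs).1 (ns fun k => s1 (nz s hs k)) v0 w
    refine U.sum_mem fun i _ => U.smul_mem _ ?_
    induction (i : ℕ) with
    | zero => simpa using hv
    | succ j ih => rw [pow_succ', ← mulVec_mulVec]; exact hU _ ih

end Cfsg.Agent.SG
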