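import Mathlib
import Cfsg.Agent.SG.Defs
import Cfsg.Agent.SG.Lt
import Cfsg.Agent.SG.Sm
import Cfsg.Agent.SG.Full
import Cfsg.Agent.SG.Num
import Cfsg.Agent.SG.Tz

set_option autoImplicit false
set_option linter.unusedVariables false

namespace Cfsg.Agent.SG

open Matrix Cfsg.Geo Module
open scoped MatrixGroups ComplexConjugate commutatorElement

variable {nn : ℕ} {F : Type*} [Field F] [Fintype F]

local notation "Mn" => Matrix (Fin nn) (Fin nn) F
local notation "SLn" => specialLinear (Fin nn) F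
local notation "Zn" => scalars (Fin nn) F
local notation "GLn" => GL (Fin nn) F
local notation "qq" => Fintype.card F

namespace Tr9

theorem dbl {α : Type*} [Finite α] {A C : Set α} (r : α → α → Prop) {N k : ℕ} (hA : A.Nonempty)
    (h1 : ∀ z ∈ C, A.ncard ≤ N * {u ∈ A | r u z}.ncard) (h2 : ∀ u ∈ A, {z ∈ C | r u z}.ncard ≤ k) :
    C.ncard ≤ N * k := by
  classical
  have := Fintype.ofFinite α
  have e := Finset.sum_card_bipartiteAbove_eq_sum_card_bipartiteBelow (s := A.toFinset) (t := C.toFinset) r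
  have a1 : ∑ u ∈ A.toFinset, (C.toFinset.bipartiteAbove r u).card ≤ A.ncard * k := by
    rw [Set.ncard_eq_toFinset_card']
    refine Finset.sum_le_card_nsmul _ _ _ fun u hu => le_trans (le_of_eq ?_) (h2 u (Set.mem_toFinset.1 hu))
    rw [← Set.ncard_coe_finset]
    congr 1
    ext z
    simp [Finset.bipartiteAbove]
  have a2 : C.ncard * A.ncard ≤ N * ∑ z ∈ C.toFinset, (A.toFinset.bipartiteBelow r z).card := by
    rw [Finset.mul_sum, Set.ncard_eq_toFinset_card' C]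
    refine Finset.card_nsmul_le_sum _ _ _ fun z hz => (h1 z (Set.mem_toFinset.1 hz)).trans (le_of_eq ?_)
    rw [← Set.ncard_coe_finset]
    congr 2
    ext u
    simp [Finset.bipartiteBelow]
  have a3 : 0 < A.ncard := (Set.ncard_pos (Set.toFinite A)).2 hA
  rw [← e] at a2
  refine Nat.le_of_mul_le_mul_right (a2.trans ((Nat.mul_le_mul_left N a1).trans (le_of_eq ?_))) a3
  ring

/-- The non-zero vectors on the points of the orbit of `x`. -/
def cone (H : Subgroup (GL (Fin nn) F)) (x : Fin nn → F) : Set (Fin nn → F) :=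
  {w | ∃ g ∈ H, ∃ c : F, c ≠ 0 ∧ w = c • (g : Mn) *ᵥ x}

variable {H : Subgroup (GL (Fin nn) F)} {x y u z : Fin nn → F}

omit [Fintype F] in
theorem self_mem : x ∈ cone H x := ⟨1, one_mem _, 1, one_ne_zero, by simp⟩

omit [Fintype F] in
theorem cone_trans (h1 : y ∈ cone H x) (h2 : z ∈ cone H y) : z ∈ cone H x := by
  obtain ⟨g, hg, c, hc, rfl⟩ := h1
  obtain ⟨k, hk, d, hd, rfl⟩ := h2
  exact ⟨k * g, mul_mem hk hg, d * c, mul_ne_zero hd hc, by
    rw [mulVec_smul, smul_smul, mulVec_mulVec, Units.val_mul]⟩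

omit [Fintype F] in
theorem cone_symm (h : y ∈ cone H x) : x ∈ cone H y := by
  obtain ⟨g, hg, c, hc, rfl⟩ := h
  exact ⟨g⁻¹, inv_mem hg, c⁻¹, inv_ne_zero hc, by
    rw [mulVec_smul, inv_smul_smul₀ hc, mulVec_mulVec, Units.inv_mul, one_mulVec]⟩

omit [Fintype F] in
theorem smul_mem_cone {c : F} (hc : c ≠ 0) : c • x ∈ cone H x := ⟨1, one_mem _, c, hc, by simp⟩

omit [Fintype F] in
theorem mul_ne {g : GL (Fin nn) F} (hx : x ≠ 0) : (g : Mn) *ᵥ x ≠ 0 := fun e =>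
  hx (by rw [← one_mulVec x, ← g.inv_mul, ← mulVec_mulVec, e, mulVec_zero])

omit [Fintype F] in
theorem cone_ne (hx : x ≠ 0) (h : y ∈ cone H x) : y ≠ 0 := by
  obtain ⟨g, hg, c, hc, rfl⟩ := h
  exact smul_ne_zero hc (mul_ne hx)

omit [Fintype F] in
theorem of_smul (hz : z ≠ 0) {c : F} (e : z = c • u) : z ∈ cone H u :=
  e ▸ smul_mem_cone fun k => hz (by rw [e, k, zero_smul])

/-- The line through `u` and `z` meets the orbit of `x` in a second point. -/
def Two (H : Subgroup (GL (Fin nn) F)) (x u z : Fin nn → F) : Prop :=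
  ∃ a b : F, b ≠ 0 ∧ a • u + b • z ∈ cone H x

theorem lonely (hx : x ≠ 0) (hz : z ≠ 0) (h : z ∉ cone H x) :
    {u ∈ cone H x | ¬ Two H x u z}.ncard * qq ≤ qq ^ nn - 1 := by
  have h1 : ({u ∈ cone H x | ¬ Two H x u z} ×ˢ (Set.univ : Set F)).ncard ≤ ({0}ᶜ : Set (Fin nn → F)).ncard := by
    refine Set.ncard_le_ncard_of_injOn (fun p => p.1 + p.2 • z) ?_ ?_
    · rintro ⟨u, a⟩ ⟨⟨hu, -⟩, -⟩ e
      have e1 : u = (-a) • z := by rw [neg_smul]; exact eq_neg_of_add_eq_zero_left e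
      exact h (cone_trans hu (cone_symm (of_smul (cone_ne hx hu) e1)))
    · rintro ⟨u, a⟩ ⟨⟨hu, hu'⟩, -⟩ ⟨w, b⟩ ⟨⟨hw, -⟩, -⟩ e
      replace e : u + a • z = w + b • z := e
      by_cases k : a = b
      · subst k
        rw [add_right_cancel e]
      refine (hu' ⟨1, a - b, sub_ne_zero.2 k, ?_⟩).elim
      rwa [one_smul, sub_smul, ← add_sub_assoc, e, add_sub_cancel_right]
  rwa [Set.ncard_prod, Set.ncard_univ, Nat.card_eq_fintype_card, Set.ncard_compl, Set.ncard_singleton,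
    Nat.card_fun, Nat.card_eq_fintype_card, Nat.card_eq_fintype_card, Fintype.card_fin] at h1

theorem few (hx : x ≠ 0) (hu : u ∈ cone H x) {C : Set (Fin nn → F)} (h0 : ∀ z ∈ C, z ≠ 0)
    (hC : ∀ z ∈ C, z ∉ cone H x) {β : ℕ}
    (hβ : {y | (∃ g ∈ H, (g : Mn) *ᵥ u = y) ∧ y ≠ u ∧ ¬ Big H u y}.ncard ≤ β) :
    {z ∈ C | Two H x u z}.ncard ≤ β * qq ^ 2 := by
  have h1 : {z ∈ C | Two H x u z} ⊆ (fun p : (Fin nn → F) × F × F => p.2.1 • u + p.2.2 • p.1) ''
      ({y | (∃ g ∈ H, (g : Mn) *ᵥ u = y) ∧ y ≠ u ∧ ¬ Big H u y} ×ˢ (Set.univ : Set (F × F))) := by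
    rintro z ⟨hz, a, b, hb, hw⟩
    obtain ⟨g, hg, c, hc, e⟩ := cone_trans (cone_symm hu) hw
    have e1 : z = (-(b⁻¹ * a)) • u + (b⁻¹ * c) • (g : Mn) *ᵥ u := by
      rw [neg_smul, mul_smul, mul_smul, ← e, smul_add, inv_smul_smul₀ hb, neg_add_cancel_left]
    have ns : ∀ t : F, (g : Mn) *ᵥ u ≠ t • u := fun t k =>
      hC z hz (cone_trans hu (of_smul (h0 z hz) (c := -(b⁻¹ * a) + b⁻¹ * c * t)
        (by rw [e1, k, smul_smul, add_smul])))
    refine ⟨((g : Mn) *ᵥ u, -(b⁻¹ * a), b⁻¹ * c), ⟨⟨⟨g, hg, rfl⟩, fun k => ns 1 (k.trans (one_smul F u).symm),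
      fun hB => ?_⟩, trivial⟩, e1.symm⟩
    have hi : Ind2 u ((g : Mn) *ᵥ u) := fun s t k => by
      by_cases ht : t = 0
      · rw [ht, zero_smul, add_zero] at k
        exact ⟨(smul_eq_zero.1 k).resolve_right (cone_ne hx hu), ht⟩
      · refine (ns (-(t⁻¹ * s)) ?_).elim
        rw [neg_smul, mul_smul, eq_neg_of_add_eq_zero_left k, smul_neg, neg_neg, inv_smul_smul₀ ht]
    obtain ⟨k, hk, d, -, e2⟩ := hB.full hi (-(c⁻¹ * a))
    have e3 : (k : Mn) *ᵥ (g : Mn) *ᵥ u = (d * c⁻¹ * b) • z := by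
      rw [e2, mul_smul, mul_smul, eq_sub_of_add_eq' e, smul_sub, inv_smul_smul₀ hc, neg_smul, mul_smul,
        sub_eq_add_neg]
    have m1 : (k : Mn) *ᵥ (g : Mn) *ᵥ u ∈ cone H u :=
      ⟨k * g, mul_mem hk hg, 1, one_ne_zero, by rw [one_smul, mulVec_mulVec, Units.val_mul]⟩
    exact hC z hz (cone_trans (cone_trans hu m1)
      (cone_symm (of_smul (mul_ne (mul_ne (cone_ne hx hu))) e3)))
  refine (Set.ncard_le_ncard h1).trans ((Set.ncard_image_le).trans ?_)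
  rw [Set.ncard_prod, Set.ncard_univ, Nat.card_prod, Nat.card_eq_fintype_card, ← sq]
  exact Nat.mul_le_mul_right _ hβ

theorem big {K : Subalgebra F (Matrix (Fin nn) (Fin nn) F)} {S : Subgroup (GL (Fin nn) F)} {m : ℕ}
    (h : Sit K S H m) (hd : nn ∣ qq - 1) (hx : x ≠ 0) : qq ^ nn - 1 ≤ nn * (cone H x).ncard := by
  have hS : S ≤ H := le_sup_left.trans (h.sing.le.trans h.nle)
  have h1 := h.sing.th
  rw [Nat.gcd_eq_left hd] at h1
  rw [← h1, mul_assoc, mul_comm m, ← h.sing.semireg.2.2 x hx]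
  refine Nat.mul_le_mul_left _ (Set.ncard_le_ncard ?_)
  rintro w ⟨s, hs, c, hc, e⟩
  exact ⟨s, hS hs, c, hc, e⟩

theorem rel {K : Subalgebra F (Matrix (Fin nn) (Fin nn) F)} {S : Subgroup (GL (Fin nn) F)} {m : ℕ}
    (h : Sit K S H m) (hd : nn ∣ qq - 1) (hx : x ≠ 0) (hy : y ≠ 0) (hl : LTr H S x) : y ∈ cone H x := by
  by_contra hn
  have hq : IsPrimePow qq := FiniteField.isPrimePow_card F
  obtain ⟨n1, -, n3⟩ := num_sq h.big h.sing.pr hq hd
  have h0 : ∀ z ∈ cone H y, z ≠ 0 := fun z hz => cone_ne hy hz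
  have hC : ∀ z ∈ cone H y, z ∉ cone H x := fun z hz k => hn (cone_trans k (cone_symm hz))
  have a1 := big h hd hx
  have a2 := big h hd hy
  have a3 := dbl (A := cone H x) (C := cone H y) (Two H x) (N := nn + 1)
    (k := 2 * (nn * qq) ^ 3 * qq ^ 2) ⟨x, self_mem⟩ (fun z hz => ?_) fun u hu => ?_
  · have := Nat.mul_le_mul_left nn a3
    rw [← mul_assoc] at this
    omega
  · have b1 := lonely hx (h0 z hz) (hC z hz)
    have b2 : (cone H x).ncard ≤ {u ∈ cone H x | Two H x u z}.ncard + {u ∈ cone H x | ¬ Two H x u z}.ncard :=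
      (Set.ncard_le_ncard fun u hu => by
        by_cases k : Two H x u z
        exacts [.inl ⟨hu, k⟩, .inr ⟨hu, k⟩]).trans (Set.ncard_union_le _ _)
    have b3 := Nat.mul_le_mul_left {u ∈ cone H x | ¬ Two H x u z}.ncard (show nn + 1 ≤ qq from n1)
    nlinarith
  · refine few hx hu h0 hC (h.small hd (cone_ne hx hu) ?_)
    obtain ⟨g, hg, c, -, rfl⟩ := hu
    exact hl.move hg c

end Tr9

open Tr9 in
theorem Sit.pt {K : Subalgebra F Mn} {S H : Subgroup GLn} {m : ℕ} (h : Sit K S H m) (hd : nn ∣ qq - 1) :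
    PT H := by
  intro x y hx hy
  have hS : S ≤ H := le_sup_left.trans (h.sing.le.trans h.nle)
  have key : y ∈ cone H x := by
    obtain ⟨x0, h0⟩ := h.lt hd
    rcases h0 x with h1 | ⟨s, hs, c, e⟩
    · exact rel h hd hx hy h1
    rcases h0 y with h2 | ⟨t, ht, d, e'⟩
    · exact cone_symm (rel h hd hy hx h2)
    have m1 : x ∈ cone H x0 := ⟨s, hS hs, c, fun k => hx (by rw [e, k, zero_smul]), e⟩
    have m2 : y ∈ cone H x0 := ⟨t, hS ht, d, fun k => hy (by rw [e', k, zero_smul]), e'⟩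
    exact cone_trans (cone_symm m1) m2
  obtain ⟨g, hg, c, hc, e⟩ := key
  exact ⟨g, hg, c⁻¹, by rw [e, inv_smul_smul₀ hc]⟩

end Cfsg.Agent.SG
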